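import Mathlib
import Cfsg.Agent.H19.Misc

/-!
Amalgams of index (3,3) seen on a cubic graph: local lemmas.
-/

set_option autoImplicit false
set_option linter.style.haveILetI false
set_option linter.unusedSectionVars false

namespace Cfsg.Agent.H73.GA

open Subgroup MulAction
open scoped Pointwise

variable {X : Type*} [Group X] {V : Type*} [MulAction X V]

/-- The stabilizer of two vertices. -/
abbrev TT (v a : V) : Subgroup X := stabilizer X v ⊓ stabilizer X a

variable (X) in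
/-- The kernel of a vertex stabilizer on the neighbours. -/
def QQ (Γ : SimpleGraph V) (v : V) : Subgroup X :=
  stabilizer X v ⊓ ⨅ a ∈ Γ.neighborSet v, stabilizer X a

variable (X) in
/-- The central elements of order at most two of a two-vertex stabilizer. -/
def EE (v a : V) : Subgroup X where
  carrier := {x | x ∈ TT (X := X) v a ∧ (∀ t ∈ TT (X := X) v a, t * x = x * t) ∧ x * x = 1}
  one_mem' := ⟨one_mem _, fun t _ => by simp, one_mul 1⟩
  mul_mem' := by
    rintro x y ⟨hx, hxc, hx2⟩ ⟨hy, hyc, hy2⟩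
    refine ⟨mul_mem hx hy, fun t ht => ?_, ?_⟩
    · rw [← mul_assoc, hxc t ht, mul_assoc, hyc t ht, ← mul_assoc]
    · calc x * y * (x * y) = x * (y * x) * y := by group
        _ = x * (x * y) * y := by rw [hxc y hy]
        _ = (x * x) * (y * y) := by group
        _ = 1 := by rw [hx2, hy2, one_mul]
  inv_mem' := by
    rintro x ⟨hx, hxc, hx2⟩
    rw [show x⁻¹ = x from inv_eq_of_mul_eq_one_right hx2]
    exact ⟨hx, hxc, hx2⟩

variable (X) in
/-- The join of the `EE` at a vertex. -/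
def ZZ (Γ : SimpleGraph V) (v : V) : Subgroup X :=
  ⨆ a ∈ Γ.neighborSet v, EE X v a

variable (X) in
/-- The join of the `ZZ` over the neighbours. -/
def VV (Γ : SimpleGraph V) (v : V) : Subgroup X :=
  ⨆ a ∈ Γ.neighborSet v, ZZ X Γ a

variable (X) in
/-- The join of the `VV` over the neighbours. -/
def WW (Γ : SimpleGraph V) (v : V) : Subgroup X :=
  ⨆ a ∈ Γ.neighborSet v, VV X Γ a

variable (X) in
/-- A vertex whose stabilizer centralizes `EE` of its edges. -/
def Bv (Γ : SimpleGraph V) (v : V) : Prop :=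
  ∀ a, Γ.Adj v a → ∀ g : X, g • v = v → ∀ x ∈ EE X v a, g * x = x * g

/-- The hypotheses on the action. -/
structure Amal (X : Type*) [Group X] {V : Type*} [MulAction X V] (Γ : SimpleGraph V) : Prop where
  connected : Γ.Connected
  smul_adj : ∀ (g : X) {v a : V}, Γ.Adj v a → Γ.Adj (g • v) (g • a)
  edge_trans : ∀ {v a v' a' : V}, Γ.Adj v a → Γ.Adj v' a' →
    ∃ g : X, (g • v = v' ∧ g • a = a') ∨ (g • v = a' ∧ g • a = v')
  nbr_trans : ∀ {v a b : V}, Γ.Adj v a → Γ.Adj v b → ∃ g : X, g • v = v ∧ g • a = b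
  exists_adj : ∀ v : V, ∃ a, Γ.Adj v a
  finite : ∀ v : V, Finite (stabilizer X v)
  card_stab : ∀ {v a : V}, Γ.Adj v a → Nat.card (stabilizer X v) = 3 * Nat.card (TT (X := X) v a)
  card_T : ∀ {v a : V}, Γ.Adj v a → Nat.card (TT (X := X) v a) = 2 * Nat.card (QQ X Γ v)
  two : ∀ {v a : V}, Γ.Adj v a → IsPGroup 2 (TT (X := X) v a)
  faithful : ∀ {v a : V}, Γ.Adj v a → ∀ N : Subgroup X, N ≤ TT v a →
    stabilizer X v ≤ normalizer (N : Set X) → stabilizer X a ≤ normalizer (N : Set X) → N = ⊥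

theorem mem_TT {v a : V} {g : X} : g ∈ TT (X := X) v a ↔ g • v = v ∧ g • a = a := by
  simp [TT, Subgroup.mem_inf]

theorem TT_comm (v a : V) : TT (X := X) v a = TT a v := inf_comm _ _

theorem mem_QQ {Γ : SimpleGraph V} {v : V} {g : X} :
    g ∈ QQ X Γ v ↔ g • v = v ∧ ∀ a, Γ.Adj v a → g • a = a := by
  simp [QQ, Subgroup.mem_inf, Subgroup.mem_iInf]

theorem mem_EE {v a : V} {x : X} :
    x ∈ EE X v a ↔ x ∈ TT (X := X) v a ∧ (∀ t ∈ TT (X := X) v a, t * x = x * t) ∧ x * x = 1 :=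
  Iff.rfl

theorem EE_comm (v a : V) : EE X v a = EE X a v := by
  ext x
  rw [mem_EE, mem_EE, TT_comm v a]

namespace Amal

variable {Γ : SimpleGraph V} (d : Amal X Γ) {v w a b c : V}
include d

theorem adj_fix {g : X} (hg : g • v = v) (h : Γ.Adj v a) : Γ.Adj v (g • a) := by
  have := d.smul_adj g h
  rwa [hg] at this

theorem finite_of_le {H : Subgroup X} (h : H ≤ stabilizer X v) : Finite H :=
  haveI := d.finite v
  Finite.of_injective _ (Subgroup.inclusion_injective h)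

theorem finite_TT (v a : V) : Finite (TT (X := X) v a) := d.finite_of_le inf_le_left

theorem ncard_nbrs (h : Γ.Adj v a) : (Γ.neighborSet v).ncard = 3 := by
  haveI := d.finite v
  let G := stabilizer X v
  have horb : MulAction.orbit G a = Γ.neighborSet v := by
    ext u
    constructor
    · rintro ⟨g, rfl⟩
      exact d.adj_fix (mem_stabilizer_iff.1 g.2) h
    · intro hu
      obtain ⟨g, hg, rfl⟩ := d.nbr_trans h hu
      exact ⟨⟨g, mem_stabilizer_iff.2 hg⟩, rfl⟩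
  have h1 := MulAction.index_stabilizer G a
  have hst : stabilizer G a = (TT (X := X) v a).subgroupOf G := by
    ext g
    rw [mem_stabilizer_iff, mem_subgroupOf, mem_TT]
    exact ⟨fun hg => ⟨mem_stabilizer_iff.1 g.2, hg⟩, fun hg => hg.2⟩
  rw [horb, hst] at h1
  have h2 := ((TT (X := X) v a).subgroupOf G).card_mul_index
  rw [h1, Nat.card_congr (subgroupOfEquivOfLe (inf_le_left : TT v a ≤ G)).toEquiv,
    d.card_stab h, mul_comm 3] at h2
  haveI := d.finite_TT (v := v) (a := a)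
  exact Nat.eq_of_mul_eq_mul_left Nat.card_pos h2

theorem exists_other (h : Γ.Adj v a) : ∃ b, Γ.Adj v b ∧ b ≠ a := by
  obtain ⟨b, hb, hne⟩ := Set.exists_ne_of_one_lt_ncard (by rw [d.ncard_nbrs h]; norm_num) a
  exact ⟨b, hb, hne⟩

theorem exists_third (ha : Γ.Adj v a) (hb : Γ.Adj v b) (hab : a ≠ b) :
    ∃ c, Γ.Adj v c ∧ c ≠ a ∧ c ≠ b ∧ ∀ x, Γ.Adj v x → x = a ∨ x = b ∨ x = c := by
  have h1 : (Γ.neighborSet v \ {a, b}).ncard = 1 := by
    have hs : ({a, b} : Set V) ⊆ Γ.neighborSet v := by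
      rintro u (rfl | rfl)
      · exact ha
      · exact hb
    rw [Set.ncard_sdiff hs (Set.toFinite _), d.ncard_nbrs ha, Set.ncard_pair hab]
  obtain ⟨c, hc⟩ := Set.ncard_eq_one.1 h1
  have hc' : c ∈ Γ.neighborSet v \ {a, b} := by rw [hc]; rfl
  simp only [Set.mem_sdiff, Set.mem_insert_iff, Set.mem_singleton_iff, not_or] at hc'
  refine ⟨c, hc'.1, hc'.2.1, hc'.2.2, fun x hx => ?_⟩
  by_contra hne
  simp only [not_or] at hne
  have : x ∈ Γ.neighborSet v \ {a, b} := ⟨hx, by simp [hne.1, hne.2.1]⟩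
  rw [hc] at this
  exact hne.2.2 this

theorem QQ_le_stab (v : V) : QQ X Γ v ≤ stabilizer X v := inf_le_left

theorem QQ_le_TT (h : Γ.Adj v a) : QQ X Γ v ≤ TT v a :=
  fun _ hq => mem_TT.2 ⟨(mem_QQ.1 hq).1, (mem_QQ.1 hq).2 a h⟩

theorem QQ_le_TT' (h : Γ.Adj v a) : QQ X Γ v ≤ TT a v :=
  (d.QQ_le_TT h).trans (TT_comm v a).le

theorem conj_QQ {g q : X} (hq : q ∈ QQ X Γ v) : g * q * g⁻¹ ∈ QQ X Γ (g • v) := by
  obtain ⟨h1, h2⟩ := mem_QQ.1 hq
  refine mem_QQ.2 ⟨by simp [mul_smul, h1], fun u hu => ?_⟩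
  have := d.smul_adj g⁻¹ hu
  rw [inv_smul_smul] at this
  simp [mul_smul, h2 _ this]

theorem conj_QQ_fix {g q : X} (hg : g • v = v) (hq : q ∈ QQ X Γ v) : g * q * g⁻¹ ∈ QQ X Γ v := by
  simpa [hg] using d.conj_QQ (g := g) hq

theorem relIndex_QQ (h : Γ.Adj v a) : ((QQ X Γ v).subgroupOf (TT v a)).index = 2 := by
  haveI := d.finite_of_le (d.QQ_le_stab v)
  have h2 := ((QQ X Γ v).subgroupOf (TT v a)).card_mul_index
  rw [Nat.card_congr (subgroupOfEquivOfLe (d.QQ_le_TT h)).toEquiv, d.card_T h, mul_comm 2] at h2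
  exact Nat.eq_of_mul_eq_mul_left Nat.card_pos h2

theorem exists_not_mem_QQ (h : Γ.Adj v a) : ∃ t ∈ TT (X := X) v a, t ∉ QQ X Γ v := by
  by_contra hc
  push Not at hc
  have := d.relIndex_QQ h
  rw [Subgroup.subgroupOf_eq_top.2 hc, Subgroup.index_top] at this
  omega

/-- Two elements of `T` outside the kernel differ by an element of it. -/
theorem mul_mem_QQ (h : Γ.Adj v a) {s t : X} (hs : s ∈ TT (X := X) v a) (hsQ : s ∉ QQ X Γ v)
    (ht : t ∈ TT (X := X) v a) (htQ : t ∉ QQ X Γ v) : s * t ∈ QQ X Γ v := by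
  have := Subgroup.mul_mem_iff_of_index_two (d.relIndex_QQ h) (a := ⟨s, hs⟩) (b := ⟨t, ht⟩)
  simp only [mem_subgroupOf, Subgroup.coe_mul] at this
  exact this.2 (iff_of_false hsQ htQ)

theorem inv_mul_mem_QQ (h : Γ.Adj v a) {s t : X} (hs : s ∈ TT (X := X) v a) (hsQ : s ∉ QQ X Γ v)
    (ht : t ∈ TT (X := X) v a) (htQ : t ∉ QQ X Γ v) : s⁻¹ * t ∈ QQ X Γ v :=
  d.mul_mem_QQ h (inv_mem hs) (fun h' => hsQ (by simpa using inv_mem h')) ht htQ

theorem sq_mem_QQ (h : Γ.Adj v a) {t : X} (ht : t ∈ TT (X := X) v a) : t * t ∈ QQ X Γ v := by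
  by_cases htQ : t ∈ QQ X Γ v
  · exact mul_mem htQ htQ
  · exact d.mul_mem_QQ h ht htQ ht htQ

theorem mem_QQ_of_fix (ha : Γ.Adj v a) (hb : Γ.Adj v b) (hab : a ≠ b) {g : X} (hv : g • v = v)
    (hga : g • a = a) (hgb : g • b = b) : g ∈ QQ X Γ v := by
  obtain ⟨c, hc, hca, hcb, hall⟩ := d.exists_third ha hb hab
  refine mem_QQ.2 ⟨hv, fun u hu => ?_⟩
  rcases hall u hu with rfl | rfl | rfl
  · exact hga
  · exact hgb
  · rcases hall _ (d.adj_fix hv hu) with h | h | h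
    · exact absurd (MulAction.injective g (h.trans hga.symm)) hca
    · exact absurd (MulAction.injective g (h.trans hgb.symm)) hcb
    · exact h

theorem moves (ha : Γ.Adj v a) (hb : Γ.Adj v b) (hab : a ≠ b) {t : X}
    (ht : t ∈ TT (X := X) v a) (htQ : t ∉ QQ X Γ v) : t • b ≠ b :=
  fun h => htQ (d.mem_QQ_of_fix ha hb hab (mem_TT.1 ht).1 (mem_TT.1 ht).2 h)

theorem swap (ha : Γ.Adj v a) (hb : Γ.Adj v b) (hc : Γ.Adj v c) (hab : a ≠ b) (hac : a ≠ c)
    (hbc : b ≠ c) {t : X} (ht : t ∈ TT (X := X) v a) (htQ : t ∉ QQ X Γ v) : t • b = c := by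
  obtain ⟨e, he, hea, heb, hall⟩ := d.exists_third ha hb hab
  have hec : c = e := by
    rcases hall c hc with h | h | h
    · exact absurd h hac.symm
    · exact absurd h hbc.symm
    · exact h
  rcases hall _ (d.adj_fix (mem_TT.1 ht).1 hb) with h | h | h
  · exact absurd (MulAction.injective t (h.trans (mem_TT.1 ht).2.symm)) hab.symm
  · exact absurd h (d.moves ha hb hab ht htQ)
  · rw [h, hec]

/-- A subgroup containing an edge stabilizer and a mover contains the vertex stabilizer. -/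
theorem stab_le (h : Γ.Adj v a) {H : Subgroup X} (hT : TT v a ≤ H) {g : X} (hgv : g • v = v)
    (hga : g • a ≠ a) (hgH : g ∈ H) : stabilizer X v ≤ H := by
  haveI := d.finite v
  haveI := d.finite_TT (v := v) (a := a)
  let K := H ⊓ stabilizer X v
  haveI : Finite K := d.finite_of_le inf_le_right
  have h1 : TT v a ≤ K := le_inf hT inf_le_left
  obtain ⟨k, hk⟩ := Subgroup.card_dvd_of_le h1
  have h3 : Nat.card K ∣ 3 * Nat.card (TT (X := X) v a) :=
    d.card_stab h ▸ Subgroup.card_dvd_of_le inf_le_right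
  rw [hk, mul_comm 3] at h3
  have hk3 : k ∣ 3 := Nat.dvd_of_mul_dvd_mul_left Nat.card_pos h3
  rcases (Nat.dvd_prime Nat.prime_three).1 hk3 with rfl | rfl
  · exfalso
    rw [mul_one] at hk
    have e : TT v a = K := Subgroup.eq_of_le_of_card_ge h1 hk.le
    have : g ∈ TT (X := X) v a := by rw [e]; exact ⟨hgH, mem_stabilizer_iff.2 hgv⟩
    exact hga (mem_TT.1 this).2
  · have e : K = stabilizer X v :=
      Subgroup.eq_of_le_of_card_ge inf_le_right (by rw [hk, d.card_stab h, mul_comm])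
    exact e.symm.le.trans inf_le_left

theorem stab_le_two (ha : Γ.Adj v a) (hb : Γ.Adj v b) (hab : a ≠ b) {H : Subgroup X}
    (h1 : TT v a ≤ H) (h2 : TT v b ≤ H) : stabilizer X v ≤ H := by
  obtain ⟨t, ht, htQ⟩ := d.exists_not_mem_QQ hb
  exact d.stab_le ha h1 (mem_TT.1 ht).1 (d.moves hb ha hab.symm ht htQ) (h2 ht)

theorem pair_trans (ha : Γ.Adj v a) (hb : Γ.Adj v b) (hab : a ≠ b) {a' b' : V}
    (ha' : Γ.Adj v a') (hb' : Γ.Adj v b') (hab' : a' ≠ b') :
    ∃ g : X, g • v = v ∧ g • a = a' ∧ g • b = b' := by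
  obtain ⟨g, hg, rfl⟩ := d.nbr_trans ha ha'
  by_cases h : g • b = b'
  · exact ⟨g, hg, rfl, h⟩
  obtain ⟨t, ht, htQ⟩ := d.exists_not_mem_QQ ha'
  refine ⟨t * g, by rw [mul_smul, hg, (mem_TT.1 ht).1], by rw [mul_smul, (mem_TT.1 ht).2], ?_⟩
  rw [mul_smul]
  exact d.swap ha' (d.adj_fix hg hb) hb' (fun h' => hab (MulAction.injective g h')) hab' h ht htQ

theorem exists_mover (h : Γ.Adj v a) : ∃ g : X, g • v = v ∧ g • a ≠ a := by
  obtain ⟨b, hb, hba⟩ := d.exists_other h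
  obtain ⟨g, hg, he⟩ := d.nbr_trans h hb
  exact ⟨g, hg, he.trans_ne hba⟩

theorem card_TT_eq (h : Γ.Adj v a) (h' : Γ.Adj w b) :
    Nat.card (TT (X := X) v a) = Nat.card (TT (X := X) w b) := by
  obtain ⟨g, hg⟩ := d.edge_trans h h'
  have key : ∀ x y : V, (TT (X := X) x y).map (MulAut.conj g).toMonoidHom = TT (g • x) (g • y) := by
    intro x y
    rw [TT, TT, Subgroup.map_inf _ _ _ (MulAut.conj g).injective,
      MulAction.stabilizer_smul_eq_stabilizer_map_conj,
      MulAction.stabilizer_smul_eq_stabilizer_map_conj]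
  rw [← Subgroup.card_map_of_injective (K := TT (X := X) v a) (f := (MulAut.conj g).toMonoidHom)
    (MulAut.conj g).injective, key]
  rcases hg with ⟨rfl, rfl⟩ | ⟨rfl, rfl⟩
  · rfl
  · rw [TT_comm]

theorem conj_TT {g t : X} (ht : t ∈ TT (X := X) v a) : g * t * g⁻¹ ∈ TT (X := X) (g • v) (g • a) := by
  obtain ⟨h1, h2⟩ := mem_TT.1 ht
  exact mem_TT.2 ⟨by simp [mul_smul, h1], by simp [mul_smul, h2]⟩

theorem conj_EE {g x : X} (hx : x ∈ EE X v a) : g * x * g⁻¹ ∈ EE X (g • v) (g • a) := by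
  obtain ⟨h1, h2, h3⟩ := mem_EE.1 hx
  refine mem_EE.2 ⟨d.conj_TT h1, fun t ht => ?_, ?_⟩
  · have ht' := d.conj_TT (g := g⁻¹) ht
    rw [inv_smul_smul, inv_smul_smul, inv_inv] at ht'
    calc t * (g * x * g⁻¹) = g * ((g⁻¹ * t * g) * x) * g⁻¹ := by group
      _ = g * (x * (g⁻¹ * t * g)) * g⁻¹ := by rw [h2 _ ht']
      _ = g * x * g⁻¹ * t := by group
  · calc g * x * g⁻¹ * (g * x * g⁻¹) = g * (x * x) * g⁻¹ := by group
      _ = 1 := by rw [h3]; group

theorem conj_ZZ {g x : X} (hx : x ∈ ZZ X Γ v) : g * x * g⁻¹ ∈ ZZ X Γ (g • v) := by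
  suffices h : ZZ X Γ v ≤ (ZZ X Γ (g • v)).comap (MulAut.conj g).toMonoidHom from h hx
  exact iSup₂_le fun a ha y hy =>
    le_iSup₂ (f := fun b _ => EE X (g • v) b) (g • a) (d.smul_adj g ha) (d.conj_EE hy)

theorem conj_VV {g x : X} (hx : x ∈ VV X Γ v) : g * x * g⁻¹ ∈ VV X Γ (g • v) := by
  suffices h : VV X Γ v ≤ (VV X Γ (g • v)).comap (MulAut.conj g).toMonoidHom from h hx
  exact iSup₂_le fun a ha y hy =>
    le_iSup₂ (f := fun b _ => ZZ X Γ b) (g • a) (d.smul_adj g ha) (d.conj_ZZ hy)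

theorem conj_WW {g x : X} (hx : x ∈ WW X Γ v) : g * x * g⁻¹ ∈ WW X Γ (g • v) := by
  suffices h : WW X Γ v ≤ (WW X Γ (g • v)).comap (MulAut.conj g).toMonoidHom from h hx
  exact iSup₂_le fun a ha y hy =>
    le_iSup₂ (f := fun b _ => VV X Γ b) (g • a) (d.smul_adj g ha) (d.conj_VV hy)

omit d in
theorem mem_normalizer_of_conj_le {H : Subgroup X} {S : Subgroup X}
    (h : ∀ g ∈ S, ∀ n ∈ H, g * n * g⁻¹ ∈ H) : S ≤ normalizer (H : Set X) := by
  intro g hg
  rw [Subgroup.mem_normalizer_iff]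
  intro n
  refine ⟨h g hg n, fun hn => ?_⟩
  simpa [mul_assoc] using h g⁻¹ (inv_mem hg) _ hn

theorem stab_le_normalizer_ZZ (v : V) : stabilizer X v ≤ normalizer (ZZ X Γ v : Set X) :=
  mem_normalizer_of_conj_le fun g hg n hn => by
    simpa [mem_stabilizer_iff.1 hg] using d.conj_ZZ (g := g) hn

theorem stab_le_normalizer_VV (v : V) : stabilizer X v ≤ normalizer (VV X Γ v : Set X) :=
  mem_normalizer_of_conj_le fun g hg n hn => by
    simpa [mem_stabilizer_iff.1 hg] using d.conj_VV (g := g) hn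

theorem stab_le_normalizer_WW (v : V) : stabilizer X v ≤ normalizer (WW X Γ v : Set X) :=
  mem_normalizer_of_conj_le fun g hg n hn => by
    simpa [mem_stabilizer_iff.1 hg] using d.conj_WW (g := g) hn

theorem Bv_of_one (h : Γ.Adj v a)
    (hc : ∀ g : X, g • v = v → ∀ x ∈ EE X v a, g * x = x * g) : Bv X Γ v := by
  intro b hb g hg x hx
  obtain ⟨k, hk, hkb⟩ := d.nbr_trans hb h
  have hx' : k * x * k⁻¹ ∈ EE X v a := by simpa [hk, hkb] using d.conj_EE (g := k) hx
  have h1 := hc (k * g * k⁻¹) (by rw [mul_smul, mul_smul, inv_smul_eq_iff.2 hk.symm, hg, hk]) _ hx'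
  calc g * x = k⁻¹ * ((k * g * k⁻¹) * (k * x * k⁻¹)) * k := by group
    _ = k⁻¹ * ((k * x * k⁻¹) * (k * g * k⁻¹)) * k := by rw [h1]
    _ = x * g := by group

theorem Bv_smul (g : X) (hv : Bv X Γ v) : Bv X Γ (g • v) := by
  intro a ha k hk x hx
  have ha' := d.smul_adj g⁻¹ ha
  rw [inv_smul_smul] at ha'
  have hx' := d.conj_EE (g := g⁻¹) hx
  rw [inv_smul_smul, inv_inv] at hx'
  have h1 := hv _ ha' (g⁻¹ * k * g) (by simp [mul_smul, hk]) _ hx'
  calc k * x = g * ((g⁻¹ * k * g) * (g⁻¹ * x * g)) * g⁻¹ := by group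
    _ = g * ((g⁻¹ * x * g) * (g⁻¹ * k * g)) * g⁻¹ := by rw [h1]
    _ = x * k := by group

theorem Bv_smul_iff (g : X) : Bv X Γ (g • v) ↔ Bv X Γ v :=
  ⟨fun h => by simpa using d.Bv_smul g⁻¹ h, d.Bv_smul g⟩

theorem zpowers_eq_one (h : Γ.Adj v a) {x : X} (hx : x ∈ TT (X := X) v a)
    (h1 : ∀ g : X, g • v = v → g * x = x * g) (h2 : ∀ g : X, g • a = a → g * x = x * g) : x = 1 := by
  refine Subgroup.zpowers_eq_bot.1 (d.faithful h _ (zpowers_le.2 hx) ?_ ?_)
  all_goals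
    refine le_trans (fun g hg => ?_) (centralizer_le_normalizer _)
    refine Subgroup.mem_centralizer_iff.2 fun y hy => ?_
    obtain ⟨n, rfl⟩ := Subgroup.mem_zpowers_iff.1 hy
  · exact ((show Commute g x from h1 g (mem_stabilizer_iff.1 hg)).zpow_right n).eq.symm
  · exact ((show Commute g x from h2 g (mem_stabilizer_iff.1 hg)).zpow_right n).eq.symm

/-- An element fixing every vertex is trivial. -/
theorem eq_one_of_fix_all {g : X} (hg : ∀ u : V, g • u = u) : g = 1 := by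
  obtain ⟨v⟩ := d.connected.nonempty
  obtain ⟨a, ha⟩ := d.exists_adj v
  let N : Subgroup X := (MulAction.toPermHom X V).ker
  have hN : N = ⊥ := by
    refine d.faithful ha N (fun x hx => ?_) ?_ ?_
    · rw [MonoidHom.mem_ker] at hx
      exact mem_TT.2 ⟨by simpa using congrArg (fun e : Equiv.Perm V => e v) hx,
        by simpa using congrArg (fun e : Equiv.Perm V => e a) hx⟩
    all_goals exact mem_normalizer_of_conj_le fun k _ n hn =>
      (inferInstance : N.Normal).conj_mem n hn k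
  have : g ∈ N := MonoidHom.mem_ker.2 (Equiv.ext fun u => by simpa using hg u)
  rwa [hN, Subgroup.mem_bot] at this

theorem EE_ne_bot (h : Γ.Adj v a) : EE X v a ≠ ⊥ := by
  haveI : Fact (Nat.Prime 2) := ⟨Nat.prime_two⟩
  haveI := d.finite_TT (v := v) (a := a)
  haveI := d.finite_of_le (d.QQ_le_stab v)
  have hnt : Nontrivial (TT (X := X) v a) :=
    Finite.one_lt_card_iff_nontrivial.1 (by
      rw [d.card_T h]; have := Nat.card_pos (α := QQ X Γ v); omega)
  haveI := (d.two h).center_nontrivial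
  obtain ⟨k, hk⟩ := ((d.two h).to_subgroup (Subgroup.center (TT (X := X) v a))).exists_card_eq
  obtain ⟨z, hz⟩ := exists_prime_orderOf_dvd_card' (G := Subgroup.center (TT (X := X) v a)) 2 (by
    rw [hk]
    refine dvd_pow_self 2 fun h0 => ?_
    have := Finite.one_lt_card (α := Subgroup.center (TT (X := X) v a))
    rw [hk, h0] at this
    simp at this)
  intro hbot
  have hz2 := pow_orderOf_eq_one z
  rw [hz, pow_two] at hz2
  have hmem : ((z : TT (X := X) v a) : X) ∈ EE X v a := by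
    refine mem_EE.2 ⟨(z : TT (X := X) v a).2, fun t ht => ?_, ?_⟩
    · exact congrArg Subtype.val (Subgroup.mem_center_iff.1 z.2 ⟨t, ht⟩)
    · exact congrArg (fun s : Subgroup.center (TT (X := X) v a) => ((s : TT (X := X) v a) : X)) hz2
  rw [hbot, Subgroup.mem_bot] at hmem
  rw [show z = 1 from Subtype.ext (Subtype.ext hmem), orderOf_one] at hz
  omega

/-- The two ends of an edge are not both central. -/
theorem not_both (h : Γ.Adj v a) : ¬ (Bv X Γ v ∧ Bv X Γ a) := by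
  rintro ⟨hv, ha⟩
  refine d.EE_ne_bot h ((Subgroup.eq_bot_iff_forall _).2 fun x hx => ?_)
  exact d.zpowers_eq_one h (mem_EE.1 hx).1 (fun g hg => hv a h g hg x hx)
    (fun g hg => ha v h.symm g hg x (EE_comm (X := X) v a ▸ hx))

end Amal

end Cfsg.Agent.H73.GA
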