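import Cfsg.Agent.H73.GoldMix

/-!
Amalgams of index (3,3): counting in the centres, and the case of even critical distance.
-/

set_option autoImplicit false
set_option linter.style.haveILetI false
set_option linter.unusedSectionVars false

namespace Cfsg.Agent.H73.GA

open Subgroup MulAction
open scoped Pointwise

variable {X : Type*} [Group X] {V : Type*} [MulAction X V]

variable (X) in
/-- The centres of central vertices have order two. -/
def Two (Γ : SimpleGraph V) : Prop :=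
  ∀ v, Bv X Γ v → ∃ r : X, r ≠ 1 ∧ r ∈ ZZ X Γ v ∧ ∀ x ∈ ZZ X Γ v, x = 1 ∨ x = r

namespace Mix

variable {Γ : SimpleGraph V} (d : Mix X Γ) {u v w a b c : V} {p : ℕ → V}
include d

theorem map_ZZ (g : X) (v : V) :
    (ZZ X Γ v).map (MulAut.conj g).toMonoidHom = ZZ X Γ (g • v) := by
  refine le_antisymm ?_ fun x hx => ?_
  · rintro _ ⟨x, hx, rfl⟩
    exact d.conj_ZZ hx
  · have := d.conj_ZZ (g := g⁻¹) hx
    rw [inv_smul_smul] at this
    exact ⟨_, this, by simp [mul_assoc]⟩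

theorem finite_ZZ (v : V) : Finite (ZZ X Γ v) :=
  d.finite_of_le ((d.ZZ_le_QQ v).trans (d.QQ_le_stab v))

theorem exists_smul_eq (h : Bv X Γ v ↔ Bv X Γ w) : ∃ g : X, g • v = w := by
  obtain ⟨g, hg⟩ := d.conjArcs_zero (Bv X Γ w) (fun _ => v) (fun _ => w)
    ⟨fun i hi => by omega, fun i hi => by omega⟩ ⟨fun i hi => by omega, fun i hi => by omega⟩ h Iff.rfl
  exact ⟨g, hg 0 le_rfl⟩

theorem card_ZZ_eq (h : Bv X Γ v ↔ Bv X Γ w) : Nat.card (ZZ X Γ v) = Nat.card (ZZ X Γ w) := by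
  obtain ⟨g, rfl⟩ := d.exists_smul_eq h
  rw [← d.map_ZZ, Subgroup.card_map_of_injective (MulAut.conj g).injective]

theorem card_mul_le (hv : ¬ Bv X Γ v) (ha : Γ.Adj v a) (hb : Γ.Adj v b) (hab : a ≠ b) :
    Nat.card (ZZ X Γ a) * Nat.card (ZZ X Γ b) ≤ Nat.card (ZZ X Γ v) := by
  haveI := d.finite_ZZ v
  rw [← Nat.card_prod]
  refine Nat.card_le_card_of_injective (fun x => ⟨x.1 * x.2, mul_mem
    (d.ZZ_B_le (d.nbr_B ha hv) ha.symm x.1.2) (d.ZZ_B_le (d.nbr_B hb hv) hb.symm x.2.2)⟩) ?_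
  rintro ⟨x, y⟩ ⟨x', y'⟩ he
  simp only [Subtype.mk.injEq] at he
  have h1 : (x' : X)⁻¹ * x = y' * (y : X)⁻¹ := by
    rw [eq_mul_inv_iff_mul_eq, mul_assoc, he, inv_mul_cancel_left]
  have h2 : (x' : X)⁻¹ * x = 1 :=
    d.disjoint_ZZ hv ha hb hab (mul_mem (inv_mem x'.2) x.2) (h1 ▸ mul_mem y'.2 (inv_mem y.2))
  have hx : (x : X) = x' := (inv_mul_eq_one.1 h2).symm
  rw [hx] at he
  exact Prod.ext (Subtype.ext hx) (Subtype.ext (mul_left_cancel he))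

theorem exists_delta (v : V) (t : X) (ht : t • v = v) :
    ∃ δ : ↥(ZZ X Γ v) →* X, ∀ z : ↥(ZZ X Γ v), δ z = z * (t * z * t⁻¹) := by
  refine ⟨MonoidHom.mk' (fun z => z * (t * z * t⁻¹)) fun x y => ?_, fun _ => rfl⟩
  have hx : t * (x : X) * t⁻¹ ∈ ZZ X Γ v := by simpa [ht] using d.conj_ZZ (g := t) x.2
  simp only [Subgroup.coe_mul]
  calc (x : X) * y * (t * (x * y) * t⁻¹) = x * (y * (t * x * t⁻¹)) * (t * y * t⁻¹) := by group
    _ = x * (t * x * t⁻¹) * (y * (t * y * t⁻¹)) := by rw [d.ZZ_comm y.2 hx]; group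

theorem commute_of_delta {t z : X} (hz : z ∈ ZZ X Γ v) (h : z * (t * z * t⁻¹) = 1) :
    t * z = z * t := by
  have h' : t * z * t⁻¹ = z := by rw [eq_inv_of_mul_eq_one_right h, d.ZZ_inv hz]
  calc t * z = (t * z * t⁻¹) * t := by group
    _ = z * t := by rw [h']

/-- A bound on a noncentral centre by a bound on the values of `z ↦ z zᵗ`. -/
theorem card_ZZ_le (hv : ¬ Bv X Γ v) (ha : Γ.Adj v a) {t : X} (ht : t ∈ TT (X := X) v a)
    (htQ : t ∉ QQ X Γ v) (S : Set X) (hS : S.Finite)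
    (hval : ∀ z ∈ ZZ X Γ v, z * (t * z * t⁻¹) ∈ S) :
    Nat.card (ZZ X Γ v) ≤ Nat.card (ZZ X Γ a) * S.ncard := by
  haveI := d.finite_ZZ v
  haveI := d.finite_ZZ a
  obtain ⟨δ, hδ⟩ := d.exists_delta v t (mem_TT.1 ht).1
  rw [← δ.ker.card_mul_index, Subgroup.index_ker]
  refine Nat.mul_le_mul ?_ ?_
  · refine Nat.card_le_card_of_injective (fun z => ⟨((z : ZZ X Γ v) : X), d.mem_ZZ_of_commute hv ha
      ht htQ z.1.2 (d.commute_of_delta z.1.2 ?_)⟩) fun x y h => ?_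
    · rw [← hδ]; exact MonoidHom.mem_ker.1 z.2
    · exact Subtype.ext (Subtype.ext (congrArg (fun u : ZZ X Γ a => (u : X)) h))
  · have hsub : (δ.range : Set X) ⊆ S := by
      rintro _ ⟨z, rfl⟩
      rw [hδ]; exact hval _ z.2
    exact (Nat.card_coe_set_eq _).le.trans (Set.ncard_le_ncard hsub hS)

theorem two_of_card (hv : Bv X Γ v) (h : Nat.card (ZZ X Γ v) ≤ 2) : Two X Γ := by
  intro w hw
  rw [d.card_ZZ_eq (iff_of_true hv hw)] at h
  haveI := d.finite_ZZ w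
  have h1 : 1 < Nat.card (ZZ X Γ w) := (Subgroup.one_lt_card_iff_ne_bot _).2 (d.ZZ_ne_bot w)
  obtain ⟨x, y, hxy, hu⟩ := Nat.card_eq_two_iff.1 (show Nat.card (ZZ X Γ w) = 2 by omega)
  have hall : ∀ z : ZZ X Γ w, z = x ∨ z = y := fun z => by
    have := Set.mem_univ z
    rwa [← hu, Set.mem_insert_iff, Set.mem_singleton_iff] at this
  rcases hall 1 with h0 | h0
  · refine ⟨y, fun hy => hxy ?_, y.2, fun z hz => ?_⟩
    · rw [← h0]; exact (Subtype.ext hy).symm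
    · rcases hall ⟨z, hz⟩ with h | h
      · left; rw [← h0] at h; exact congrArg Subtype.val h
      · right; exact congrArg Subtype.val h
  · refine ⟨x, fun hx => hxy ?_, x.2, fun z hz => ?_⟩
    · rw [← h0]; exact Subtype.ext hx
    · rcases hall ⟨z, hz⟩ with h | h
      · right; exact congrArg Subtype.val h
      · left; rw [← h0] at h; exact congrArg Subtype.val h

theorem exists_ne_one (v : V) : ∃ x ∈ ZZ X Γ v, x ≠ 1 :=
  (Subgroup.bot_or_exists_ne_one _).resolve_left (d.ZZ_ne_bot v)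

theorem card_inf_QQ_le {H : Subgroup X} (ha : Γ.Adj v a) (hH : H ≤ TT v a) :
    Nat.card H ≤ 2 * Nat.card (H ⊓ QQ X Γ v : Subgroup X) := by
  classical
  haveI := d.finite_of_le (hH.trans inf_le_left)
  haveI := d.finite_of_le ((inf_le_left : H ⊓ QQ X Γ v ≤ H).trans (hH.trans inf_le_left))
  by_cases hex : H ≤ QQ X Γ v
  · rw [inf_eq_left.2 hex]; omega
  obtain ⟨s, hs, hsQ⟩ := SetLike.not_le_iff_exists.1 hex
  have e2 : Nat.card (Bool × (H ⊓ QQ X Γ v : Subgroup X)) =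
      2 * Nat.card (H ⊓ QQ X Γ v : Subgroup X) := by
    rw [Nat.card_prod, Nat.card_eq_fintype_card, Fintype.card_bool]
  refine le_of_le_of_eq ?_ e2
  let f : H → Bool × (H ⊓ QQ X Γ v : Subgroup X) := fun x =>
    if hx : (x : X) ∈ QQ X Γ v then (true, ⟨x, Subgroup.mem_inf.2 ⟨x.2, hx⟩⟩)
    else (false, ⟨s⁻¹ * x, Subgroup.mem_inf.2
      ⟨mul_mem (inv_mem hs) x.2, d.inv_mul_mem_QQ ha (hH hs) hsQ (hH x.2) hx⟩⟩)
  refine Nat.card_le_card_of_injective f fun x y h => ?_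
  simp only [f] at h
  by_cases hx : (x : X) ∈ QQ X Γ v <;> by_cases hy : (y : X) ∈ QQ X Γ v
  · rw [dif_pos hx, dif_pos hy, Prod.mk.injEq, Subtype.mk.injEq] at h
    exact Subtype.ext h.2
  · rw [dif_pos hx, dif_neg hy, Prod.mk.injEq] at h
    exact absurd h.1 (by decide)
  · rw [dif_neg hx, dif_pos hy, Prod.mk.injEq] at h
    exact absurd h.1 (by decide)
  · rw [dif_neg hx, dif_neg hy, Prod.mk.injEq, Subtype.mk.injEq] at h
    exact Subtype.ext (mul_left_cancel h.2)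

/-! ### With centres of order two -/

variable (hm : Two X Γ)
include hm

theorem eq_of_ne_one (hv : Bv X Γ v) {x y : X} (hx : x ∈ ZZ X Γ v) (hy : y ∈ ZZ X Γ v)
    (hx1 : x ≠ 1) (hy1 : y ≠ 1) : x = y := by
  obtain ⟨r, -, -, hr⟩ := hm v hv
  rw [(hr x hx).resolve_left hx1, (hr y hy).resolve_left hy1]

theorem ZZ_le_of_mem (hv : Bv X Γ v) {x : X} (hx : x ∈ ZZ X Γ v) (hx1 : x ≠ 1) {H : Subgroup X}
    (hH : x ∈ H) : ZZ X Γ v ≤ H := fun y hy => by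
  by_cases hy1 : y = 1
  · rw [hy1]; exact one_mem _
  · rwa [d.eq_of_ne_one hm hv hy hx hy1 hx1]

theorem mem_split (hv : ¬ Bv X Γ v) (ha : Γ.Adj v a) {x y : X} (hx : x ∈ ZZ X Γ v)
    (hxa : x ∉ ZZ X Γ a) (hy : y ∈ ZZ X Γ v) : y ∈ ZZ X Γ a ∨ x * y ∈ ZZ X Γ a := by
  obtain ⟨t, ht, htQ⟩ := d.exists_not_mem_QQ ha
  obtain ⟨δ, hδ⟩ := d.exists_delta v t (mem_TT.1 ht).1
  by_cases hy1 : δ ⟨y, hy⟩ = 1
  · left
    rw [hδ] at hy1
    exact d.mem_ZZ_of_commute hv ha ht htQ hy (d.commute_of_delta hy hy1)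
  · right
    refine d.mem_ZZ_of_commute hv ha ht htQ (mul_mem hx hy) (d.commute_of_delta (mul_mem hx hy) ?_)
    have hx1 : δ ⟨x, hx⟩ ≠ 1 := fun h => hxa <| by
      rw [hδ] at h
      exact d.mem_ZZ_of_commute hv ha ht htQ hx (d.commute_of_delta hx h)
    have he : δ ⟨x, hx⟩ = δ ⟨y, hy⟩ := by
      refine d.eq_of_ne_one hm (d.nbr_B ha hv) ?_ ?_ hx1 hy1
      · rw [hδ]; exact d.delta_mem hv ha ht hx
      · rw [hδ]; exact d.delta_mem hv ha ht hy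
    have h := hδ (⟨x, hx⟩ * ⟨y, hy⟩)
    rw [map_mul, he] at h
    simp only [Subgroup.coe_mul] at h
    rw [← h]
    have h' : δ ⟨y, hy⟩ ∈ ZZ X Γ a := by rw [hδ]; exact d.delta_mem hv ha ht hy
    exact d.ZZ_sq h'

theorem eq_mul_of_three (hv : ¬ Bv X Γ v) (ha : Γ.Adj v a) (hb : Γ.Adj v b) (hc : Γ.Adj v c)
    (hab : a ≠ b) (hac : a ≠ c) (hbc : b ≠ c) {x y z : X} (hx : x ∈ ZZ X Γ a) (hy : y ∈ ZZ X Γ b)
    (hz : z ∈ ZZ X Γ c) (hx1 : x ≠ 1) (hy1 : y ≠ 1) (hz1 : z ≠ 1) : z = x * y := by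
  have hav := d.ZZ_B_le (d.nbr_B ha hv) ha.symm
  have hbv := d.ZZ_B_le (d.nbr_B hb hv) hb.symm
  have hcv := d.ZZ_B_le (d.nbr_B hc hv) hc.symm
  have hya : y ∉ ZZ X Γ a := fun h => hy1 (d.disjoint_ZZ hv ha hb hab h hy)
  rcases d.mem_split hm hv ha (hbv hy) hya (hcv hz) with h | h
  · exact absurd (d.disjoint_ZZ hv ha hc hac h hz) hz1
  · have h1 : y * z ≠ 1 := fun h0 => hz1 (d.disjoint_ZZ hv hb hc hbc (by
      rw [eq_inv_of_mul_eq_one_right h0]; exact inv_mem hy) hz)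
    calc z = y⁻¹ * (y * z) := by group
      _ = y * x := by rw [d.eq_of_ne_one hm (d.nbr_B ha hv) h hx h1 hx1, d.ZZ_inv hy]
      _ = x * y := d.ZZ_comm (hbv hy) (hav hx)

omit hm

/-! ### Even critical distance -/

theorem crit_conj_end (hp : Crit X Γ p) {z : X} (hz : z ∈ ZZ X Γ (p 0))
    (hzQ : z ∉ QQ X Γ (p (bb X Γ))) :
    z ∈ TT (X := X) (p (bb X Γ)) (p (bb X Γ - 1)) := by
  have := d.bb_pos
  exact mem_TT.2
    ⟨d.ZZ_fix ((d.dist_path hp.1 (Nat.zero_le _) le_rfl).trans (by omega)) hz,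
      d.ZZ_fix ((d.dist_path hp.1 (Nat.zero_le _) (by omega)).trans (by omega)) hz⟩

theorem adj_last (hp : Crit X Γ p) : Γ.Adj (p (bb X Γ)) (p (bb X Γ - 1)) := by
  have := d.bb_pos
  have h := hp.1 (bb X Γ - 1) (by omega)
  rw [show bb X Γ - 1 + 1 = bb X Γ by omega] at h
  exact h.symm

theorem even_data (hp : Crit X Γ p) (he : Even (bb X Γ)) :
    Two X Γ ∧ (∃ t ∈ ZZ X Γ (p (bb X Γ)), t ∈ TT (X := X) (p 0) (p 1) ∧ t ∉ QQ X Γ (p 0)) ∧
      ZZ X Γ (p 1) = ZZ X Γ (p (bb X Γ - 1)) := by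
  have hb := d.bb_pos
  have h0 := d.crit_start hp
  have hlast : ¬ Bv X Γ (p (bb X Γ)) := fun h =>
    (Nat.not_odd_iff_even.2 he) ((d.crit_type hp le_rfl).1 h)
  have hpos : ¬ ZZ X Γ (p (bb X Γ)) ≤ QQ X Γ (p 0) := by
    intro hle
    refine hp.2 fun z hz => d.mem_QQ_of_cent hlast ?_ fun x hx => (d.QQ_comm_ZZ hz (hle hx)).symm
    exact d.ZZ_fix ((d.dist_path hp.1 (Nat.zero_le _) le_rfl).trans (by omega)) hz
  obtain ⟨t, ht, htQ⟩ := SetLike.not_le_iff_exists.1 hpos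
  have h01 := hp.1 0 hb
  have htT : t ∈ TT (X := X) (p 0) (p 1) := by
    refine mem_TT.2 ⟨d.ZZ_fix ?_ ht, d.ZZ_fix ?_ ht⟩ <;> rw [SimpleGraph.dist_comm]
    · exact (d.dist_path hp.1 (Nat.zero_le _) le_rfl).trans (by omega)
    · exact (d.dist_path hp.1 (show 1 ≤ bb X Γ by omega) le_rfl).trans (by omega)
  obtain ⟨s, hs, hsQ⟩ := SetLike.not_le_iff_exists.1 hp.2
  have hsT := d.crit_conj_end hp hs hsQ
  set c := s * (t * s * t⁻¹) with hc
  have hval : ∀ z ∈ ZZ X Γ (p 0), z * (t * z * t⁻¹) ∈ ({1, c} : Set X) := by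
    intro z hz
    by_cases hzQ : z ∈ QQ X Γ (p (bb X Γ))
    · left
      rw [show t * z = z * t from (d.QQ_comm_ZZ ht hzQ).symm, mul_inv_cancel_right, d.ZZ_sq hz]
    · right
      have hq := d.inv_mul_mem_QQ (d.adj_last hp) hsT hsQ (d.crit_conj_end hp hz hzQ) hzQ
      have h1 := d.QQ_comm_ZZ ht hq
      have hzinv := d.ZZ_inv hz
      have hsinv := d.ZZ_inv hs
      have e : z * t * z⁻¹ = s * t * s⁻¹ := by
        calc z * t * z⁻¹ = s * ((s⁻¹ * z) * t) * (s⁻¹ * z)⁻¹ * s⁻¹ := by group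
          _ = s * t * s⁻¹ := by rw [h1]; group
      show _ = c
      calc z * (t * z * t⁻¹) = (z * t * z⁻¹) * t⁻¹ := by rw [hzinv]; group
        _ = c := by rw [e, hc, hsinv]; group
  have hcard := d.card_ZZ_le h0 h01 htT htQ {1, c} (Set.toFinite _) hval
  obtain ⟨e, he', he1⟩ := d.exists_other h01
  have h2 := d.card_mul_le h0 h01 he' he1.symm
  have hB1 : Bv X Γ (p 1) := d.nbr_B h01 h0
  rw [d.card_ZZ_eq (v := e) (w := p 1) (iff_of_true (d.nbr_B he' h0) hB1)] at h2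
  haveI := d.finite_ZZ (p 1)
  have hle : Nat.card (ZZ X Γ (p 1)) ≤ 2 := by
    refine Nat.le_of_mul_le_mul_left (h2.trans (hcard.trans (Nat.mul_le_mul_left _ ?_))) Nat.card_pos
    exact (Set.ncard_insert_le _ _).trans (by simp)
  have hm := d.two_of_card hB1 hle
  refine ⟨hm, ⟨t, ht, htT, htQ⟩, ?_⟩
  have hc1 : c ∈ ZZ X Γ (p 1) := d.delta_mem h0 h01 htT hs
  have hc2 : c ∈ ZZ X Γ (p (bb X Γ - 1)) := by
    have := inv_mem (d.delta_mem hlast (d.adj_last hp) hsT ht)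
    have e : (t * (s * t * s⁻¹))⁻¹ = c := by
      simp only [hc, mul_inv_rev, inv_inv, d.ZZ_inv ht, d.ZZ_inv hs, mul_assoc]
    rwa [e] at this
  have hcne : c ≠ 1 := fun h => hsQ <| by
    refine d.ZZ_le_QQ_of_lt ?_ (d.mem_ZZ_of_commute h0 h01 htT htQ hs (d.commute_of_delta hs h))
    exact lt_of_le_of_lt (d.dist_path hp.1 (show 1 ≤ bb X Γ by omega) le_rfl) (by omega)
  have hB2 : Bv X Γ (p (bb X Γ - 1)) := d.nbr_B (d.adj_last hp) hlast
  exact le_antisymm (d.ZZ_le_of_mem hm hB1 hc1 hcne hc2) (d.ZZ_le_of_mem hm hB2 hc2 hcne hc1)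

theorem not_even_of_four_le (hp : Crit X Γ p) (he : Even (bb X Γ)) (h4 : 4 ≤ bb X Γ) : False := by
  obtain ⟨hm, ⟨t, ht, htT, htQ⟩, -⟩ := d.even_data hp he
  set n := bb X Γ with hn
  have ha := d.crit_isArc hp
  have h0 := d.crit_start hp
  have h01 := hp.1 0 (by omega)
  obtain ⟨μ, hμ, hμ1⟩ := d.exists_other h01
  have hμB : Bv X Γ μ := d.nbr_B hμ h0
  have hd0 : ∀ i ≤ n, Γ.dist (p i) (p n) ≤ n - i := fun i hi => d.dist_path hp.1 hi le_rfl
  have harc : ∀ ν, Γ.Adj μ ν → ν ≠ p 0 → IsArc Γ n (acons ν (acons μ p)) := fun ν hν hne =>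
    (((ha.cons hμ.symm (Or.inr hμ1)).cons hν.symm (Or.inr (by simpa using hne)))).take (by omega)
  have hlast2 : ∀ ν, acons ν (acons μ p) n = p (n - 2) := fun ν => by
    obtain ⟨k, hk⟩ : ∃ k, n = k + 2 := ⟨n - 2, by omega⟩
    rw [hk]; rfl
  have hnob : ∀ ν, Γ.Adj μ ν → ν ≠ p 0 → ZZ X Γ ν ≤ QQ X Γ (p (n - 2)) := by
    intro ν hν hne
    by_contra hnle
    have hq : Crit X Γ (acons ν (acons μ p)) := ⟨(harc ν hν hne).1, by
      show ¬ ZZ X Γ (acons ν (acons μ p) 0) ≤ QQ X Γ (acons ν (acons μ p) n)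
      rw [hlast2]; exact hnle⟩
    obtain ⟨-, -, heq⟩ := d.even_data hq he
    have h3 : acons ν (acons μ p) (n - 1) = p (n - 3) := by
      obtain ⟨k, hk⟩ : ∃ k, n = k + 3 := ⟨n - 3, by omega⟩
      rw [hk]; rfl
    rw [← hn, h3] at heq
    simp only [acons_succ, acons_zero] at heq
    obtain ⟨r, hr, hr1⟩ := d.exists_ne_one μ
    have hfix : t * r * t⁻¹ = r := by
      have hcomm : t * r = r * t := d.ZZ_commute (lt_of_le_of_lt
        ((SimpleGraph.dist_comm).le.trans (hd0 (n - 3) (by omega))) (by omega)) ht (heq ▸ hr)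
      rw [hcomm, mul_inv_cancel_right]
    have hr' := d.conj_ZZ (g := t) hr
    rw [hfix] at hr'
    exact hr1 (d.disjoint_ZZ h0 hμ (d.adj_fix (mem_TT.1 htT).1 hμ)
      (d.moves h01 hμ hμ1.symm htT htQ).symm hr hr')
  obtain ⟨z, hz, hzQ⟩ := SetLike.not_le_iff_exists.1 hp.2
  have hzfix : ∀ i ≤ n, z • p i = p i := fun i hi =>
    d.ZZ_fix ((d.dist_path hp.1 (Nat.zero_le i) hi).trans (by omega)) hz
  by_cases hex : ∃ ν, Γ.Adj μ ν ∧ ν ≠ p 0 ∧ ∃ x ∈ ZZ X Γ ν, x • p n ≠ p n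
  · obtain ⟨ν, hν, hne, x, hx, hxn⟩ := hex
    have hxQ : x ∈ QQ X Γ (p (n - 2)) := hnob ν hν hne hx
    have hxfix : ∀ i ≤ n, x • acons μ p i = acons μ p i := by
      intro i hi
      rcases Nat.lt_or_eq_of_le hi with h | rfl
      · refine d.ZZ_fix ?_ hx
        have h' := d.dist_path (harc ν hν hne).1 (Nat.zero_le (i + 1)) (by omega)
        exact le_trans h' (by omega)
      · obtain ⟨k, hk⟩ : ∃ k, n = k + 2 := ⟨n - 2, by omega⟩
        rw [hk, acons_succ]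
        have hadj := hp.1 k (by omega)
        rw [show n - 2 = k by omega] at hxQ
        exact (mem_QQ.1 hxQ).2 _ hadj
    have hend : acons μ p n = p (n - 1) := by
      obtain ⟨k, hk⟩ : ∃ k, n = k + 1 := ⟨n - 1, by omega⟩
      rw [hk]; rfl
    have hxnQ : x ∉ QQ X Γ (acons μ p n) := by
      rw [hend]
      intro h
      exact hxn ((mem_QQ.1 h).2 _ (d.adj_last hp).symm)
    have hB : Bv X Γ (acons μ p n) := by
      rw [hend]
      exact d.nbr_B (d.adj_last hp) fun h => (Nat.not_odd_iff_even.2 he) ((d.crit_type hp le_rfl).1 h)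
    have hA : ¬ Bv X Γ (p n) := fun h => (Nat.not_odd_iff_even.2 he) ((d.crit_type hp le_rfl).1 h)
    have hconj := d.conjArcs_all ((ha.cons hμ.symm (Or.inr hμ1)).take (by omega)) hB hxfix hxnQ ha hA
      hzfix hzQ n (by omega) False
    have hq := d.crit_of_arc hp hconj (harc ν hν hne) (d.nbr_not hν hμB)
    have := hq.2
    rw [← hn, hlast2] at this
    exact this (hnob ν hν hne)
  · push Not at hex
    have hZ1 : ZZ X Γ (p 1) ≤ VV X Γ μ :=
      (d.ZZ_B_le (d.nbr_B h01 h0) h01.symm).trans (d.ZZ_le_VV hμ.symm)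
    obtain ⟨-, -, heq⟩ := d.even_data hp he
    rw [← hn] at heq
    have htV : VV X Γ μ ≤ (VV X Γ μ).comap (MulAut.conj t).toMonoidHom := by
      refine iSup₂_le fun ν hν x hx => ?_
      show t * x * t⁻¹ ∈ VV X Γ μ
      by_cases hνp : ν = p 0
      · subst hνp
        exact d.ZZ_le_VV hν (by simpa [(mem_TT.1 htT).1] using d.conj_ZZ (g := t) hx)
      · have hxn := hex ν hν hνp x hx
        have hxn1 : x • p (n - 1) = p (n - 1) := by
          have hadj := hp.1 (n - 2) (by omega)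
          rw [show n - 2 + 1 = n - 1 by omega] at hadj
          exact (mem_QQ.1 (hnob ν hν hνp hx)).2 _ hadj
        have hlast : ¬ Bv X Γ (p n) := fun h =>
          (Nat.not_odd_iff_even.2 he) ((d.crit_type hp le_rfl).1 h)
        have hm' := d.delta_mem hlast (d.adj_last hp) (mem_TT.2 ⟨hxn, hxn1⟩) ht
        rw [← heq] at hm'
        rw [show t * x * t⁻¹ = (t * (x * t * x⁻¹)) * x by
          rw [d.ZZ_inv ht, d.ZZ_inv hx]
          calc t * x * t = t * x * t * (x * x) := by rw [d.ZZ_sq hx, mul_one]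
            _ = t * (x * t * x) * x := by group]
        exact mul_mem (hZ1 hm') (d.ZZ_le_VV hν hx)
    have htN : t ∈ normalizer (VV X Γ μ : Set X) := by
      refine Subgroup.mem_normalizer_iff.2 fun y => ⟨fun hy => htV hy, fun hy => ?_⟩
      have h' : t * (t * y * t⁻¹) * t⁻¹ ∈ VV X Γ μ := htV hy
      rw [show t * (t * y * t⁻¹) * t⁻¹ = (t * t) * y * (t * t)⁻¹ by group, d.ZZ_sq ht] at h'
      simpa using h'
    have hV := d.faithful hμ (VV X Γ μ) ?_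
      (d.stab_le hμ (fun y hy => d.stab_le_normalizer_VV μ (mem_stabilizer_iff.2 (mem_TT.1 hy).2))
        (mem_TT.1 htT).1 (d.moves h01 hμ hμ1.symm htT htQ) htN)
      (d.stab_le_normalizer_VV μ)
    · exact d.ZZ_ne_bot (p 0) (le_bot_iff.1 (hV ▸ d.ZZ_le_VV hμ.symm))
    · exact (d.VV_le_QQ (by simp; omega)).trans (d.QQ_le_TT' hμ.symm)

theorem card_le_of_two (hp : Crit X Γ p) (hb2 : bb X Γ = 2) (h : Γ.Adj v a) :
    Nat.card (TT (X := X) v a) ≤ 2 ^ 7 := by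
  have hcr : ∀ {μ ν α : V}, Bv X Γ μ → Γ.Adj μ ν → Γ.Adj μ α → ν ≠ α →
      ¬ ZZ X Γ ν ≤ QQ X Γ α := by
    intro μ ν α hμ hν hα hne
    have harc : IsArc Γ 2 (acons ν (acons μ fun _ => α)) := by
      refine ⟨fun i hi => ?_, fun i hi => ?_⟩
      · interval_cases i
        · exact hν.symm
        · exact hα
      · rw [show i = 0 by omega]; exact hne
    have hc := d.conjArcs_le_three (n := bb X Γ) (by omega) False
    rw [← hb2] at harc
    have := (d.crit_of_arc hp hc harc (d.nbr_not hν hμ)).2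
    rw [hb2] at this
    exact this
  set α := p 0
  have h0 : ¬ Bv X Γ α := d.crit_start hp
  have hβ : Γ.Adj α (p 1) := hp.1 0 (by omega)
  set β := p 1
  obtain ⟨β', hβ', hne⟩ := d.exists_other hβ
  obtain ⟨μ, hμ, hμβ, hμβ', hall⟩ := d.exists_third hβ hβ' hne.symm
  have hB : ∀ {x}, Γ.Adj α x → Bv X Γ x := fun hx => d.nbr_B hx h0
  let F := QQ X Γ α ⊓ Subgroup.centralizer ((VV X Γ β ⊔ VV X Γ β' : Subgroup X) : Set X)
  have hF : F = ⊥ := by
    obtain ⟨ν, hν, hνα⟩ := d.exists_other hβ.symm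
    obtain ⟨z, hz, hzQ⟩ := SetLike.not_le_iff_exists.1 (hcr (hB hβ) hν hβ.symm hνα)
    have hzα : z • α = α := d.ZZ_fix (by
      rw [hb2]
      exact (d.dist_adj_le hν.symm).trans (by rw [SimpleGraph.dist_eq_one_iff_adj.2 hβ.symm])) hz
    have hzβ : z • β = β := d.ZZ_fix (by
      rw [hb2, SimpleGraph.dist_eq_one_iff_adj.2 hν.symm]; omega) hz
    refine d.eq_bot_of_mover h0 hμ (inf_le_left.trans (d.QQ_le_TT hμ)) ?_ hzα
      (d.moves hβ hμ hμβ.symm (mem_TT.2 ⟨hzα, hzβ⟩) hzQ) ?_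
    · intro t ht x hx
      obtain ⟨htα, htμ⟩ := mem_TT.1 ht
      refine ⟨d.conj_QQ_fix htα hx.1, mem_centralizer_iff.2 fun y hy => ?_⟩
      have hmaps : ∀ γ, Γ.Adj α γ → γ ≠ μ → VV X Γ γ ≤
          ((VV X Γ β ⊔ VV X Γ β' : Subgroup X)).comap (MulAut.conj t⁻¹).toMonoidHom := by
        intro γ hγ hγμ y hy
        have h' := d.conj_VV (g := t⁻¹) hy
        have hadj : Γ.Adj α (t⁻¹ • γ) := d.adj_fix (inv_smul_eq_iff.2 htα.symm) hγ
        show t⁻¹ * y * t⁻¹⁻¹ ∈ (VV X Γ β ⊔ VV X Γ β' : Subgroup X)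
        rcases hall _ hadj with e | e | e
        · exact mem_sup_left (e ▸ h')
        · exact mem_sup_right (e ▸ h')
        · exact absurd (by rw [inv_smul_eq_iff.1 e, htμ]) hγμ
      have h' : t⁻¹ * y * t⁻¹⁻¹ ∈ (VV X Γ β ⊔ VV X Γ β' : Subgroup X) :=
        sup_le (hmaps β hβ hμβ.symm) (hmaps β' hβ' hμβ'.symm) hy
      rw [inv_inv] at h'
      have hc := mem_centralizer_iff.1 hx.2 _ h'
      calc y * (t * x * t⁻¹) = t * ((t⁻¹ * y * t) * x) * t⁻¹ := by group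
        _ = t * (x * (t⁻¹ * y * t)) * t⁻¹ := by rw [hc]
        _ = t * x * t⁻¹ * y := by group
    · intro x hx
      exact mem_centralizer_iff.1 hx.2 z (mem_sup_left (d.ZZ_le_VV hν hz))
  obtain ⟨γ, hγ, hγα⟩ := d.exists_other hβ.symm
  obtain ⟨δ, hδ, hδα, hδγ, hallβ⟩ := d.exists_third hβ.symm hγ hγα.symm
  obtain ⟨γ', hγ', hγ'α⟩ := d.exists_other hβ'.symm
  obtain ⟨δ', hδ', hδ'α, hδ'γ', hallβ'⟩ := d.exists_third hβ'.symm hγ' hγ'α.symm
  let A1 := QQ X Γ α ⊓ QQ X Γ β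
  let A2 := A1 ⊓ QQ X Γ γ
  let A3 := A2 ⊓ QQ X Γ δ
  let A4 := A3 ⊓ QQ X Γ β'
  let A5 := A4 ⊓ QQ X Γ γ'
  let A6 := A5 ⊓ QQ X Γ δ'
  have s1 : Nat.card (QQ X Γ α) ≤ 2 * Nat.card A1 :=
    d.card_inf_QQ_le hβ.symm (d.QQ_le_TT' hβ)
  have hA1 : ∀ {x}, Γ.Adj β x → A1 ≤ TT x β := fun hx q hq =>
    mem_TT.2 ⟨(mem_QQ.1 hq.2).2 _ hx, (mem_QQ.1 hq.2).1⟩
  have s2 : Nat.card A1 ≤ 2 * Nat.card A2 := d.card_inf_QQ_le hγ.symm (hA1 hγ)
  have s3 : Nat.card A2 ≤ 2 * Nat.card A3 :=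
    d.card_inf_QQ_le hδ.symm (inf_le_left.trans (hA1 hδ))
  have s4 : Nat.card A3 ≤ 2 * Nat.card A4 := d.card_inf_QQ_le hβ'.symm fun q hq =>
    d.QQ_le_TT' hβ' hq.1.1.1
  have hA4 : ∀ {x}, Γ.Adj β' x → A4 ≤ TT x β' := fun hx q hq =>
    mem_TT.2 ⟨(mem_QQ.1 hq.2).2 _ hx, (mem_QQ.1 hq.2).1⟩
  have s5 : Nat.card A4 ≤ 2 * Nat.card A5 := d.card_inf_QQ_le hγ'.symm (hA4 hγ')
  have s6 : Nat.card A5 ≤ 2 * Nat.card A6 :=
    d.card_inf_QQ_le hδ'.symm (inf_le_left.trans (hA4 hδ'))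
  have hA6 : A6 = ⊥ := by
    refine le_bot_iff.1 (le_trans (fun q hq => ?_) hF.le)
    obtain ⟨⟨⟨⟨⟨⟨h1, h2⟩, h3⟩, h4⟩, h5⟩, h6⟩, h7⟩ := hq
    refine ⟨h1, ?_⟩
    have key : (VV X Γ β ⊔ VV X Γ β' : Subgroup X) ≤ Subgroup.centralizer ({q} : Set X) := by
      refine sup_le (iSup₂_le fun x hx y hy => ?_) (iSup₂_le fun x hx y hy => ?_)
      all_goals rw [mem_centralizer_iff]; rintro _ rfl
      · rcases hallβ x hx with rfl | rfl | rfl
        · exact d.QQ_comm_ZZ hy h1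
        · exact d.QQ_comm_ZZ hy h3
        · exact d.QQ_comm_ZZ hy h4
      · rcases hallβ' x hx with rfl | rfl | rfl
        · exact d.QQ_comm_ZZ hy h1
        · exact d.QQ_comm_ZZ hy h6
        · exact d.QQ_comm_ZZ hy h7
    exact mem_centralizer_iff.2 fun y hy => (mem_centralizer_iff.1 (key hy) q rfl).symm
  rw [hA6, Subgroup.card_bot] at s6
  rw [d.card_TT_eq h hβ, d.card_T hβ]
  omega

end Mix

end Cfsg.Agent.H73.GA
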