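import Cfsg.Agent.H73.GoldLine

/-!
Amalgams of index (3,3): the commutator along a line, and the exclusion of distance five and more.
-/

set_option autoImplicit false
set_option linter.style.haveILetI false
set_option linter.unusedSectionVars false

namespace Cfsg.Agent.H73.GA

open Subgroup MulAction
open scoped Pointwise

variable {X : Type*} [Group X] {V : Type*} [MulAction X V]

namespace Mix

variable {Γ : SimpleGraph V} (d : Mix X Γ) {u v w a b c : V} {p : ℕ → V}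
include d

theorem line_z (L : Line X Γ p) (h1 : 1 < bb X Γ) {z : X} (hzQ : z ∉ QQ X Γ (p (bb X Γ))) :
    z ∉ ZZ X Γ (p 1) := fun h =>
  hzQ (d.ZZ_le_QQ_of_lt (lt_of_le_of_lt
    (d.dist_path L.arc.1 (show 1 ≤ bb X Γ by omega) (by omega)) (by omega)) h)

theorem line_moves (L : Line X Γ p) {t : X} (ht : t ∈ ZZ X Γ (p (bb X Γ + 1)))
    (htQ : t ∉ QQ X Γ (p 1)) : t • p 0 ≠ p 0 := fun h => by
  have := d.bb_pos
  exact htQ (d.mem_QQ_of_fix (L.arc.1 0 (by omega)).symm (L.arc.1 1 (by omega))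
    (L.arc.ne rfl (by omega)) (d.line_fix L ht le_rfl (by omega)) h
    (d.line_fix L ht (by omega) (by omega)))

variable (hm : Two X Γ)
include hm

/-- An element of `G_{p 1, p 2}` moves `z zᵗ` by an element of the centre of `p 1`. -/
theorem comm_mem (L : Line X Γ p) (h4 : 3 ≤ bb X Γ) {z t g : X} (hz : z ∈ ZZ X Γ (p 0))
    (hzQ : z ∉ QQ X Γ (p (bb X Γ))) (ht : t ∈ ZZ X Γ (p (bb X Γ + 1))) (htQ : t ∉ QQ X Γ (p 1))
    (hg1 : g • p 1 = p 1) (hg2 : g • p 2 = p 2) :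
    g * (z * (t * z * t⁻¹)) * g⁻¹ * (z * (t * z * t⁻¹))⁻¹ ∈ ZZ X Γ (p 1) := by
  have h01 := L.arc.1 0 (by omega)
  have h12 := L.arc.1 1 (by omega)
  have hz1 := d.line_z L (by omega) hzQ
  have ht1 := d.line_fix L ht le_rfl (by omega)
  have ht0 := d.line_moves L ht htQ
  set w := t * z * t⁻¹ with hwdef
  have hw : w ∈ ZZ X Γ (t • p 0) := d.conj_ZZ hz
  have hw1 : w ∉ ZZ X Γ (p 1) := fun h => hz1 <| by
    have h' := d.conj_ZZ (g := t⁻¹) h
    rw [inv_smul_eq_iff.2 ht1.symm] at h'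
    simpa [w, mul_assoc] using h'
  have hδ : Γ.Adj (p 1) (t • p 0) := d.adj_fix ht1 h01.symm
  have hδ2 : t • p 0 ≠ p 2 := fun h => by
    rw [← d.line_fix L ht (show 1 ≤ 2 by omega) (by omega)] at h
    exact L.arc.ne rfl (by omega) (MulAction.injective t h)
  have hgout : ∀ {x : X} {a : V}, x ∈ ZZ X Γ a → x ∉ ZZ X Γ (p 1) →
      g * x * g⁻¹ ∈ ZZ X Γ (g • a) ∧ g * x * g⁻¹ ∉ ZZ X Γ (p 1) := fun hx hx1 =>
    ⟨d.conj_ZZ hx, fun h => hx1 <| by
      have h' := d.conj_ZZ (g := g⁻¹) h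
      rw [inv_smul_eq_iff.2 hg1.symm] at h'
      simpa [mul_assoc] using h'⟩
  have hpair : ∀ {α : V} {x y : X}, Γ.Adj α (p 1) → x ∈ ZZ X Γ α → x ∉ ZZ X Γ (p 1) →
      y ∈ ZZ X Γ α → y ∉ ZZ X Γ (p 1) → x * y ∈ ZZ X Γ (p 1) := fun hα hx hx1 hy hy1 =>
    (d.mem_split hm (d.nbr_not hα.symm (d.nbr_B h01 L.start)) hα hx hx1 hy).resolve_left hy1
  have hcomm : ∀ {a b : V} {x y : X}, Γ.Adj (p 1) a → Γ.Adj (p 1) b → x ∈ ZZ X Γ a →
      y ∈ ZZ X Γ b → x * y = y * x := fun {a b x y} ha hb hx hy => d.ZZ_commute (by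
    have := d.connected.dist_triangle (u := a) (v := p 1) (w := b)
    rw [SimpleGraph.dist_eq_one_iff_adj.2 hb, SimpleGraph.dist_eq_one_iff_adj.2 ha.symm] at this
    omega) hx hy
  obtain ⟨hgz, hgz1⟩ := hgout hz hz1
  obtain ⟨hgw, hgw1⟩ := hgout hw hw1
  have hzinv := d.ZZ_inv hz
  have hwinv := d.ZZ_inv hw
  by_cases hg0 : g • p 0 = p 0
  · have hgδ : g • (t • p 0) = t • p 0 := by
      have := d.mem_QQ_of_fix h01.symm h12 (L.arc.ne rfl (by omega)) hg1 hg0 hg2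
      exact (mem_QQ.1 this).2 _ hδ
    rw [hg0] at hgz
    rw [hgδ] at hgw
    have e : g * (z * w) * g⁻¹ * (z * w)⁻¹ = (g * z * g⁻¹ * z) * (g * w * g⁻¹ * w) := by
      have hc := hcomm h01.symm hδ hz (mul_mem hgw hw)
      rw [mul_inv_rev, hzinv, hwinv]
      calc g * (z * w) * g⁻¹ * (w * z) = (g * z * g⁻¹) * ((g * w * g⁻¹ * w) * z) := by group
        _ = (g * z * g⁻¹) * (z * (g * w * g⁻¹ * w)) := by rw [← hc]
        _ = (g * z * g⁻¹ * z) * (g * w * g⁻¹ * w) := by group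
    rw [e]
    exact mul_mem (hpair h01 hgz hgz1 hz hz1) (hpair hδ.symm hgw hgw1 hw hw1)
  · have hgT : g ∈ TT (X := X) (p 1) (p 2) := mem_TT.2 ⟨hg1, hg2⟩
    have hgQ : g ∉ QQ X Γ (p 1) := fun h => hg0 ((mem_QQ.1 h).2 _ h01.symm)
    have e0 : g • p 0 = t • p 0 :=
      d.swap h12 h01.symm hδ (L.arc.ne rfl (by omega)).symm hδ2.symm ht0.symm hgT hgQ
    have e1 : g • (t • p 0) = p 0 :=
      d.swap h12 hδ h01.symm hδ2.symm (L.arc.ne rfl (by omega)).symm ht0 hgT hgQ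
    rw [e0] at hgz
    rw [e1] at hgw
    have e : g * (z * w) * g⁻¹ * (z * w)⁻¹ = (g * z * g⁻¹ * w) * (g * w * g⁻¹ * z) := by
      have hc := hcomm h01.symm hδ hgw hw
      rw [mul_inv_rev, hzinv, hwinv]
      calc g * (z * w) * g⁻¹ * (w * z) = (g * z * g⁻¹) * ((g * w * g⁻¹) * w) * z := by group
        _ = (g * z * g⁻¹) * (w * (g * w * g⁻¹)) * z := by rw [hc]
        _ = (g * z * g⁻¹ * w) * (g * w * g⁻¹ * z) := by group
    rw [e]
    exact mul_mem (hpair hδ.symm hgz hgz1 hw hw1) (hpair h01 hgw hgw1 hz hz1)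

theorem line_comm_mem (L : Line X Γ p) (hodd : Odd (bb X Γ)) (h5 : 5 ≤ bb X Γ) {z t : X}
    (hz : z ∈ ZZ X Γ (p 0)) (hzQ : z ∉ QQ X Γ (p (bb X Γ))) (ht : t ∈ ZZ X Γ (p (bb X Γ + 1)))
    (htQ : t ∉ QQ X Γ (p 1)) :
    z * (t * z * t⁻¹) ∈ ZZ X Γ (p 3) ∧ z * (t * z * t⁻¹) ≠ 1 := by
  set n := bb X Γ with hn
  have h01 := L.arc.1 0 (by omega)
  have h12 := L.arc.1 1 (by omega)
  have h23 := L.arc.1 2 (by omega)
  have h34 := L.arc.1 3 (by omega)
  have hB1 : Bv X Γ (p 1) := d.nbr_B h01 L.start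
  have hA2 : ¬ Bv X Γ (p 2) := d.nbr_not h12 hB1
  have hB3 : Bv X Γ (p 3) := d.nbr_B h23 hA2
  have hz1 := d.line_z L (by omega) hzQ
  have ht1 := d.line_fix L ht le_rfl (by omega)
  have ht0 := d.line_moves L ht htQ
  set δ := t • p 0 with hδdef
  have hδ : Γ.Adj (p 1) δ := d.adj_fix ht1 h01.symm
  have hw : t * z * t⁻¹ ∈ ZZ X Γ δ := d.conj_ZZ hz
  set c := z * (t * z * t⁻¹) with hc
  have hcV : c ∈ VV X Γ (p 1) :=
    mul_mem (d.ZZ_le_VV h01.symm hz) (d.ZZ_le_VV hδ hw)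
  have hc2 : c ∈ QQ X Γ (p 2) :=
    d.VV_le_QQ (by rw [SimpleGraph.dist_eq_one_iff_adj.2 h12]; omega) hcV
  have hzw : z * (t * z * t⁻¹) = t * z * t⁻¹ * z := d.ZZ_commute (by
    have := d.connected.dist_triangle (u := p 0) (v := p 1) (w := δ)
    rw [SimpleGraph.dist_eq_one_iff_adj.2 hδ, SimpleGraph.dist_eq_one_iff_adj.2 h01] at this
    omega) hz hw
  have hcsq : c * c = 1 := by
    calc c * c = z * ((t * z * t⁻¹) * z) * (t * z * t⁻¹) := by rw [hc]; group
      _ = (z * z) * (t * (z * z) * t⁻¹) := by rw [← hzw]; group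
      _ = 1 := by rw [d.ZZ_sq hz]; group
  have hcne : c ≠ 1 := fun h => by
    have h' : z ∈ ZZ X Γ δ := by
      rw [eq_inv_of_mul_eq_one_left (show z * (t * z * t⁻¹) = 1 from h)]
      exact inv_mem hw
    exact hz1 (d.inter_nbrs hm hB1 h01.symm hδ ht0.symm hz h')
  -- the forward line
  obtain ⟨q, Lq, hq⟩ := d.forward hm L hodd (by omega)
  obtain ⟨t', ht', ht'Q⟩ := SetLike.not_le_iff_exists.1 Lq.last
  have q0 : q 0 = p 2 := hq 0 (by omega)
  have q1 : q 1 = p 3 := hq 1 (by omega)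
  have q2 : q 2 = p 4 := hq 2 (by omega)
  have qn : q (n - 2) = p n := by rw [hq _ (by omega)]; congr 1; omega
  have hf3 : t' • p 3 = p 3 := q1 ▸ d.line_fix Lq ht' le_rfl (by omega)
  have hf4 : t' • p 4 = p 4 := q2 ▸ d.line_fix Lq ht' (show 1 ≤ 2 by omega) (by omega)
  rw [q1] at ht'Q
  have hne24 : p 2 ≠ p 4 := L.arc.ne rfl (by omega)
  set p2' := t' • p 2 with hp2'
  have h2' : Γ.Adj (p 3) p2' := d.adj_fix hf3 h23.symm
  have h2'4 : p2' ≠ p 4 := fun h => hne24 (MulAction.injective t' (h.trans hf4.symm))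
  have h2'2 : p2' ≠ p 2 := d.moves h34 h23.symm hne24.symm (mem_TT.2 ⟨hf3, hf4⟩) ht'Q
  have hct' : t' * c * t'⁻¹ = c := by
    have hcb : c ∈ VV X Γ (p n) := by
      have hzn : z • p n = p n := d.crit_fix L.crit hz le_rfl
      have hb' := L.arc.1 n (by omega)
      have hz' := d.conj_ZZ (g := z) ht
      rw [show c = (z * t * z⁻¹) * t by rw [hc, d.ZZ_inv hz, d.ZZ_inv ht]; group]
      exact mul_mem (d.ZZ_le_VV (d.adj_fix hzn hb') hz') (d.ZZ_le_VV hb' ht)
    have hd : Γ.dist (p n) (q (n + 1)) ≤ 3 := by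
      rw [← qn]
      exact (d.dist_path Lq.arc.1 (show n - 2 ≤ n + 1 by omega) le_rfl).trans (by omega)
    rw [← d.VV_commute (show Γ.dist (p n) (q (n + 1)) + 1 < bb X Γ by omega) hcb ht',
      mul_inv_cancel_right]
  have hcent1 : ∀ {g : X}, g • p 1 = p 1 → g • p 2 = p 2 → g * c * g⁻¹ * c⁻¹ ∈ ZZ X Γ (p 1) :=
    fun hg1 hg2 => d.comm_mem hm L (by omega) hz hzQ ht htQ hg1 hg2
  have hdisj : ∀ x, x ∈ ZZ X Γ (p 1) → x ∈ ZZ X Γ (t' • p 1) → x = 1 := by
    intro x hx hx'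
    have hadj' : Γ.Adj p2' (t' • p 1) := d.smul_adj t' h12.symm
    have hx3 : x ∈ ZZ X Γ (p 3) := d.inter_nbrs hm hB3 h23.symm h2' h2'2.symm
      (d.ZZ_B_le hB1 h12 hx) (d.ZZ_B_le ((d.Bv_smul_iff t').2 hB1) hadj'.symm hx')
    exact d.disjoint_ZZ hA2 h12.symm h23 (L.arc.ne rfl (by omega)) hx hx3
  have hA : ∀ e ∈ QQ X Γ (p 2), e ∈ QQ X Γ p2' → e * c = c * e := by
    intro e he he'
    have he1 : e • p 1 = p 1 := (mem_QQ.1 he).2 _ h12.symm
    have h1' : e • (t' • p 1) = t' • p 1 := (mem_QQ.1 he').2 _ (d.smul_adj t' h12.symm)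
    have h2'' : e • p2' = p2' := (mem_QQ.1 he').1
    have f1 : (t'⁻¹ * e * t') • p 1 = p 1 := by rw [mul_smul, mul_smul, h1', inv_smul_smul]
    have f2 : (t'⁻¹ * e * t') • p 2 = p 2 := by rw [mul_smul, mul_smul, ← hp2', h2'', hp2', inv_smul_smul]
    have k1 := hcent1 he1 (mem_QQ.1 he).1
    have k2 := d.conj_ZZ (g := t') (hcent1 f1 f2)
    have e2 : t' * (t'⁻¹ * e * t' * c * (t'⁻¹ * e * t')⁻¹ * c⁻¹) * t'⁻¹ = e * c * e⁻¹ * c⁻¹ := by
      calc _ = e * (t' * c * t'⁻¹) * e⁻¹ * (t' * c * t'⁻¹)⁻¹ := by group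
        _ = _ := by rw [hct']
    rw [e2] at k2
    have h := mul_inv_eq_one.1 (hdisj _ k1 k2)
    calc e * c = (e * c * e⁻¹) * e := by group
      _ = c * e := by rw [h]
  obtain ⟨s, hs, hs3⟩ := d.exists_QQ_not_mem h23
  have hsT : s ∈ TT (X := X) (p 3) (p 2) := d.QQ_le_TT' h23 hs
  have hs4 : s • p 4 = p2' := d.swap h23.symm h34 h2' hne24 h2'2.symm h2'4.symm hsT hs3
  have htwist : ∀ {g x : X}, g • p 1 = p 1 → g • p 2 = p 2 → x • p 1 = p 1 →
      x * c = c * x → g * x * g⁻¹ * c = c * (g * x * g⁻¹) := by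
    intro g x hg1 hg2 hx1 hx
    have k := hcent1 (g := g⁻¹) (inv_smul_eq_iff.2 hg1.symm) (inv_smul_eq_iff.2 hg2.symm)
    set r := g⁻¹ * c * g⁻¹⁻¹ * c⁻¹ with hr
    have hcr : g⁻¹ * c * g = r * c := by rw [hr]; group
    have hxr := d.B_comm hB1 hx1 k
    calc g * x * g⁻¹ * c = g * (x * (g⁻¹ * c * g)) * g⁻¹ := by group
      _ = g * ((x * r) * c) * g⁻¹ := by rw [hcr]; group
      _ = g * (r * (x * c)) * g⁻¹ := by rw [hxr]; group
      _ = g * ((r * c) * x) * g⁻¹ := by rw [hx]; group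
      _ = g * ((g⁻¹ * c * g) * x) * g⁻¹ := by rw [hcr]
      _ = c * (g * x * g⁻¹) := by group
  have hB' : ∀ e ∈ QQ X Γ (p 2), e ∈ QQ X Γ (p 4) → e * c = c * e := by
    intro e he he'
    have hs2 := (mem_QQ.1 hs).1
    have hs1 := (mem_QQ.1 hs).2 _ h12.symm
    have h := hA (s * e * s⁻¹) (d.conj_QQ_fix hs2 he) (hs4 ▸ d.conj_QQ (g := s) he')
    have h' := htwist (inv_smul_eq_iff.2 hs1.symm) (inv_smul_eq_iff.2 hs2.symm)
      (x := s * e * s⁻¹) ((mem_QQ.1 (d.conj_QQ_fix hs2 he)).2 _ h12.symm) h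
    simpa [mul_assoc] using h'
  have hK : ∀ e ∈ QQ X Γ (p 2), e * c = c * e := by
    have h3' : ∀ e ∈ QQ X Γ (p 2), e ∈ QQ X Γ (p 3) → e • p 4 = p 4 ∧ e • p2' = p2' :=
      fun e _ he3 => ⟨(mem_QQ.1 he3).2 _ h34, (mem_QQ.1 he3).2 _ h2'⟩
    by_cases hsame : ∀ e ∈ QQ X Γ (p 2), e ∈ QQ X Γ (p 4) ↔ e ∈ QQ X Γ p2'
    · -- natural case
      intro e he
      obtain ⟨g0, hg0, hg03⟩ := d.nbr_trans h23 h12.symm
      have hn4 : Γ.Adj (p 1) (g0 • p 4) := hg03 ▸ d.smul_adj g0 h34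
      have hn2' : Γ.Adj (p 1) (g0 • p2') := hg03 ▸ d.smul_adj g0 h2'
      have hsame' : ∀ x ∈ QQ X Γ (p 2), x ∈ QQ X Γ (p 0) ↔ x ∈ QQ X Γ δ := by
        intro x hx
        have hx' := d.conj_QQ_fix (g := g0⁻¹) (inv_smul_eq_iff.2 hg0.symm) hx
        have h := hsame _ hx'
        have tr : ∀ y, g0⁻¹ * x * g0⁻¹⁻¹ ∈ QQ X Γ y ↔ x ∈ QQ X Γ (g0 • y) := fun y => by
          constructor
          · intro h
            have := d.conj_QQ (g := g0) h
            simpa [mul_assoc] using this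
          · intro h
            have := d.conj_QQ (g := g0⁻¹) h
            rwa [inv_smul_smul] at this
        rw [tr, tr] at h
        obtain ⟨o, ho, ho1, ho2, hall⟩ := d.exists_third h12 h01.symm (L.arc.ne rfl (by omega)).symm
        have e4 : g0 • p 4 ≠ p 2 := fun h => hne24 (MulAction.injective g0 (h.trans hg0.symm)).symm
        have e2' : g0 • p2' ≠ p 2 := fun h => h2'2 (MulAction.injective g0 (h.trans hg0.symm))
        have eδ : δ = o := by
          rcases hall δ hδ with h' | h' | h'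
          · exfalso
            rw [hδdef, ← d.line_fix L ht (show 1 ≤ 2 by omega) (by omega)] at h'
            exact L.arc.ne rfl (by omega) (MulAction.injective t h')
          · exact absurd h' ht0
          · exact h'
        have ne' : g0 • p 4 ≠ g0 • p2' := fun h => h2'4 (MulAction.injective g0 h).symm
        rcases hall _ hn4 with h4 | h4 | h4
        · exact absurd h4 e4
        · rcases hall _ hn2' with h2 | h2 | h2
          · exact absurd h2 e2'
          · exact absurd (h4.trans h2.symm) ne'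
          · rw [eδ, ← h4, ← h2]; exact h
        · rcases hall _ hn2' with h2 | h2 | h2
          · exact absurd h2 e2'
          · rw [eδ, ← h4, ← h2]; exact h.symm
          · exact absurd (h4.trans h2.symm) ne'
      have hcase1 : ∀ x ∈ QQ X Γ (p 2), x ∈ QQ X Γ (p 1) → x * c = c * x := by
        intro x hx hx1
        by_cases h0 : x ∈ QQ X Γ (p 0)
        · have hxδ := (hsame' x hx).1 h0
          calc x * c = (x * z) * (t * z * t⁻¹) := by rw [hc]; group
            _ = z * (x * (t * z * t⁻¹)) := by rw [d.QQ_comm_ZZ hz h0]; group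
            _ = c * x := by rw [d.QQ_comm_ZZ hw hxδ, hc]; group
        · have hxδ : x ∉ QQ X Γ δ := fun h => h0 ((hsame' x hx).2 h)
          have hxT0 : x ∈ TT (X := X) (p 0) (p 1) :=
            mem_TT.2 ⟨(mem_QQ.1 hx1).2 _ h01.symm, (mem_QQ.1 hx1).1⟩
          have hxTδ : x ∈ TT (X := X) δ (p 1) :=
            mem_TT.2 ⟨(mem_QQ.1 hx1).2 _ hδ, (mem_QQ.1 hx1).1⟩
          have hδA : ¬ Bv X Γ δ := d.nbr_not hδ hB1
          have hw1 : t * z * t⁻¹ ∉ ZZ X Γ (p 1) := fun h => hz1 <| by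
            have h' := d.conj_ZZ (g := t⁻¹) h
            rw [inv_smul_eq_iff.2 ht1.symm] at h'
            simpa [mul_assoc] using h'
          have m1 := d.delta_mem L.start h01 hxT0 hz
          have m2 := d.delta_mem hδA hδ.symm hxTδ hw
          have n1 : z * (x * z * x⁻¹) ≠ 1 := fun h =>
            hz1 (d.mem_ZZ_of_commute L.start h01 hxT0 h0 hz (d.commute_of_delta hz h))
          have n2 : (t * z * t⁻¹) * (x * (t * z * t⁻¹) * x⁻¹) ≠ 1 := fun h =>
            hw1 (d.mem_ZZ_of_commute hδA hδ.symm hxTδ hxδ hw (d.commute_of_delta hw h))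
          have heq := d.eq_of_ne_one hm hB1 m1 m2 n1 n2
          set r := z * (x * z * x⁻¹) with hr
          have hrw : r * (t * z * t⁻¹) = (t * z * t⁻¹) * r :=
            (d.ZZ_comm (d.ZZ_B_le hB1 hδ m1) hw).trans rfl
          have hzr : z * r = r * z := d.ZZ_comm hz (d.ZZ_B_le hB1 h01.symm m1)
          have e1 : x * z * x⁻¹ = z * r := by rw [hr, ← mul_assoc, d.ZZ_sq hz, one_mul]
          have e2 : x * (t * z * t⁻¹) * x⁻¹ = (t * z * t⁻¹) * r := by
            conv_lhs => rw [← one_mul (x * (t * z * t⁻¹) * x⁻¹), ← d.ZZ_sq hw]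
            rw [heq]
            group
          calc x * c = (x * z * x⁻¹) * (x * (t * z * t⁻¹) * x⁻¹) * x := by rw [hc]; group
            _ = z * (r * (t * z * t⁻¹)) * r * x := by rw [e1, e2]; group
            _ = z * (t * z * t⁻¹) * (r * r) * x := by rw [hrw]; group
            _ = c * x := by rw [d.ZZ_sq (show r ∈ _ from m1), mul_one, hc]
      have htp2 : t ∈ QQ X Γ (p 2) := d.ZZ_le_QQ_of_lt (by
        rw [SimpleGraph.dist_comm]
        exact lt_of_le_of_lt (d.dist_path L.arc.1 (show 2 ≤ n + 1 by omega) le_rfl) (by omega)) ht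
      have htc : t * c = c * t := by
        calc t * c = t * z * t * z * t⁻¹ := by rw [hc]; group
          _ = (t * z * t⁻¹) * z * t⁻¹ := by rw [d.ZZ_inv ht]
          _ = c * t := by rw [← hzw, hc, d.ZZ_inv ht]
      by_cases he1 : e ∈ QQ X Γ (p 1)
      · exact hcase1 e he he1
      · have hT : ∀ {x}, x ∈ QQ X Γ (p 2) → x ∈ TT (X := X) (p 1) (p 2) := fun hx =>
          d.QQ_le_TT' h12.symm hx
        have hx := hcase1 (t⁻¹ * e) (mul_mem (inv_mem htp2) he)
          (d.inv_mul_mem_QQ h12 (hT htp2) htQ (hT he) he1)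
        calc e * c = t * ((t⁻¹ * e) * c) := by group
          _ = (t * c) * (t⁻¹ * e) := by rw [hx]; group
          _ = c * e := by rw [htc]; group
    · push Not at hsame
      obtain ⟨e0, he0, hne0⟩ := hsame
      have hK3 : ∀ e ∈ QQ X Γ (p 2), e ∈ QQ X Γ (p 3) → e * c = c * e := by
        have hT : ∀ {x y : V} {e : X}, Γ.Adj (p 3) y → e ∈ QQ X Γ (p 3) →
            e ∈ TT (X := X) y (p 3) := fun hy he =>
          mem_TT.2 ⟨(mem_QQ.1 he).2 _ hy, (mem_QQ.1 he).1⟩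
        intro e he he3
        rcases hne0 with ⟨h4, h2⟩ | ⟨h4, h2⟩
        · have he03 : e0 ∈ QQ X Γ (p 3) := d.mem_QQ_of_fix h23.symm h34 hne24
            ((mem_QQ.1 he0).2 _ h23) (mem_QQ.1 he0).1 (mem_QQ.1 h4).1
          by_cases hx : e ∈ QQ X Γ p2'
          · exact hA e he hx
          · have hx' := hA (e0⁻¹ * e) (mul_mem (inv_mem he0) he)
              (d.inv_mul_mem_QQ h2'.symm (hT (x := p 2) h2' he03) h2 (hT (x := p 2) h2' he3) hx)
            calc e * c = e0 * ((e0⁻¹ * e) * c) := by group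
              _ = (e0 * c) * (e0⁻¹ * e) := by rw [hx']; group
              _ = c * e := by rw [hB' e0 he0 h4]; group
        · have he03 : e0 ∈ QQ X Γ (p 3) := d.mem_QQ_of_fix h23.symm h2' h2'2.symm
            ((mem_QQ.1 he0).2 _ h23) (mem_QQ.1 he0).1 (mem_QQ.1 h2).1
          by_cases hx : e ∈ QQ X Γ (p 4)
          · exact hB' e he hx
          · have hx' := hB' (e0⁻¹ * e) (mul_mem (inv_mem he0) he)
              (d.inv_mul_mem_QQ h34.symm (hT (x := p 2) h34 he03) h4 (hT (x := p 2) h34 he3) hx)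
            calc e * c = e0 * ((e0⁻¹ * e) * c) := by group
              _ = (e0 * c) * (e0⁻¹ * e) := by rw [hx']; group
              _ = c * e := by rw [hA e0 he0 h2]; group
      obtain ⟨g, hg, hgQ⟩ := d.exists_not_mem_QQ h12.symm
      obtain ⟨hg2, hg1⟩ := mem_TT.1 hg
      have hg3 : g • p 3 ≠ p 3 := d.moves h12.symm h23 (L.arc.ne rfl (by omega)) hg hgQ
      have hn3' : Γ.Adj (p 2) (g • p 3) := d.adj_fix hg2 h23
      obtain ⟨e', he', he'3', he'3⟩ := d.exists_QQ_two hm hodd (by omega) hA2 hn3' h23 hg3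
      have hce' : e' * c = c * e' := by
        have h := d.conj_QQ (g := g⁻¹) he'3'
        rw [inv_smul_smul] at h
        have h' := hK3 _ (d.conj_QQ_fix (inv_smul_eq_iff.2 hg2.symm) he') h
        have hx1 : (g⁻¹ * e' * g⁻¹⁻¹) • p 1 = p 1 :=
          (mem_QQ.1 (d.conj_QQ_fix (inv_smul_eq_iff.2 hg2.symm) he')).2 _ h12.symm
        have := htwist hg1 hg2 hx1 h'
        simpa [mul_assoc] using this
      intro e he
      by_cases he3 : e ∈ QQ X Γ (p 3)
      · exact hK3 e he he3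
      · have hT : ∀ {x}, x ∈ QQ X Γ (p 2) → x ∈ TT (X := X) (p 3) (p 2) := fun hx =>
          d.QQ_le_TT' h23 hx
        have hx := hK3 (e'⁻¹ * e) (mul_mem (inv_mem he') he)
          (d.inv_mul_mem_QQ h23.symm (hT he') he'3 (hT he) he3)
        calc e * c = e' * ((e'⁻¹ * e) * c) := by group
          _ = (e' * c) * (e'⁻¹ * e) := by rw [hx]; group
          _ = c * e := by rw [hce']; group
  refine ⟨?_, hcne⟩
  have hcZ : c ∈ ZZ X Γ (q 0) := by rw [q0]; exact d.mem_ZZ_of_central hm hA2 hc2 hK hcsq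
  have hcQ : c ∈ QQ X Γ (q n) := by
    have hb' := L.arc.1 n (by omega)
    have hzn : z • p n = p n := d.crit_fix L.crit hz le_rfl
    have hmem : c ∈ VV X Γ (p n) := by
      rw [show c = (z * t * z⁻¹) * t by rw [hc, d.ZZ_inv hz, d.ZZ_inv ht]; group]
      exact mul_mem (d.ZZ_le_VV (d.adj_fix hzn hb') (d.conj_ZZ ht)) (d.ZZ_le_VV hb' ht)
    refine d.VV_le_QQ ?_ hmem
    rw [← qn]
    have := d.dist_path Lq.arc.1 (show n - 2 ≤ n by omega) (show n ≤ n + 1 by omega)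
    omega
  have := d.crit_kernel hm Lq.crit (by omega) hcZ hcQ
  rwa [q1] at this

theorem line_eq (L : Line X Γ p) (hodd : Odd (bb X Γ)) (h5 : 5 ≤ bb X Γ) :
    ZZ X Γ (p 3) = ZZ X Γ (p (bb X Γ - 2)) := by
  obtain ⟨z, hz, hzQ⟩ := SetLike.not_le_iff_exists.1 L.first
  obtain ⟨t, ht, htQ⟩ := SetLike.not_le_iff_exists.1 L.last
  obtain ⟨h1, hne⟩ := d.line_comm_mem hm L hodd h5 hz hzQ ht htQ
  have L' := d.line_rev L hodd
  obtain ⟨h2, -⟩ := d.line_comm_mem hm L' hodd h5 (z := t) (t := z)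
    (by simpa using ht) (by simpa [show bb X Γ + 1 - bb X Γ = 1 by omega] using htQ)
    (by simpa using hz) (by simpa [show bb X Γ + 1 - 1 = bb X Γ by omega] using hzQ)
  simp only [show bb X Γ + 1 - 3 = bb X Γ - 2 by omega] at h2
  have h2' := inv_mem h2
  have e : (t * (z * t * z⁻¹))⁻¹ = z * (t * z * t⁻¹) := by
    simp only [mul_inv_rev, inv_inv, d.ZZ_inv hz, d.ZZ_inv ht, mul_assoc]
  rw [e] at h2'
  have hB3 : Bv X Γ (p 3) := (d.arc_typeA L.arc L.start (by omega)).2 (by decide)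
  have hB' : Bv X Γ (p (bb X Γ - 2)) := (d.arc_typeA L.arc L.start (by omega)).2 (by
    obtain ⟨k, hk⟩ := hodd; exact ⟨k - 1, by omega⟩)
  exact le_antisymm (d.ZZ_le_of_mem hm hB3 h1 hne h2') (d.ZZ_le_of_mem hm hB' h2' hne h1)

theorem not_seven_le (L : Line X Γ p) (hodd : Odd (bb X Γ)) (h7 : 7 ≤ bb X Γ) : False := by
  set n := bb X Γ with hn
  obtain ⟨q, Lq, hq⟩ := d.forward hm L hodd (by omega)
  obtain ⟨r, Lr, hr⟩ := d.forward hm Lq hodd (by omega)
  have e : ∀ i, i + 3 ≤ n → r i = p (i + 4) := fun i hi => by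
    rw [hr i (by omega), hq (i + 2) (by omega)]
  have heq := d.line_eq hm L hodd (by omega)
  obtain ⟨x, hx, hx1⟩ := d.exists_ne_one (p 3)
  have h34 := L.arc.1 3 (by omega)
  have h45 := L.arc.1 4 (by omega)
  have hA4 : ¬ Bv X Γ (p 4) := by rw [d.arc_typeA L.arc L.start (by omega)]; decide
  have hB3 : Bv X Γ (p 3) := d.nbr_B h34.symm hA4
  have hx0 : x ∈ ZZ X Γ (r 0) := by
    rw [e 0 (by omega)]
    exact d.ZZ_B_le hB3 h34 hx
  have hxQ : x ∈ QQ X Γ (r n) := by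
    rw [heq] at hx
    have hadj : Γ.Adj (p (n - 2)) (p (n - 1)) := by
      have := L.arc.1 (n - 2) (by omega)
      rwa [show n - 2 + 1 = n - 1 by omega] at this
    have hB' : Bv X Γ (p (n - 2)) := (d.arc_typeA L.arc L.start (by omega)).2 (by
      obtain ⟨k, hk⟩ := hodd; exact ⟨k - 1, by omega⟩)
    refine d.ZZ_le_QQ_of_lt ?_ (d.ZZ_B_le hB' hadj hx)
    have e' : r (n - 5) = p (n - 1) := by rw [e _ (by omega)]; congr 1; omega
    rw [← e']
    exact lt_of_le_of_lt (d.dist_path Lr.arc.1 (show n - 5 ≤ n by omega) (by omega)) (by omega)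
  have hk := d.crit_kernel hm Lr.crit (by omega) hx0 hxQ
  rw [e 1 (by omega)] at hk
  exact hx1 (d.disjoint_ZZ hA4 h34.symm h45 (L.arc.ne rfl (by omega)) hx hk)

theorem not_five (L : Line X Γ p) (h5 : bb X Γ = 5) : False := by
  have hodd : Odd (bb X Γ) := by rw [h5]; decide
  have hp := L.crit
  have hA := d.crit_isArc hp
  obtain ⟨z, hz, hzQ⟩ := SetLike.not_le_iff_exists.1 L.first
  obtain ⟨t, ht, htQ⟩ := SetLike.not_le_iff_exists.1 L.last
  have h01 := L.arc.1 0 (by omega)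
  have h12 := L.arc.1 1 (by omega)
  have h23 := L.arc.1 2 (by omega)
  have h34 := L.arc.1 3 (by omega)
  have hB1 := d.nbr_B h01 L.start
  have hA2 := d.nbr_not h12 hB1
  have hB3 := d.nbr_B h23 hA2
  -- an element of `Q₂ ∩ Q₃` outside `Q₄`
  obtain ⟨e, he2, he3, he4⟩ : ∃ e ∈ QQ X Γ (p 2), e ∈ QQ X Γ (p 3) ∧ e ∉ QQ X Γ (p 4) := by
    by_contra hcon
    push Not at hcon
    obtain ⟨hc, hc1⟩ := d.line_comm_mem hm L hodd (by omega) hz hzQ ht htQ
    have ht1 := d.line_fix L ht le_rfl (by omega)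
    have ht0 := d.line_moves L ht htQ
    have hδ : Γ.Adj (p 1) (t • p 0) := d.adj_fix ht1 h01.symm
    obtain ⟨g, hg⟩ := d.exists_smul_eq (iff_of_true hB3 hB1)
    have hall : ∀ {a b : V}, Γ.Adj (p 1) a → Γ.Adj (p 1) b → a ≠ b →
        ∀ x ∈ QQ X Γ a, x ∈ QQ X Γ (p 1) → x ∈ QQ X Γ b := by
      intro a b ha hb hab x hxa hx1
      obtain ⟨k, hk, hka, hkb⟩ := d.pair_trans (hg ▸ d.smul_adj g h23.symm) (hg ▸ d.smul_adj g h34)
        (fun h => L.arc.ne rfl (by omega) (MulAction.injective g h)) ha hb hab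
      have e1 : (k * g)⁻¹ • a = p 2 := by rw [inv_smul_eq_iff, mul_smul, hka]
      have e3 : (k * g)⁻¹ • p 1 = p 3 := by rw [inv_smul_eq_iff, mul_smul, hg, hk]
      have h1 := d.conj_QQ (g := (k * g)⁻¹) hxa
      have h3 := d.conj_QQ (g := (k * g)⁻¹) hx1
      rw [e1] at h1
      rw [e3] at h3
      have h4 := d.conj_QQ (g := k * g) (hcon _ h1 h3)
      rw [mul_smul, hkb] at h4
      simpa [mul_assoc] using h4
    obtain ⟨x, hx, hx2⟩ := d.exists_QQ_not_mem h12
    have hδ2 : t • p 0 ≠ p 2 := fun h => by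
      rw [← d.line_fix L ht (show 1 ≤ 2 by omega) (by omega)] at h
      exact L.arc.ne rfl (by omega) (MulAction.injective t h)
    have h0Q : x ∉ QQ X Γ (p 0) := fun h => hx2 (hall h01.symm h12 (L.arc.ne rfl (by omega)) x h hx)
    have hδQ : x ∉ QQ X Γ (t • p 0) := fun h => hx2 (hall hδ h12 hδ2 x h hx)
    have hz1 := d.line_z L (by omega) hzQ
    have hw : t * z * t⁻¹ ∈ ZZ X Γ (t • p 0) := d.conj_ZZ hz
    have hw1 : t * z * t⁻¹ ∉ ZZ X Γ (p 1) := fun h => hz1 <| by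
      have h' := d.conj_ZZ (g := t⁻¹) h
      rw [inv_smul_eq_iff.2 ht1.symm] at h'
      simpa [mul_assoc] using h'
    have hxT0 : x ∈ TT (X := X) (p 0) (p 1) := d.QQ_le_TT' h01.symm hx
    have hxTδ : x ∈ TT (X := X) (t • p 0) (p 1) := d.QQ_le_TT' hδ hx
    have hδA := d.nbr_not hδ hB1
    have m1 := d.delta_mem L.start h01 hxT0 hz
    have m2 := d.delta_mem hδA hδ.symm hxTδ hw
    have heq := d.eq_of_ne_one hm hB1 m1 m2
      (fun h => hz1 (d.mem_ZZ_of_commute L.start h01 hxT0 h0Q hz (d.commute_of_delta hz h)))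
      (fun h => hw1 (d.mem_ZZ_of_commute hδA hδ.symm hxTδ hδQ hw (d.commute_of_delta hw h)))
    set r := z * (x * z * x⁻¹) with hr
    set w := t * z * t⁻¹ with hw'
    have hrw : r * w = w * r := d.ZZ_comm (d.ZZ_B_le hB1 hδ m1) hw
    have e1 : x * z * x⁻¹ = z * r := by rw [hr, ← mul_assoc, d.ZZ_sq hz, one_mul]
    have e2 : x * w * x⁻¹ = w * r := by
      conv_lhs => rw [← one_mul (x * w * x⁻¹), ← d.ZZ_sq hw]
      rw [heq]
      group
    have hfix : x * (z * w) * x⁻¹ = z * w := by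
      calc x * (z * w) * x⁻¹ = (x * z * x⁻¹) * (x * w * x⁻¹) := by group
        _ = z * (r * w) * r := by rw [e1, e2]; group
        _ = z * w * (r * r) := by rw [hrw]; group
        _ = z * w := by rw [d.ZZ_sq (show r ∈ _ from m1), mul_one]
    have hx3 : x • p 3 ≠ p 3 := fun h => hx2 (d.mem_QQ_of_fix h12.symm h23 (L.arc.ne rfl (by omega))
      ((mem_QQ.1 hx).2 _ h12) (mem_QQ.1 hx).1 h)
    have h' := d.conj_ZZ (g := x) hc
    rw [hfix] at h'
    exact hc1 (d.disjoint_ZZ hA2 h23 (d.adj_fix ((mem_QQ.1 hx).2 _ h12) h23) hx3.symm hc h')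
  -- all arcs of length five from noncentral vertices are critical
  have hfix : ∀ i ≤ 3, e • p (1 + i) = p (1 + i) := fun i hi => by
    interval_cases i
    · exact (mem_QQ.1 he2).2 _ h12.symm
    · exact (mem_QQ.1 he2).1
    · exact (mem_QQ.1 he3).1
    · exact (mem_QQ.1 he3).2 _ h34
  have w3 : Wit X Γ 3 True := ⟨fun i => p (1 + i), e, L.arc.sub 1 (by omega),
    iff_of_true hB1 trivial, hfix, he4⟩
  have w4 : Wit X Γ 4 True := d.wit_of_path hA (fun i hi => d.crit_fix hp hz hi) hzQ (by omega)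
    (iff_of_true (by rw [h5]; exact hB1) trivial)
  have c5 : ConjArcs X Γ 5 True := d.conjArcs_step (by omega)
    (d.conjArcs_step (by omega) (d.conjArcs_le_three le_rfl True) w3) w4
  have hconj : ConjArcs X Γ (bb X Γ) False := by
    intro q q' hq hq' h0 h0'
    rw [h5] at hq hq' ⊢
    have hlast : ∀ {q : ℕ → V}, IsArc Γ 5 q → (Bv X Γ (q 0) ↔ False) → Bv X Γ (q 5) := fun hq h0 =>
      (d.arc_typeA hq (by simpa using h0) le_rfl).2 (by decide)
    obtain ⟨g, hg⟩ := c5 _ _ hq.rev hq'.rev (iff_of_true (hlast hq h0) trivial)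
      (iff_of_true (hlast hq' h0') trivial)
    refine ⟨g, fun i hi => ?_⟩
    have := hg (5 - i) (by omega)
    simpa [show 5 - (5 - i) = i by omega] using this
  -- the middle rule
  have rule : ∀ v : ℕ → V, IsArc Γ 8 v → Bv X Γ (v 0) → ∀ x ∈ ZZ X Γ (v 0), x ≠ 1 →
      ∀ y ∈ ZZ X Γ (v 8), y ≠ 1 →
        x * (y * x * y⁻¹) ∈ ZZ X Γ (v 4) ∧ x * (y * x * y⁻¹) ≠ 1 := by
    intro v hv hv0 x hx hx1 y hy hy1
    have hA1 : ¬ Bv X Γ (v 1) := d.nbr_not (hv.1 0 (by omega)) hv0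
    have hA7 : ¬ Bv X Γ (v 7) := by
      rw [d.arc_type hv (by omega)]
      simp [hv0]; decide
    have hB8 : Bv X Γ (v 8) := d.nbr_B (hv.1 7 (by omega)) hA7
    have hsub : IsArc Γ 6 fun i => v (1 + i) := hv.sub 1 (by omega)
    have hq1 := (d.crit_of_arc hp hconj (q := fun i => v (1 + i)) (by rw [h5]; exact hsub.take (by omega))
      hA1).2
    have hr : Crit X Γ fun i => v (7 - i) := d.crit_of_arc hp hconj (by
      rw [h5]
      exact ((hv.take (show 7 ≤ 8 by omega)).rev).take (by omega)) hA7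
    have hr2 := hr.2
    rw [h5] at hq1 hr2
    simp only [Nat.sub_zero] at hr2
    have Lq : Line X Γ fun i => v (1 + i) :=
      ⟨by rw [h5]; exact hsub, hA1, by rw [h5]; exact hq1, by rw [h5]; exact hr2⟩
    have hxq : x ∈ ZZ X Γ (v 1) := d.ZZ_B_le hv0 (hv.1 0 (by omega)) hx
    have hyq : y ∈ ZZ X Γ (v 7) := d.ZZ_B_le hB8 (hv.1 7 (by omega)).symm hy
    have hxQ : x ∉ QQ X Γ (v 6) := fun h => hx1 <| by
      have h2 := d.crit_kernel hm Lq.crit (by omega) (z := x) hxq (by rw [h5]; exact h)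
      exact d.disjoint_ZZ hA1 (hv.1 0 (by omega)).symm (hv.1 1 (by omega)) (hv.2 0 (by omega)) hx h2
    have hyQ : y ∉ QQ X Γ (v 2) := fun h => hy1 <| by
      have h2 := d.crit_kernel hm hr (by omega) (z := y) hyq (by rw [h5]; exact h)
      exact d.disjoint_ZZ hA7 (hv.1 7 (by omega)) (hv.1 6 (by omega)).symm
        (hv.2 6 (by omega)).symm hy h2
    exact d.line_comm_mem hm Lq hodd (by omega) hxq (by rw [h5]; exact hxQ)
      (by rw [h5]; exact hyq) hyQ
  -- a long arc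
  have hlong : ∀ k, ∃ q : ℕ → V, IsArc Γ (k + 1) q ∧ (Bv X Γ (q 0) ↔ Even k) := by
    intro k
    induction k with
    | zero =>
      exact ⟨fun i => p (1 + i), L.arc.sub 1 (by omega), iff_of_true hB1 ⟨0, rfl⟩⟩
    | succ k ih =>
      obtain ⟨q, hq, hq0⟩ := ih
      obtain ⟨x, hx, hxne⟩ := d.exists_other (hq.1 0 (by omega))
      refine ⟨acons x q, hq.cons hx.symm (Or.inr hxne), ?_⟩
      have := d.alt hx.symm
      rw [acons_zero, Nat.even_add_one]
      tauto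
  obtain ⟨v, hv, hv0⟩ := hlong 10
  have hv0 : Bv X Γ (v 0) := hv0.2 (by decide)
  have hB10 : Bv X Γ (v 10) := by rw [d.arc_type hv (by omega)]; simp [hv0]; decide
  obtain ⟨x, hx, hx1⟩ := d.exists_ne_one (v 0)
  obtain ⟨y, hy, hy1⟩ := d.exists_ne_one (v 10)
  have key : ∀ (v : ℕ → V), IsArc Γ 10 v → Bv X Γ (v 0) → Bv X Γ (v 10) →
      ∀ x ∈ ZZ X Γ (v 0), x ≠ 1 → ∀ y ∈ ZZ X Γ (v 10), y ≠ 1 →
        (x * y) * (x * y) * (x * y) * (x * y) ∈ ZZ X Γ (v 4) ∧
        (x * y) * (x * y) * (x * y) * (x * y) ≠ 1 := by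
    intro v hv h0 h10 x hx hx1 y hy hy1
    have hy9 : y ∈ ZZ X Γ (v 9) := d.ZZ_B_le h10 (hv.1 9 (by omega)).symm hy
    have hr : Crit X Γ fun i => v (9 - i) := d.crit_of_arc hp hconj (by
      rw [h5]
      exact ((hv.take (show 9 ≤ 10 by omega)).rev).take (by omega)) (d.nbr_not (hv.1 9 (by omega)).symm h10)
    have f4 : y • v 4 = v 4 := by
      have := d.crit_fix hr (z := y) hy9 (i := 5) (by omega)
      simpa using this
    have f5 : y • v 5 = v 5 := by
      have := d.crit_fix hr (z := y) hy9 (i := 4) (by omega)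
      simpa using this
    have f3 : y • v 3 ≠ v 3 := fun h => hy1 <| by
      have hQ : y ∈ QQ X Γ (v 4) := d.mem_QQ_of_fix (hv.1 3 (by omega)).symm (hv.1 4 (by omega))
        (hv.2 3 (by omega)) f4 h f5
      have h2 := d.crit_kernel hm hr (by omega) (z := y) hy9 (by rw [h5]; exact hQ)
      refine d.disjoint_ZZ (v := v 9) (d.nbr_not (hv.1 9 (by omega)).symm h10) (hv.1 9 (by omega))
        (hv.1 8 (by omega)).symm (hv.2 8 (by omega)).symm hy h2
    let w : ℕ → V := fun i => if i ≤ 4 then v i else y • v (8 - i)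
    have hwarc : IsArc Γ 8 w := by
      refine ⟨fun i hi => ?_, fun i hi => ?_⟩
      · interval_cases i
        all_goals simp only [w, Nat.reduceLeDiff, if_true, if_false, Nat.reduceSub, Nat.reduceAdd]
        · exact hv.1 0 (by omega)
        · exact hv.1 1 (by omega)
        · exact hv.1 2 (by omega)
        · exact hv.1 3 (by omega)
        · exact d.adj_fix f4 (hv.1 3 (by omega)).symm
        · exact d.smul_adj y (hv.1 2 (by omega)).symm
        · exact d.smul_adj y (hv.1 1 (by omega)).symm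
        · exact d.smul_adj y (hv.1 0 (by omega)).symm
      · have hi' : i ≤ 6 := by omega
        interval_cases i
        all_goals simp only [w, Nat.reduceLeDiff, if_true, if_false, Nat.reduceSub, Nat.reduceAdd]
        · exact hv.2 0 (by omega)
        · exact hv.2 1 (by omega)
        · exact hv.2 2 (by omega)
        · exact f3.symm
        · exact fun h => hv.2 2 (by omega) (MulAction.injective y (h.symm.trans f4.symm))
        · exact fun h => hv.2 1 (by omega) (MulAction.injective y h).symm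
        · exact fun h => hv.2 0 (by omega) (MulAction.injective y h).symm
    have hy' : y * x * y⁻¹ ∈ ZZ X Γ (w 8) := by
      show _ ∈ ZZ X Γ (if 8 ≤ 4 then v 8 else y • v (8 - 8))
      simpa using d.conj_ZZ (g := y) hx
    obtain ⟨h1, h2⟩ := rule w hwarc (by simpa [w] using h0) x (by simpa [w] using hx) hx1 _ hy'
      (fun h => hx1 (conj_eq_one_iff.1 h))
    have e : x * (y * x * y⁻¹ * x * (y * x * y⁻¹)⁻¹) =
        (x * y) * (x * y) * (x * y) * (x * y) := by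
      simp only [mul_inv_rev, inv_inv, d.ZZ_inv hx, d.ZZ_inv hy, mul_assoc]
    rw [e] at h1 h2
    exact ⟨by simpa [w] using h1, h2⟩
  have hv10 : IsArc Γ 10 v := hv.take (by omega)
  obtain ⟨h1, h1'⟩ := key v hv10 hv0 hB10 x hx hx1 y hy hy1
  obtain ⟨h2, -⟩ := key (fun i => v (10 - i)) hv10.rev (by simpa using hB10) (by simpa using hv0)
    y (by simpa using hy) hy1 x (by simpa using hx) hx1
  simp only [show 10 - 4 = 6 from rfl] at h2
  have h2' := inv_mem h2
  have e : ((y * x) * (y * x) * (y * x) * (y * x))⁻¹ = (x * y) * (x * y) * (x * y) * (x * y) := by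
    simp only [mul_inv_rev, d.ZZ_inv hx, d.ZZ_inv hy, mul_assoc]
  rw [e] at h2'
  refine h1' (d.disjoint_ZZ (v := v 5) ?_ (hv10.1 4 (by omega)).symm (hv10.1 5 (by omega))
    (hv10.2 4 (by omega)) h1 h2')
  rw [d.arc_type hv10 (by omega)]
  simp [hv0]; decide

end Mix

end Cfsg.Agent.H73.GA
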