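import Cfsg.Agent.H73.GoldOdd

/-!
Amalgams of index (3,3): odd critical distance at least five is impossible.
-/

set_option autoImplicit false
set_option linter.style.haveILetI false
set_option linter.unusedSectionVars false

namespace Cfsg.Agent.H73.GA

open Subgroup MulAction
open scoped Pointwise

variable {X : Type*} [Group X] {V : Type*} [MulAction X V]

namespace Mix

variable {Γ : SimpleGraph V} (d : Mix X Γ) (hm : Two X Γ) {u v w a b c : V} {p : ℕ → V}
include d hm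

theorem inter_nbrs (hv : Bv X Γ v) (ha : Γ.Adj v a) (hb : Γ.Adj v b) (hab : a ≠ b) {x : X}
    (hxa : x ∈ ZZ X Γ a) (hxb : x ∈ ZZ X Γ b) : x ∈ ZZ X Γ v := by
  by_contra hxv
  refine d.ZZ_inj hv ha hb hab (le_antisymm ?_ ?_)
  all_goals intro y hy
  · rcases d.mem_split hm (d.nbr_not ha hv) ha.symm hxa hxv hy with h | h
    · exact d.ZZ_B_le hv hb h
    · have := mul_mem (inv_mem hxb) (d.ZZ_B_le hv hb h)
      rwa [inv_mul_cancel_left] at this
  · rcases d.mem_split hm (d.nbr_not hb hv) hb.symm hxb hxv hy with h | h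
    · exact d.ZZ_B_le hv ha h
    · have := mul_mem (inv_mem hxa) (d.ZZ_B_le hv ha h)
      rwa [inv_mul_cancel_left] at this

theorem mem_ZZ_of_central (hv : ¬ Bv X Γ v) {x : X} (hx : x ∈ QQ X Γ v)
    (hc : ∀ q ∈ QQ X Γ v, q * x = x * q) (h2 : x * x = 1) : x ∈ ZZ X Γ v := by
  rcases d.mem_ZZ_of_central_QQ hv hx hc h2 with h | h
  · exact h
  obtain ⟨a, ha⟩ := d.exists_adj v
  obtain ⟨t, ht, htQ⟩ := d.exists_not_mem_QQ ha
  obtain ⟨h1, h1'⟩ := h a ha t ht htQ
  obtain ⟨y, hy, hy1⟩ : ∃ y ∈ ZZ X Γ v, y * (t * y * t⁻¹) ≠ 1 := by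
    by_contra hcon
    push Not at hcon
    refine htQ (d.mem_QQ_of_cent hv (mem_TT.1 ht).1 fun y hy => d.commute_of_delta hy (hcon y hy))
  have hyQ := d.ZZ_le_QQ v hy
  have hxy : x * y = y * x := (hc y hyQ).symm
  have hxy2 : x * y * (x * y) = 1 := by
    calc x * y * (x * y) = x * (y * x) * y := by group
      _ = (x * x) * (y * y) := by rw [← hxy]; group
      _ = 1 := by rw [h2, d.ZZ_sq hy, one_mul]
  have hcq : ∀ q ∈ QQ X Γ v, q * (x * y) = x * y * q := fun q hq => by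
    calc q * (x * y) = (q * x) * y := by group
      _ = x * (q * y) := by rw [hc q hq]; group
      _ = x * y * q := by rw [d.QQ_comm_ZZ hy hq]; group
  rcases d.mem_ZZ_of_central_QQ hv (mul_mem hx hyQ) hcq hxy2 with h' | h'
  · simpa using mul_mem h' (inv_mem hy)
  · exfalso
    refine (h' a ha t ht htQ).2 ?_
    have e : x * (t * x * t⁻¹) = y * (t * y * t⁻¹) :=
      d.eq_of_ne_one hm (d.nbr_B ha hv) h1 (d.delta_mem hv ha ht hy) h1' hy1
    have htx : t * x * t⁻¹ ∈ QQ X Γ v := d.conj_QQ_fix (mem_TT.1 ht).1 hx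
    calc x * y * (t * (x * y) * t⁻¹) = x * (y * (t * x * t⁻¹)) * (t * y * t⁻¹) := by group
      _ = x * (t * x * t⁻¹) * (y * (t * y * t⁻¹)) := by rw [← d.QQ_comm_ZZ hy htx]; group
      _ = 1 := by rw [e, d.ZZ_sq (d.delta_mem hv ha ht hy)]

theorem crit_kernel (hp : Crit X Γ p) (hb : 1 < bb X Γ) {z : X} (hz : z ∈ ZZ X Γ (p 0))
    (hzQ : z ∈ QQ X Γ (p (bb X Γ))) : z ∈ ZZ X Γ (p 1) := by
  obtain ⟨s, hs, hsQ⟩ := SetLike.not_le_iff_exists.1 hp.2
  have h01 := hp.1 0 (by omega)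
  have hle : ZZ X Γ (p 1) ≤ QQ X Γ (p (bb X Γ)) :=
    d.ZZ_le_QQ_of_lt (lt_of_le_of_lt (d.dist_path hp.1 (show 1 ≤ bb X Γ by omega) le_rfl) (by omega))
  rcases d.mem_split hm (d.crit_start hp) h01 hs (fun h => hsQ (hle h)) hz with h | h
  · exact h
  · have := mul_mem (hle h) (inv_mem hzQ)
    rw [mul_inv_cancel_right] at this
    exact absurd this hsQ

/-- A critical path continues backwards. -/
theorem back (L : Line X Γ p) (hodd : Odd (bb X Γ)) (h3 : 3 ≤ bb X Γ) :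
    ∃ j ν, Γ.Adj (p 0) j ∧ j ≠ p 1 ∧ Γ.Adj j ν ∧ ν ≠ p 0 ∧
      ¬ ZZ X Γ ν ≤ QQ X Γ (p (bb X Γ - 2)) := by
  by_contra hcon
  push Not at hcon
  set n := bb X Γ with hn
  have hp := L.crit
  have hA := d.crit_isArc hp
  have h0 := L.start
  have h01 := L.arc.1 0 (by omega)
  have hB : Bv X Γ (p n) := (d.arc_typeA L.arc L.start (by omega)).2 hodd
  obtain ⟨z, hz, hzQ⟩ := SetLike.not_le_iff_exists.1 L.first
  obtain ⟨t, ht, htQ⟩ := SetLike.not_le_iff_exists.1 L.last
  rw [← hn] at ht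
  have hlast := d.adj_last hp
  obtain ⟨j0, hj0, hj0ne⟩ := d.exists_other h01
  obtain ⟨ν0, hν0, hν0ne⟩ := d.exists_other hj0.symm
  have hnowit : ∀ (w : ℕ → V) (h : X), IsArc Γ n w → ¬ Bv X Γ (w n) → (∀ i ≤ n, h • w i = w i) →
      h ∉ QQ X Γ (w n) → False := by
    intro w h hw hwB hfix hhQ
    have hconj := d.conjArcs_all hA hB (fun i hi => d.crit_fix hp hz hi) hzQ hw hwB hfix hhQ n
      (by omega) False
    have harc : IsArc Γ n (acons ν0 (acons j0 p)) :=
      ((hA.cons hj0.symm (Or.inr hj0ne)).cons hν0.symm (Or.inr (by simpa using hν0ne))).take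
        (by omega)
    have hq := (d.crit_of_arc hp hconj harc (d.nbr_not hν0 (d.nbr_B hj0 h0))).2
    obtain ⟨k, hk⟩ : ∃ k, n = k + 2 := ⟨n - 2, by omega⟩
    have e : acons ν0 (acons j0 p) n = p (n - 2) := by rw [hk]; rfl
    rw [← hn, e] at hq
    exact hq (hcon j0 ν0 hj0 hj0ne hν0 hν0ne)
  have ht1 : t • p 1 = p 1 := d.line_fix L ht le_rfl (by omega)
  have hT1 : Γ.Adj (p 1) (t • p 0) := d.adj_fix ht1 h01.symm
  have htz : t * z * t⁻¹ ∈ WW X Γ (p 0) :=
    d.VV_le_WW h01 (d.ZZ_le_VV hT1 (d.conj_ZZ hz))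
  have key : WW X Γ (p 0) ≤ (WW X Γ (p 0)).comap (MulAut.conj t).toMonoidHom := by
    refine iSup₂_le fun j hj => ?_
    by_cases hj1 : j = p 1
    · subst hj1
      intro y hy
      show t * y * t⁻¹ ∈ WW X Γ (p 0)
      exact d.VV_le_WW hj (by simpa [ht1] using d.conj_VV (g := t) hy)
    refine iSup₂_le fun ν hν x hx => ?_
    show t * x * t⁻¹ ∈ WW X Γ (p 0)
    by_cases hν0' : ν = p 0
    · subst hν0'
      exact d.VV_le_WW h01 (d.ZZ_le_VV hT1 (d.conj_ZZ hx))
    have hxQ : x ∈ QQ X Γ (p (n - 2)) := hcon j ν hj hj1 hν hν0' hx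
    have hadj2 : Γ.Adj (p (n - 2)) (p (n - 1)) := by
      have := hp.1 (n - 2) (by omega)
      rwa [show n - 2 + 1 = n - 1 by omega] at this
    have hxd : ∀ i, i + 2 ≤ n → x • p i = p i := fun i hi => by
      refine d.ZZ_fix ?_ hx
      have h1 := d.dist_adj_le (w := p i) (SimpleGraph.Adj.symm (show Γ.Adj j ν from hν))
      have h2 := d.dist_adj_le (w := p i) (SimpleGraph.Adj.symm (show Γ.Adj (p 0) j from hj))
      have h4 := d.dist_path hp.1 (Nat.zero_le i) (show i ≤ n by omega)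
      omega
    have hxn1 : x • p (n - 1) = p (n - 1) := (mem_QQ.1 hxQ).2 _ hadj2
    have hxfix : ∀ i, i + 1 ≤ n → x • p i = p i := fun i hi => by
      rcases Nat.lt_or_ge (i + 1) n with h | h
      · exact hxd i (by omega)
      · rw [show i = n - 1 by omega]; exact hxn1
    by_cases hxn : x • p n = p n
    swap
    · refine (hnowit (acons j p) x ((hA.cons (SimpleGraph.Adj.symm hj) (Or.inr hj1)).take (by omega))
        ?_ ?_ ?_).elim
      · have e : acons j p n = p (n - 1) := by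
          obtain ⟨k, hk⟩ : ∃ k, n = k + 1 := ⟨n - 1, by omega⟩
          rw [hk]; rfl
        rw [e]
        exact d.nbr_not hlast hB
      · intro i hi
        rcases i with _ | i
        · exact (mem_QQ.1 (d.ZZ_le_QQ ν hx)).2 j (SimpleGraph.Adj.symm hν)
        · exact hxfix i hi
      · have e : acons j p n = p (n - 1) := by
          obtain ⟨k, hk⟩ : ∃ k, n = k + 1 := ⟨n - 1, by omega⟩
          rw [hk]; rfl
        rw [e]
        intro h
        exact hxn ((mem_QQ.1 h).2 _ hlast.symm)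
    have hxT : x ∈ TT (X := X) (p n) (p (n - 1)) := mem_TT.2 ⟨hxn, hxn1⟩
    have hzT := d.crit_conj_end hp hz hzQ
    rw [← hn] at hzT
    obtain ⟨y, hyQ, hyfix, hcase⟩ : ∃ y, y ∈ QQ X Γ (p n) ∧ (∀ i ≤ n, y • p i = p i) ∧
        (x = y ∨ x = y * z) := by
      by_cases hxQn : x ∈ QQ X Γ (p n)
      · refine ⟨x, hxQn, fun i hi => ?_, Or.inl rfl⟩
        rcases Nat.lt_or_eq_of_le hi with h | rfl
        · exact hxfix i h
        · exact hxn
      · refine ⟨x * z, d.mul_mem_QQ hlast hxT hxQn hzT hzQ, fun i hi => ?_,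
          Or.inr (by rw [mul_assoc, d.ZZ_sq hz, mul_one])⟩
        rw [mul_smul, d.crit_fix hp hz hi]
        rcases Nat.lt_or_eq_of_le hi with h | rfl
        · exact hxfix i h
        · exact hxn
    have hnext := L.arc.1 n (by omega)
    by_cases hy1 : y ∈ QQ X Γ (p (n + 1))
    swap
    · refine (hnowit (fun i => p (1 + i)) y (L.arc.sub 1 (by omega)) ?_ ?_ ?_).elim
      · show ¬ Bv X Γ (p (1 + n))
        rw [show 1 + n = n + 1 by omega]
        exact d.nbr_not hnext hB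
      · intro i hi
        show y • p (1 + i) = p (1 + i)
        rcases Nat.lt_or_eq_of_le hi with h | rfl
        · exact hyfix _ (by omega)
        · rw [show 1 + n = n + 1 by omega]
          exact (mem_QQ.1 hyQ).2 _ hnext
      · show y ∉ QQ X Γ (p (1 + n))
        rwa [show 1 + n = n + 1 by omega]
    have hyt : t * y * t⁻¹ = y := by
      rw [← d.QQ_comm_ZZ ht hy1, mul_inv_cancel_right]
    have hxW : x ∈ WW X Γ (p 0) := d.VV_le_WW hj (d.ZZ_le_VV hν hx)
    rcases hcase with e | e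
    · rw [e, hyt, ← e]; exact hxW
    · have hyW : y ∈ WW X Γ (p 0) := by
        have h' : z ∈ WW X Γ (p 0) := d.VV_le_WW h01 (d.ZZ_le_VV h01.symm hz)
        rw [show y = x * z⁻¹ by rw [e, mul_inv_cancel_right]]
        exact mul_mem hxW (inv_mem h')
      rw [e, show t * (y * z) * t⁻¹ = (t * y * t⁻¹) * (t * z * t⁻¹) by group, hyt]
      exact mul_mem hyW htz
  have htN : t ∈ normalizer (WW X Γ (p 0) : Set X) := by
    refine Subgroup.mem_normalizer_iff.2 fun y => ⟨fun hy => key hy, fun hy => ?_⟩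
    have h' : t * (t * y * t⁻¹) * t⁻¹ ∈ WW X Γ (p 0) := key hy
    rw [show t * (t * y * t⁻¹) * t⁻¹ = (t * t) * y * (t * t)⁻¹ by group, d.ZZ_sq ht] at h'
    simpa using h'
  have hmove : t • p 0 ≠ p 0 := fun h => htQ <| by
    have h12 := L.arc.1 1 (by omega)
    exact d.mem_QQ_of_fix h01.symm h12 (L.arc.ne rfl (by omega)) ht1 h
      (d.line_fix L ht (by omega) (by omega))
  have hle : WW X Γ (p 0) ≤ TT (p 0) (p 1) := by
    refine iSup₂_le fun j hj => (d.VV_le_QQ ?_).trans (d.QQ_le_TT h01)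
    rw [SimpleGraph.dist_eq_one_iff_adj.2 (SimpleGraph.Adj.symm (show Γ.Adj (p 0) j from hj))]
    omega
  have hbot := d.faithful h01 _ hle (d.stab_le_normalizer_WW (p 0))
    (d.stab_le h01.symm (inf_le_right.trans (d.stab_le_normalizer_WW (p 0))) ht1 hmove htN)
  exact d.ZZ_ne_bot (p 0) (le_bot_iff.1 (hbot ▸ ((d.ZZ_le_VV h01.symm).trans (d.VV_le_WW h01))))

/-- A line continues forwards by two steps. -/
theorem forward (L : Line X Γ p) (hodd : Odd (bb X Γ)) (h3 : 3 ≤ bb X Γ) :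
    ∃ q, Line X Γ q ∧ ∀ i, i + 1 ≤ bb X Γ → q i = p (i + 2) := by
  set n := bb X Γ with hn
  obtain ⟨j, ν, hj, hjne, hν, hνne, hnle⟩ := d.back hm (d.line_rev L hodd) hodd h3
  simp only [Nat.sub_zero, ← hn, show n + 1 - 1 = n by omega,
    show n + 1 - (n - 2) = 3 by omega] at hj hjne hνne hnle
  set r := acons ν (acons j fun i => p (n + 1 - i)) with hr
  have harc : IsArc Γ (n + 1 + 1 + 1) r :=
    (L.arc.rev.cons (by simpa using hj.symm) (Or.inr (by simpa using hjne))).cons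
      (by simpa using hν.symm) (Or.inr (by simpa using hνne))
  have er : ∀ i, 2 ≤ i → r i = p (n + 3 - i) := by
    intro i hi
    obtain ⟨k, rfl⟩ : ∃ k, i = k + 2 := ⟨i - 2, by omega⟩
    show p (n + 1 - k) = _
    congr 1
    omega
  have hcr : Crit X Γ r := ⟨fun i hi => harc.1 i (by omega), by
    rw [← hn, er n (by omega), show n + 3 - n = 3 by omega]; exact hnle⟩
  obtain ⟨ν', hν', hne', hnle'⟩ := d.exists_line_ext hcr hodd
  rw [← hn, er n (by omega), show n + 3 - n = 3 by omega] at hν'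
  rw [← hn, er (n - 1) (by omega), show n + 3 - (n - 1) = 4 by omega] at hne'
  have e1 : r 1 = j := rfl
  rw [e1] at hnle'
  have h34 := L.arc.1 3 (by omega)
  have h32 := (L.arc.1 2 (by omega)).symm
  have h24 : p 2 ≠ p 4 := L.arc.ne rfl (by omega)
  have hnot : ¬ ZZ X Γ (p 2) ≤ QQ X Γ j := by
    by_cases h : ν' = p 2
    · rwa [← h]
    intro hle
    obtain ⟨g, hg, hgQ⟩ := SetLike.not_le_iff_exists.1 hnle
    have hg3 : g • p 3 = p 3 := by
      have := d.crit_fix hcr (z := g) hg (i := n) le_rfl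
      rwa [er n (by omega), show n + 3 - n = 3 by omega] at this
    have hg4 : g • p 4 = p 4 := by
      have := d.crit_fix hcr (z := g) hg (i := n - 1) (Nat.sub_le _ _)
      rwa [er (n - 1) (by omega), show n + 3 - (n - 1) = 4 by omega] at this
    have hgj : g • j = j := (mem_QQ.1 (d.ZZ_le_QQ ν hg)).2 j hν.symm
    have e := d.swap h34 h32 hν' h24.symm hne'.symm (fun h' => h h'.symm) (mem_TT.2 ⟨hg3, hg4⟩) hgQ
    refine hnle' ?_
    rw [← e, ← d.map_ZZ]
    rintro _ ⟨y, hy, rfl⟩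
    have := d.conj_QQ (g := g) (hle hy)
    rwa [hgj] at this
  refine ⟨fun i => r (n + 1 - i), ⟨(harc.take (show n + 1 ≤ n + 1 + 1 + 1 by omega)).rev, ?_, ?_, ?_⟩,
    fun i hi => ?_⟩
  · show ¬ Bv X Γ (r (n + 1 - 0))
    rw [er _ (by omega), show n + 3 - (n + 1 - 0) = 2 by omega,
      d.arc_typeA L.arc L.start (by omega)]
    decide
  · simp only [Nat.sub_zero, ← hn, show n + 1 - n = 1 by omega, e1]
    rw [er _ (by omega), show n + 3 - (n + 1) = 2 by omega]
    exact hnot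
  · simp only [← hn, Nat.sub_self, show n + 1 - 1 = n by omega]
    rw [er n (by omega), show n + 3 - n = 3 by omega]
    exact hnle
  · show r (n + 1 - i) = _
    rw [er _ (by omega)]
    congr 1
    omega

theorem exists_QQ_two (hodd : Odd (bb X Γ)) (h3 : 3 ≤ bb X Γ) (hv : ¬ Bv X Γ v) (ha : Γ.Adj v a) (hb : Γ.Adj v b) (hab : a ≠ b) :
    ∃ e ∈ QQ X Γ v, e ∈ QQ X Γ a ∧ e ∉ QQ X Γ b := by
  obtain ⟨x, hx, hxv⟩ := d.exists_other ha.symm
  -- an arc of length three through `a, v, b` and a witness for it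
  by_contra hcon
  push Not at hcon
  have harc : IsArc Γ 2 (acons a (acons v fun _ => b)) := by
    refine ⟨fun i hi => ?_, fun i hi => ?_⟩
    · interval_cases i
      · exact ha.symm
      · exact hb
    · rw [show i = 0 by omega]; exact hab
  have harc3 : IsArc Γ 3 (acons x (acons a (acons v fun _ => b))) :=
    harc.cons (by simpa using hx.symm) (Or.inr (by simpa using hxv))
  obtain ⟨p, hp⟩ := d.exists_crit
  obtain ⟨z, hz, hzQ⟩ := SetLike.not_le_iff_exists.1 hp.2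
  have hw : ∃ w : ℕ → V, ∃ h : X, IsArc Γ 3 w ∧ ¬ Bv X Γ (w 0) ∧ (∀ i ≤ 3, h • w i = w i) ∧
      h ∉ QQ X Γ (w 3) := by
    refine ⟨fun i => p (bb X Γ - 3 + i), z, (d.crit_isArc hp).sub _ (by omega), ?_,
      fun i hi => d.crit_fix hp hz (by omega), ?_⟩
    · show ¬ Bv X Γ (p (bb X Γ - 3 + 0))
      rw [d.crit_type hp (by omega), Nat.add_zero, Nat.not_odd_iff_even]
      obtain ⟨k, hk⟩ := hodd
      exact ⟨k - 1, by omega⟩
    · show z ∉ QQ X Γ (p (bb X Γ - 3 + 3))
      rwa [show bb X Γ - 3 + 3 = bb X Γ by omega]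
  obtain ⟨w, h, hwarc, hw0, hfix, hhQ⟩ := hw
  obtain ⟨g, hg⟩ := d.conjArcs_le_three le_rfl False w _ hwarc harc3 (by simpa using hw0)
    (by simpa using d.nbr_not hx (d.nbr_B ha hv))
  have hf : ∀ i ≤ 3, (g * h * g⁻¹) • acons x (acons a (acons v fun _ => b)) i =
      acons x (acons a (acons v fun _ => b)) i := fun i hi => by
    rw [← hg i hi, mul_smul, inv_smul_smul, mul_smul, hfix i hi]
  have f0 := hf 0 (by omega)
  have f1 := hf 1 (by omega)
  have f2 := hf 2 (by omega)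
  have f3 := hf 3 le_rfl
  simp only [acons_zero, acons_succ] at f0 f1 f2 f3
  refine hhQ ?_
  have hQb := hcon _ (d.mem_QQ_of_fix ha hb hab f2 f1 f3)
    (d.mem_QQ_of_fix hx ha.symm hxv f1 f0 f2)
  have e3 := hg 3 le_rfl
  simp only [acons_succ] at e3
  rw [← e3] at hQb
  have := d.conj_QQ (g := g⁻¹) hQb
  rw [inv_smul_smul] at this
  simpa [mul_assoc] using this

end Mix

end Cfsg.Agent.H73.GA
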