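import Cfsg.Agent.H73.GoldThree
import Cfsg.Agent.H73.SymAmalgamOne

/-!
Goldschmidt's bound for amalgams of index (3,3).
-/

set_option autoImplicit false
set_option linter.style.haveILetI false
set_option linter.unusedSectionVars false

namespace Cfsg.Agent.H73.GA

open Subgroup MulAction
open scoped Pointwise

section Abstract

variable {X : Type*} [Group X] {V : Type*} [MulAction X V] {Γ : SimpleGraph V}

theorem Amal.card_inf_le (d : Amal X Γ) {v a : V} (ha : Γ.Adj v a) {H : Subgroup X}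
    (hH : H ≤ TT v a) : Nat.card H ≤ 2 * Nat.card (H ⊓ QQ X Γ v : Subgroup X) := by
  classical
  haveI := d.finite_of_le (hH.trans inf_le_left)
  haveI : Finite (H ⊓ QQ X Γ v : Subgroup X) :=
    d.finite_of_le ((inf_le_left : H ⊓ QQ X Γ v ≤ H).trans (hH.trans inf_le_left))
  have e2 : Nat.card (Bool × (H ⊓ QQ X Γ v : Subgroup X)) =
      2 * Nat.card (H ⊓ QQ X Γ v : Subgroup X) := by
    rw [Nat.card_prod, Nat.card_eq_fintype_card, Fintype.card_bool]
  by_cases hex : H ≤ QQ X Γ v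
  · rw [inf_eq_left.2 hex]; omega
  obtain ⟨s, hs, hsQ⟩ := SetLike.not_le_iff_exists.1 hex
  refine le_of_le_of_eq ?_ e2
  let f : H → Bool × (H ⊓ QQ X Γ v : Subgroup X) := fun x =>
    if hx : (x : X) ∈ QQ X Γ v then (true, ⟨x, Subgroup.mem_inf.2 ⟨x.2, hx⟩⟩)
    else (false, ⟨s⁻¹ * x, Subgroup.mem_inf.2
      ⟨mul_mem (inv_mem hs) x.2, d.inv_mul_mem_QQ ha (hH hs) hsQ (hH x.2) hx⟩⟩)
  refine Nat.card_le_card_of_injective f fun x y h => ?_
  simp only [f] at h
  by_cases hx : (x : X) ∈ QQ X Γ v <;> by_cases hy : (y : X) ∈ QQ X Γ v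
  · rw [dif_pos hx, dif_pos hy, Prod.mk.injEq, Subtype.mk.injEq] at h
    exact Subtype.ext h.2
  · rw [dif_pos hx, dif_neg hy, Prod.mk.injEq] at h
    exact absurd h.1 (by decide)
  · rw [dif_neg hx, dif_pos hy, Prod.mk.injEq] at h
    exact absurd h.1 (by decide)
  · rw [dif_neg hx, dif_neg hy, Prod.mk.injEq, Subtype.mk.injEq] at h
    exact Subtype.ext (mul_left_cancel h.2)

/-- A kernel centralized by an element outside it makes the edge stabilizers small. -/
theorem Amal.card_le_of_not_charP (d : Amal X Γ) {v : V} {g : X} (hg : g • v = v)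
    (hc : ∀ q ∈ QQ X Γ v, g * q = q * g) (hgQ : g ∉ QQ X Γ v) {w a : V} (h : Γ.Adj w a) :
    Nat.card (TT (X := X) w a) ≤ 16 := by
  obtain ⟨α, hα, hgα⟩ : ∃ α, Γ.Adj v α ∧ g • α ≠ α := by
    by_contra hcon
    push Not at hcon
    exact hgQ (mem_QQ.2 ⟨hg, hcon⟩)
  obtain ⟨ν, hν, hνv⟩ := d.exists_other hα.symm
  obtain ⟨ν', hν', hν'v, hν'ν, hall⟩ := d.exists_third hα.symm hν hνv.symm
  let A1 := QQ X Γ α ⊓ QQ X Γ v
  let A2 := A1 ⊓ QQ X Γ ν
  let A3 := A2 ⊓ QQ X Γ ν'
  have s1 : Nat.card (QQ X Γ α) ≤ 2 * Nat.card A1 :=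
    d.card_inf_le hα (d.QQ_le_TT' hα.symm)
  have s2 : Nat.card A1 ≤ 2 * Nat.card A2 :=
    d.card_inf_le hν.symm (inf_le_left.trans (d.QQ_le_TT' hν))
  have s3 : Nat.card A2 ≤ 2 * Nat.card A3 :=
    d.card_inf_le hν'.symm ((inf_le_left.trans inf_le_left).trans (d.QQ_le_TT' hν'))
  have hA3 : A3 = ⊥ := by
    have hn : stabilizer X α ≤ normalizer (A3 : Set X) := by
      refine Amal.mem_normalizer_of_conj_le fun k hk x hx => ?_
      have hkα := mem_stabilizer_iff.1 hk
      obtain ⟨⟨⟨hx0, hxv⟩, hxν⟩, hxν'⟩ := hx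
      have key : ∀ u, Γ.Adj α u → k * x * k⁻¹ ∈ QQ X Γ u := by
        intro u hu
        have hu' := d.adj_fix (inv_smul_eq_iff.2 hkα.symm) hu
        have hmem : x ∈ QQ X Γ (k⁻¹ • u) := by
          rcases hall _ hu' with e | e | e <;> rw [e] <;> assumption
        simpa using d.conj_QQ (g := k) hmem
      exact ⟨⟨⟨d.conj_QQ_fix hkα hx0, key v hα.symm⟩, key ν hν⟩, key ν' hν'⟩
    refine d.faithful hα.symm A3 ((inf_le_left.trans (inf_le_left.trans inf_le_left)).trans
      (d.QQ_le_TT hα.symm)) hn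
      (d.stab_le hα (inf_le_right.trans hn) hg hgα ?_)
    refine centralizer_le_normalizer _ (mem_centralizer_iff.2 fun x hx => ?_)
    exact (hc x hx.1.1.2).symm
  rw [hA3, Subgroup.card_bot] at s3
  rw [d.card_TT_eq h hα.symm, d.card_T hα.symm]
  omega

/-- The bound when central vertices alternate with the others. -/
theorem Mix.card_le (d : Mix X Γ) {v a : V} (h : Γ.Adj v a) :
    Nat.card (TT (X := X) v a) ≤ 2 ^ 7 := by
  obtain ⟨p, hp⟩ := d.exists_crit
  have h0 := d.bb_pos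
  have h1 := d.bb_ne_one
  rcases Nat.even_or_odd (bb X Γ) with he | ho
  · rcases Nat.lt_or_ge (bb X Γ) 4 with hlt | hge
    · refine d.card_le_of_two hp ?_ h
      obtain ⟨k, hk⟩ := he
      omega
    · exact (d.not_even_of_four_le hp he hge).elim
  · obtain ⟨ν, L⟩ := d.line_of_crit hp ho
    have h3 : 3 ≤ bb X Γ := by obtain ⟨k, hk⟩ := ho; omega
    have hm := d.two_odd L ho h3
    rcases Nat.lt_or_ge (bb X Γ) 5 with hlt | hge
    · refine d.card_le_three hm ?_ h
      obtain ⟨k, hk⟩ := ho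
      omega
    rcases Nat.lt_or_ge (bb X Γ) 7 with hlt | hge7
    · exact (d.not_five hm L (by obtain ⟨k, hk⟩ := ho; omega)).elim
    · exact (d.not_seven_le hm L ho hge7).elim

end Abstract

open Cfsg

/-- Goldschmidt's bound for a generating pair. -/
theorem goldschmidt_bound {G : Type*} [Group G] (P₁ P₂ : Subgroup G) [Finite P₁] [Finite P₂]
    (hgen : P₁ ⊔ P₂ = ⊤)
    (hc1 : Nat.card P₁ = 3 * Nat.card (P₁ ⊓ P₂ : Subgroup G))
    (hq1 : Nat.card (P₁ ⊓ P₂ : Subgroup G) = 2 * Nat.card (pCoreOf 2 P₁))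
    (hc2 : Nat.card P₂ = 3 * Nat.card (P₁ ⊓ P₂ : Subgroup G))
    (hq2 : Nat.card (P₁ ⊓ P₂ : Subgroup G) = 2 * Nat.card (pCoreOf 2 P₂))
    (htwo : IsPGroup 2 (P₁ ⊓ P₂ : Subgroup G))
    (hN : ∀ N : Subgroup G, N ≤ P₁ ⊓ P₂ → N.Normal → N = ⊥) :
    Nat.card (P₁ ⊓ P₂ : Subgroup G) ≤ 2 ^ 7 := by
  haveI : Fact (Nat.Prime 2) := ⟨Nat.prime_two⟩
  set T := P₁ ⊓ P₂ with hT
  haveI : Finite T := Finite.of_injective _ (Subgroup.inclusion_injective (inf_le_left : T ≤ P₁))
  have hTpos := Nat.card_pos (α := T)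
  have hne1 : P₁ ≠ ⊤ := fun h => by
    have e : T = P₂ := by rw [hT, h, top_inf_eq]
    rw [← e] at hc2; omega
  have hne2 : P₂ ≠ ⊤ := fun h => by
    have e : T = P₁ := by rw [hT, h, inf_top_eq]
    rw [← e] at hc1; omega
  set Γ := cosetGraph P₁ P₂ with hΓ
  set v0 := H72.vl P₁ P₂ (1 : G)
  set a0 := H72.vr P₁ P₂ (1 : G)
  have h00 : Γ.Adj v0 a0 := H72.adj_vl_vr (1 : G)
  have hone : ∀ P : Subgroup G, P.map (MulAut.conj (1 : G)).toMonoidHom = P := fun P => by ext; simp
  have hs1 : stabilizer G v0 = P₁ := by rw [H72.stab_vl, hone]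
  have hs2 : stabilizer G a0 = P₂ := by rw [H72.stab_vr, hone]
  have he0 : edgeStabilizer v0 a0 = T := by rw [H72.edgeStab_vl_vr, hone]
  have he0' : edgeStabilizer a0 v0 = T := (H73.edge_symm v0 a0).trans he0
  have base : ∀ {v a : CosetVertex P₁ P₂}, Γ.Adj v a → ∃ g : G, ∃ P : Subgroup G,
      (P = P₁ ∨ P = P₂) ∧ stabilizer G v = P.map (MulAut.conj g).toMonoidHom ∧
      edgeStabilizer v a = T.map (MulAut.conj g).toMonoidHom := by
    intro v a h
    obtain ⟨g, ⟨rfl, rfl⟩ | ⟨rfl, rfl⟩⟩ := H73.exists_edge_map h00 h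
    · refine ⟨g, P₁, Or.inl rfl, ?_, ?_⟩
      · rw [MulAction.stabilizer_smul_eq_stabilizer_map_conj, hs1]
      · rw [← H73.map_edgeStabilizer, he0]
    · refine ⟨g, P₂, Or.inr rfl, ?_, ?_⟩
      · rw [MulAction.stabilizer_smul_eq_stabilizer_map_conj, hs2]
      · rw [← H73.map_edgeStabilizer, he0']
  have hPf : ∀ P : Subgroup G, (P = P₁ ∨ P = P₂) →
      Nat.card P = 3 * Nat.card T ∧ Nat.card T = 2 * Nat.card (pCoreOf 2 P) := by
    rintro P (rfl | rfl)
    · exact ⟨hc1, hq1⟩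
    · exact ⟨hc2, hq2⟩
  have hfin : ∀ v : CosetVertex P₁ P₂, Finite (stabilizer G v) := by
    intro v
    obtain ⟨a, ha⟩ := H72.exists_adj v
    obtain ⟨g, P, hP, hst, -⟩ := base ha
    rw [hst]
    haveI : Finite P := by rcases hP with rfl | rfl <;> infer_instance
    exact Finite.of_equiv _ (Subgroup.equivMapOfInjective _ _ (MulAut.conj g).injective).toEquiv
  have hcard : ∀ {v a : CosetVertex P₁ P₂}, Γ.Adj v a →
      Nat.card (stabilizer G v) = 3 * Nat.card (edgeStabilizer v a) ∧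
      Nat.card (edgeStabilizer v a) = 2 * Nat.card (vertexQ 2 v) ∧
      IsPGroup 2 (edgeStabilizer v a) := by
    intro v a h
    obtain ⟨g, P, hP, hst, hed⟩ := base h
    refine ⟨?_, ?_, ?_⟩
    · rw [hst, hed, Subgroup.card_map_of_injective (MulAut.conj g).injective,
        Subgroup.card_map_of_injective (MulAut.conj g).injective, (hPf P hP).1]
    · rw [vertexQ, hst, hed, H72.pCoreOf_map_equiv,
        Subgroup.card_map_of_injective (MulAut.conj g).injective,
        Subgroup.card_map_of_injective (MulAut.conj g).injective, (hPf P hP).2]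
    · rw [hed]; exact htwo.map _
  have hQ : ∀ v : CosetVertex P₁ P₂, QQ G Γ v = vertexQ 2 v := by
    intro v
    haveI := hfin v
    obtain ⟨a, ha⟩ := H72.exists_adj v
    refine le_antisymm ?_ ?_
    · refine H72.le_pCoreOf (fun x hx => (Subgroup.mem_inf.1 hx).1) ?_
        ((hcard ha).2.2.to_le fun x hx => ?_)
      · refine Amal.mem_normalizer_of_conj_le fun g hg q hq => ?_
        obtain ⟨h1, h2⟩ := mem_QQ.1 hq
        have hgv := mem_stabilizer_iff.1 hg
        refine mem_QQ.2 ⟨by rw [mul_smul, mul_smul, inv_smul_eq_iff.2 hgv.symm, h1, hgv], fun u hu => ?_⟩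
        have hu' := H72.adj_smul g⁻¹ hu
        rw [inv_smul_eq_iff.2 hgv.symm] at hu'
        rw [mul_smul, mul_smul, h2 _ hu', smul_inv_smul]
      · obtain ⟨h1, h2⟩ := mem_QQ.1 hx
        exact Subgroup.mem_inf.2 ⟨mem_stabilizer_iff.2 h1, mem_stabilizer_iff.2 (h2 a ha)⟩
    · intro q hq
      refine mem_QQ.2 ⟨mem_stabilizer_iff.1 (H72.pCoreOf_le _ _ hq), fun u hu => ?_⟩
      obtain ⟨k1, -, k3⟩ := hcard hu
      have hle : vertexQ 2 v ≤ edgeStabilizer v u := by
        refine H72.pCoreOf_le_of_card (H := stabilizer G v) inf_le_left ?_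
        haveI : Finite (edgeStabilizer v u) := Finite.of_injective _
          (Subgroup.inclusion_injective (inf_le_left : edgeStabilizer v u ≤ stabilizer G v))
        rw [k1, Nat.factorization_mul (by norm_num) (Nat.card_pos (α := edgeStabilizer v u)).ne']
        simp [Nat.prime_three.factorization]
      exact mem_stabilizer_iff.1 (hle hq).2
  have d : Amal G Γ := by
    refine ⟨H72.cosetGraph_connected hgen, fun g {v a} h => H72.adj_smul g h,
      fun {v a v' a'} h h' => H73.exists_edge_map h h', fun {v a b} h h' => ?_, H72.exists_adj, hfin,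
      fun {v a} h => (hcard h).1, fun {v a} h => ?_, fun {v a} h => (hcard h).2.2,
      fun {v a} h N hN' hv ha => ?_⟩
    · obtain ⟨g, hg, he⟩ := H72.exists_stab_smul h h'
      exact ⟨g, mem_stabilizer_iff.1 hg, he⟩
    · rw [hQ]; exact (hcard h).2.1
    · obtain ⟨x, hx⟩ := H72.exists_edge_rep h
      have hboth : (P₁.map (MulAut.conj x).toMonoidHom ⊔ P₂.map (MulAut.conj x).toMonoidHom) ≤
          normalizer (N : Set G) := by
        rcases hx with ⟨rfl, rfl⟩ | ⟨rfl, rfl⟩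
        · rw [H72.stab_vl] at hv; rw [H72.stab_vr] at ha; exact sup_le hv ha
        · rw [H72.stab_vr] at hv; rw [H72.stab_vl] at ha; exact sup_le ha hv
      rw [← Subgroup.map_sup, hgen, Subgroup.map_top_of_surjective _ (MulAut.conj x).surjective] at hboth
      have hnormal : N.Normal := Subgroup.normalizer_eq_top_iff.1 (top_le_iff.1 hboth)
      refine hN N ?_ hnormal
      intro n hn
      have hmem : x * n * x⁻¹ ∈ TT (X := G) v a := hN' (hnormal.conj_mem n hn x)
      rcases hx with ⟨rfl, rfl⟩ | ⟨rfl, rfl⟩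
      · have h' : x * n * x⁻¹ ∈ T.map (MulAut.conj x).toMonoidHom := by
          rw [← H72.edgeStab_vl_vr]; exact hmem
        obtain ⟨m, hm, he⟩ := h'
        rwa [← (MulAut.conj x).injective (show (MulAut.conj x) m = (MulAut.conj x) n from he)]
      · have h' : x * n * x⁻¹ ∈ T.map (MulAut.conj x).toMonoidHom := by
          rw [← H72.edgeStab_vl_vr]; exact ⟨hmem.2, hmem.1⟩
        obtain ⟨m, hm, he⟩ := h'
        rwa [← (MulAut.conj x).injective (show (MulAut.conj x) m = (MulAut.conj x) n from he)]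
  have hgoal : Nat.card (TT (X := G) v0 a0) = Nat.card T := by
    show Nat.card (edgeStabilizer v0 a0) = _
    rw [he0]
  by_cases hC : ∀ {v : CosetVertex P₁ P₂} {g : G}, g • v = v →
      (∀ q ∈ QQ G Γ v, g * q = q * g) → g ∈ QQ G Γ v
  swap
  · push Not at hC
    obtain ⟨v, g, hg, hc, hgQ⟩ := hC
    have := d.card_le_of_not_charP hg hc hgQ h00
    omega
  by_cases hall : ∀ v : CosetVertex P₁ P₂, ¬ Bv G Γ v
  · have hcp : ∀ (P : Subgroup G) (v : CosetVertex P₁ P₂), stabilizer G v = P →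
        Subgroup.centralizer (pCore 2 P : Set P) ≤ pCore 2 P := by
      intro P v hv x hx
      have h1 : (x : G) ∈ QQ G Γ v := by
        refine hC (mem_stabilizer_iff.1 (hv.symm ▸ x.2)) fun q hq => ?_
        rw [hQ, vertexQ, hv] at hq
        obtain ⟨q', hq', rfl⟩ := hq
        exact (congrArg Subtype.val (Subgroup.mem_centralizer_iff.1 hx q' hq')).symm
      rw [hQ, vertexQ, hv] at h1
      obtain ⟨x', hx', he⟩ := h1
      rwa [← Subtype.ext he]
    have hdvd : 2 ∣ Nat.card T := ⟨_, hq1⟩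
    have hcharP : IsCharPAmalgamPair 2 P₁ P₂ := by
      refine ⟨⟨hgen, hne1, hne2, hN⟩, inferInstance, inferInstance,
        dvd_trans hdvd (Subgroup.card_dvd_of_le inf_le_left),
        dvd_trans hdvd (Subgroup.card_dvd_of_le inf_le_right),
        fun S Q₁ Q₂ => ?_, hcp P₁ v0 hs1, hcp P₂ a0 hs2⟩
      rw [Sylow.card_eq_multiplicity, Sylow.card_eq_multiplicity, Sylow.card_eq_multiplicity, hc1, hc2,
        Nat.factorization_mul (by norm_num) hTpos.ne']
      simp [Nat.prime_three.factorization, ← hT]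
    have ds : H73.SymAm P₁ P₂ := by
      refine ⟨hcharP, fun {v a} h => (hcard h).1, fun {v a} h => (hcard h).2.1,
        fun {v a} h => (hcard h).2.2, fun {v a} h hle => hall v (d.Bv_of_one h fun g hg x hx => ?_)⟩
      obtain ⟨h1, h2, h3⟩ := mem_EE.1 hx
      have hxZ : x ∈ H73.ZE v a := Subgroup.subset_closure ⟨Subgroup.mem_inf.2 ⟨h1,
        Subgroup.mem_centralizer_iff.2 h2⟩, by rw [pow_two, h3]⟩
      exact (Subgroup.mem_centralizer_iff.1 (hle (mem_stabilizer_iff.2 hg)) x hxZ).symm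
    have hk := (hcard h00).1
    rw [he0] at hk
    rcases ds.iso_of_edge v0 a0 h00 with ⟨⟨f⟩, -⟩ | ⟨⟨f⟩, -⟩
    all_goals
      rw [Nat.card_congr f.toEquiv] at hk
      simp only [Nat.card_prod, Nat.card_perm, Nat.card_eq_fintype_card (α := Fin 4),
        Fintype.card_fin, Nat.factorial, Nat.card_zmod, Nat.card_congr Multiplicative.toAdd] at hk
      omega
  push Not at hall
  obtain ⟨u, hu⟩ := hall
  have dm : Mix G Γ := by
    refine { d with charP := hC, alt := fun {v a} h => ⟨fun hv ha => d.not_both h ⟨hv, ha⟩, fun ha => ?_⟩ }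
    by_contra hv
    obtain ⟨w, hw⟩ := H72.exists_adj u
    obtain ⟨g, ⟨rfl, rfl⟩ | ⟨rfl, rfl⟩⟩ := d.edge_trans h hw
    · exact hv ((d.Bv_smul_iff g).1 hu)
    · exact ha ((d.Bv_smul_iff g).1 hu)
  have := dm.card_le h00
  omega

end Cfsg.Agent.H73.GA
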