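import Cfsg.Agent.H73.GoldBasic

/-!
Amalgams of index (3,3) with one central and one noncentral end at each edge: centres, paths, arcs.
-/

set_option autoImplicit false
set_option linter.style.haveILetI false
set_option linter.unusedSectionVars false

namespace Cfsg.Agent.H73.GA

open Subgroup MulAction
open scoped Pointwise

variable {X : Type*} [Group X] {V : Type*} [MulAction X V]

/-- Characteristic two, and central vertices alternate with the others. -/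
structure Mix (X : Type*) [Group X] {V : Type*} [MulAction X V] (Γ : SimpleGraph V) : Prop
    extends Amal X Γ where
  charP : ∀ {v : V} {g : X}, g • v = v → (∀ q ∈ QQ X Γ v, g * q = q * g) → g ∈ QQ X Γ v
  alt : ∀ {v a : V}, Γ.Adj v a → (Bv X Γ v ↔ ¬ Bv X Γ a)

variable (X) in
/-- The critical distance. -/
noncomputable def bb (Γ : SimpleGraph V) : ℕ :=
  sInf {n | ∃ v w, Γ.dist v w = n ∧ ¬ ZZ X Γ v ≤ QQ X Γ w}

/-- A path without backtracking. -/
def IsArc (Γ : SimpleGraph V) (n : ℕ) (p : ℕ → V) : Prop :=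
  (∀ i < n, Γ.Adj (p i) (p (i + 1))) ∧ ∀ i, i + 2 ≤ n → p i ≠ p (i + 2)

variable (X) in
/-- A critical path. -/
def Crit (Γ : SimpleGraph V) (p : ℕ → V) : Prop :=
  (∀ i < bb X Γ, Γ.Adj (p i) (p (i + 1))) ∧ ¬ ZZ X Γ (p 0) ≤ QQ X Γ (p (bb X Γ))

variable (X) in
/-- All arcs of a length and a starting type are conjugate. -/
def ConjArcs (Γ : SimpleGraph V) (n : ℕ) (P : Prop) : Prop :=
  ∀ p q : ℕ → V, IsArc Γ n p → IsArc Γ n q → (Bv X Γ (p 0) ↔ P) → (Bv X Γ (q 0) ↔ P) →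
    ∃ g : X, ∀ i ≤ n, g • p i = q i

variable (X) in
/-- Some arc of a length and a starting type has a stabilizer moving a neighbour of its end. -/
def Wit (Γ : SimpleGraph V) (n : ℕ) (P : Prop) : Prop :=
  ∃ (w : ℕ → V) (h : X), IsArc Γ n w ∧ (Bv X Γ (w 0) ↔ P) ∧ (∀ i ≤ n, h • w i = w i) ∧
    h ∉ QQ X Γ (w n)

/-- Prefix a vertex. -/
def acons (x : V) (p : ℕ → V) : ℕ → V
  | 0 => x
  | i + 1 => p i

@[simp] theorem acons_zero (x : V) (p : ℕ → V) : acons x p 0 = x := rfl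

@[simp] theorem acons_succ (x : V) (p : ℕ → V) (i : ℕ) : acons x p (i + 1) = p i := rfl

section Arc

variable {Γ : SimpleGraph V} {n : ℕ} {p : ℕ → V}

theorem IsArc.adj (h : IsArc Γ n p) {i : ℕ} (hi : i < n) : Γ.Adj (p i) (p (i + 1)) := h.1 i hi

theorem IsArc.adj' (h : IsArc Γ n p) {i : ℕ} (hi : i + 1 ≤ n) : Γ.Adj (p (i + 1)) (p i) :=
  (h.1 i hi).symm

theorem IsArc.ne (h : IsArc Γ n p) {i j : ℕ} (hj : j = i + 2) (hi : j ≤ n) : p i ≠ p j := by
  subst hj; exact h.2 i hi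

theorem IsArc.sub (h : IsArc Γ n p) {m : ℕ} (k : ℕ) (hkm : k + m ≤ n) :
    IsArc Γ m fun i => p (k + i) :=
  ⟨fun i hi => by simpa [Nat.add_assoc] using h.1 (k + i) (by omega),
    fun i hi => by simpa [Nat.add_assoc] using h.2 (k + i) (by omega)⟩

theorem IsArc.take (h : IsArc Γ n p) {m : ℕ} (hm : m ≤ n) : IsArc Γ m p :=
  ⟨fun i hi => h.1 i (by omega), fun i hi => h.2 i (by omega)⟩

theorem IsArc.rev (h : IsArc Γ n p) : IsArc Γ n fun i => p (n - i) := by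
  refine ⟨fun i hi => ?_, fun i hi => ?_⟩
  · have := h.1 (n - (i + 1)) (by omega)
    rw [show n - (i + 1) + 1 = n - i by omega] at this
    exact this.symm
  · have := h.2 (n - (i + 2)) (by omega)
    rw [show n - (i + 2) + 2 = n - i by omega] at this
    exact this.symm

theorem IsArc.cons (h : IsArc Γ n p) {x : V} (hx : Γ.Adj x (p 0)) (hne : n = 0 ∨ x ≠ p 1) :
    IsArc Γ (n + 1) (acons x p) := by
  refine ⟨fun i hi => ?_, fun i hi => ?_⟩
  · rcases i with _ | i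
    · exact hx
    · exact h.1 i (by omega)
  · rcases i with _ | i
    · rcases hne with h0 | h0
      · omega
      · exact h0
    · exact h.2 i (by omega)

theorem IsArc.of_eq (h : IsArc Γ n p) {q : ℕ → V} (he : ∀ i ≤ n, q i = p i) : IsArc Γ n q :=
  ⟨fun i hi => by rw [he i (by omega), he (i + 1) hi]; exact h.1 i hi,
    fun i hi => by rw [he i (by omega), he (i + 2) hi]; exact h.2 i hi⟩

end Arc

namespace Mix

variable {Γ : SimpleGraph V} (d : Mix X Γ) {u v w a b c : V} {p : ℕ → V}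
include d

theorem EE_le_QQ (h : Γ.Adj v a) : EE X v a ≤ QQ X Γ v := fun x hx =>
  d.charP (mem_TT.1 (mem_EE.1 hx).1).1 fun q hq => ((mem_EE.1 hx).2.1 q (d.QQ_le_TT h hq)).symm

theorem ZZ_le_QQ (v : V) : ZZ X Γ v ≤ QQ X Γ v := iSup₂_le fun _ ha => d.EE_le_QQ ha

theorem QQ_comm_ZZ {x q : X} (hx : x ∈ ZZ X Γ v) (hq : q ∈ QQ X Γ v) : q * x = x * q := by
  have h : ZZ X Γ v ≤ Subgroup.centralizer (QQ X Γ v : Set X) := iSup₂_le fun a ha y hy =>
    mem_centralizer_iff.2 fun q hq => (mem_EE.1 hy).2.1 q (d.QQ_le_TT ha hq)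
  exact mem_centralizer_iff.1 (h hx) q hq

theorem ZZ_comm {x y : X} (hx : x ∈ ZZ X Γ v) (hy : y ∈ ZZ X Γ v) : x * y = y * x :=
  (d.QQ_comm_ZZ hx (d.ZZ_le_QQ v hy)).symm

theorem ZZ_sq {x : X} (hx : x ∈ ZZ X Γ v) : x * x = 1 := by
  let H : Subgroup X :=
    { carrier := {y | y ∈ ZZ X Γ v ∧ y * y = 1}
      one_mem' := ⟨one_mem _, one_mul 1⟩
      mul_mem' := by
        rintro x y ⟨hx, hx2⟩ ⟨hy, hy2⟩
        refine ⟨mul_mem hx hy, ?_⟩
        calc x * y * (x * y) = x * (y * x) * y := by group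
          _ = x * (x * y) * y := by rw [d.ZZ_comm hy hx]
          _ = (x * x) * (y * y) := by group
          _ = 1 := by rw [hx2, hy2, one_mul]
      inv_mem' := by
        rintro x ⟨hx, hx2⟩
        exact ⟨inv_mem hx, by rw [← mul_inv_rev, hx2, inv_one]⟩ }
  have h : ZZ X Γ v ≤ H := iSup₂_le fun a ha y hy =>
    ⟨le_iSup₂ (f := fun b _ => EE X v b) a ha hy, (mem_EE.1 hy).2.2⟩
  exact (h hx).2

theorem ZZ_inv {x : X} (hx : x ∈ ZZ X Γ v) : x⁻¹ = x := inv_eq_of_mul_eq_one_right (d.ZZ_sq hx)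

theorem nbr_not (h : Γ.Adj v a) (hv : Bv X Γ v) : ¬ Bv X Γ a := (d.alt h).1 hv

theorem nbr_B (h : Γ.Adj v a) (hv : ¬ Bv X Γ v) : Bv X Γ a := by
  by_contra hc
  exact hv ((d.alt h).2 hc)

theorem ZZ_B_eq (hv : Bv X Γ v) (h : Γ.Adj v a) : ZZ X Γ v = EE X v a := by
  refine le_antisymm (iSup₂_le fun b hb x hx => ?_) (le_iSup₂ (f := fun b _ => EE X v b) a h)
  obtain ⟨g, hg, hga⟩ := d.nbr_trans hb h
  have h' := d.conj_EE (g := g) hx
  rw [hg, hga, hv b hb g hg x hx, mul_inv_cancel_right] at h'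
  exact h'

theorem B_comm (hv : Bv X Γ v) {g x : X} (hg : g • v = v) (hx : x ∈ ZZ X Γ v) : g * x = x * g := by
  obtain ⟨a, ha⟩ := d.exists_adj v
  exact hv a ha g hg x (d.ZZ_B_eq hv ha ▸ hx)

theorem B_conj (hv : Bv X Γ v) {g x : X} (hg : g • v = v) (hx : x ∈ ZZ X Γ v) : g * x * g⁻¹ = x := by
  rw [d.B_comm hv hg hx, mul_inv_cancel_right]

theorem ZZ_B_le (hv : Bv X Γ v) (h : Γ.Adj v a) : ZZ X Γ v ≤ ZZ X Γ a := by
  rw [d.ZZ_B_eq hv h, EE_comm]
  exact le_iSup₂ (f := fun b _ => EE X a b) v h.symm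

theorem ZZ_A_le (ha : ¬ Bv X Γ a) {H : Subgroup X} (h : ∀ b, Γ.Adj a b → ZZ X Γ b ≤ H) :
    ZZ X Γ a ≤ H :=
  iSup₂_le fun b hb => by
    rw [EE_comm, ← d.ZZ_B_eq (d.nbr_B hb ha) hb.symm]
    exact h b hb

theorem ZZ_ne_bot (v : V) : ZZ X Γ v ≠ ⊥ := by
  obtain ⟨a, ha⟩ := d.exists_adj v
  intro h
  exact d.EE_ne_bot ha (le_bot_iff.1 (h ▸ le_iSup₂ (f := fun b _ => EE X v b) a ha))

theorem disjoint_ZZ (hv : ¬ Bv X Γ v) (ha : Γ.Adj v a) (hb : Γ.Adj v b) (hab : a ≠ b) {x : X}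
    (h1 : x ∈ ZZ X Γ a) (h2 : x ∈ ZZ X Γ b) : x = 1 := by
  rw [d.ZZ_B_eq (d.nbr_B ha hv) ha.symm, EE_comm] at h1
  rw [d.ZZ_B_eq (d.nbr_B hb hv) hb.symm, EE_comm] at h2
  refine d.zpowers_eq_one ha (mem_EE.1 h1).1 (fun g hg => ?_) (fun g hg => ?_)
  · have h' : g ∈ Subgroup.centralizer ({x} : Set X) := by
      refine d.stab_le_two ha hb hab ?_ ?_ (mem_stabilizer_iff.2 hg)
      all_goals intro t ht; rw [mem_centralizer_iff]; rintro _ rfl
      · exact ((mem_EE.1 h1).2.1 t ht).symm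
      · exact ((mem_EE.1 h2).2.1 t ht).symm
    exact (mem_centralizer_iff.1 h' x rfl).symm
  · refine d.B_comm (d.nbr_B ha hv) hg ?_
    rw [d.ZZ_B_eq (d.nbr_B ha hv) ha.symm, EE_comm]
    exact h1

theorem mem_ZZ_of_commute (hv : ¬ Bv X Γ v) (ha : Γ.Adj v a) {t z : X}
    (ht : t ∈ TT (X := X) v a) (htQ : t ∉ QQ X Γ v) (hz : z ∈ ZZ X Γ v) (hc : t * z = z * t) :
    z ∈ ZZ X Γ a := by
  rw [d.ZZ_B_eq (d.nbr_B ha hv) ha.symm, EE_comm]
  refine mem_EE.2 ⟨d.QQ_le_TT ha (d.ZZ_le_QQ v hz), fun g hg => ?_, d.ZZ_sq hz⟩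
  by_cases hgQ : g ∈ QQ X Γ v
  · exact d.QQ_comm_ZZ hz hgQ
  · have := d.QQ_comm_ZZ hz (d.inv_mul_mem_QQ ha ht htQ hg hgQ)
    calc g * z = t * ((t⁻¹ * g) * z) := by group
      _ = t * (z * (t⁻¹ * g)) := by rw [this]
      _ = (t * z) * (t⁻¹ * g) := by group
      _ = z * g := by rw [hc]; group

theorem mem_QQ_of_cent (hv : ¬ Bv X Γ v) {g : X} (hg : g • v = v)
    (hc : ∀ z ∈ ZZ X Γ v, g * z = z * g) : g ∈ QQ X Γ v := by
  refine mem_QQ.2 ⟨hg, fun a ha => ?_⟩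
  by_contra hga
  refine hv (d.Bv_of_one ha ?_)
  have h : stabilizer X v ≤ Subgroup.centralizer (EE X v a : Set X) := by
    refine d.stab_le ha (fun t ht => mem_centralizer_iff.2 fun x hx => ((mem_EE.1 hx).2.1 t ht).symm)
      hg hga (mem_centralizer_iff.2 fun x hx => ?_)
    exact (hc x (le_iSup₂ (f := fun b _ => EE X v b) a ha hx)).symm
  exact fun k hk x hx => (mem_centralizer_iff.1 (h (mem_stabilizer_iff.2 hk)) x hx).symm

theorem exists_QQ_not_mem (h : Γ.Adj v a) : ∃ q ∈ QQ X Γ v, q ∉ QQ X Γ a := by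
  by_contra hc
  push Not at hc
  haveI := d.finite_of_le (d.QQ_le_stab a)
  have e1 := d.card_T h
  have e2 := d.card_T h.symm
  rw [TT_comm] at e2
  have he : QQ X Γ v = QQ X Γ a := Subgroup.eq_of_le_of_card_ge hc (by omega)
  have hn : ∀ w : V, stabilizer X w ≤ normalizer (QQ X Γ w : Set X) := fun w =>
    Amal.mem_normalizer_of_conj_le fun g hg n hq => d.conj_QQ_fix (mem_stabilizer_iff.1 hg) hq
  have hb := d.faithful h _ (d.QQ_le_TT h) (hn v) (he ▸ hn a)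
  exact d.EE_ne_bot h (le_bot_iff.1 (hb ▸ d.EE_le_QQ h))

/-- `z ↦ z zᵗ` takes its values in the centre of the fixed neighbour. -/
theorem delta_mem (hv : ¬ Bv X Γ v) (ha : Γ.Adj v a) {t z : X} (ht : t ∈ TT (X := X) v a)
    (hz : z ∈ ZZ X Γ v) : z * (t * z * t⁻¹) ∈ ZZ X Γ a := by
  by_cases htQ : t ∈ QQ X Γ v
  · rw [d.QQ_comm_ZZ hz htQ, mul_inv_cancel_right, d.ZZ_sq hz]
    exact one_mem _
  have hz' : t * z * t⁻¹ ∈ ZZ X Γ v := by
    simpa [(mem_TT.1 ht).1] using d.conj_ZZ (g := t) hz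
  refine d.mem_ZZ_of_commute hv ha ht htQ (mul_mem hz hz') ?_
  have h2 : t * t * z = z * (t * t) := d.QQ_comm_ZZ hz (d.sq_mem_QQ ha ht)
  calc t * (z * (t * z * t⁻¹)) = t * z * t⁻¹ * (t * t * z) * t⁻¹ := by group
    _ = t * z * t⁻¹ * (z * (t * t)) * t⁻¹ := by rw [h2]
    _ = ((t * z * t⁻¹) * z) * t := by group
    _ = z * (t * z * t⁻¹) * t := by rw [d.ZZ_comm hz' hz]

/-- A subgroup normalized by `T` and centralized by a mover of the edge is trivial. -/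
theorem eq_bot_of_mover (hv : ¬ Bv X Γ v) (ha : Γ.Adj v a) {F : Subgroup X} (hF : F ≤ TT v a)
    (hn : ∀ t ∈ TT (X := X) v a, ∀ n ∈ F, t * n * t⁻¹ ∈ F) {g : X} (hg : g • v = v)
    (hga : g • a ≠ a) (hc : ∀ x ∈ F, g * x = x * g) : F = ⊥ := by
  by_contra hne
  haveI : Fact (Nat.Prime 2) := ⟨Nat.prime_two⟩
  haveI := d.finite_TT (v := v) (a := a)
  haveI := (d.two ha).isNilpotent
  haveI : (F.subgroupOf (TT v a)).Normal := ⟨fun x hx t => hn _ t.2 _ hx⟩
  have hne' : F.subgroupOf (TT v a) ≠ ⊥ := fun h => hne <|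
    (Subgroup.eq_bot_iff_forall _).2 fun x hx => by
      have h1 : (⟨x, hF hx⟩ : TT (X := X) v a) ∈ F.subgroupOf (TT v a) := mem_subgroupOf.2 hx
      rw [h, Subgroup.mem_bot] at h1
      exact congrArg Subtype.val h1
  obtain ⟨z, hz, hz1⟩ :=
    (Subgroup.bot_or_exists_ne_one _).resolve_left (H19.inf_center_ne_bot _ hne')
  obtain ⟨k, hk⟩ := IsPGroup.iff_orderOf.1 (d.two ha) z
  obtain ⟨j, rfl⟩ : ∃ j, k = j + 1 := ⟨k - 1, by
    rcases Nat.eq_zero_or_pos k with rfl | h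
    · rw [pow_zero, orderOf_eq_one_iff] at hk; exact absurd hk hz1
    · omega⟩
  set y := z ^ 2 ^ j with hy
  have hy2 : y * y = 1 := by
    rw [← pow_two, hy, ← pow_mul, ← pow_succ, ← hk, pow_orderOf_eq_one]
  have hy1 : y ≠ 1 := fun h => by
    have := orderOf_dvd_of_pow_eq_one h
    rw [hk] at this
    exact absurd ((Nat.pow_dvd_pow_iff_le_right (by norm_num)).1 this) (by omega)
  have hyF : y ∈ F.subgroupOf (TT v a) ⊓ Subgroup.center _ := pow_mem hz _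
  have hyE : (y : X) ∈ EE X v a := mem_EE.2 ⟨y.2,
    fun t ht => congrArg Subtype.val (Subgroup.mem_center_iff.1 hyF.2 ⟨t, ht⟩),
    congrArg Subtype.val hy2⟩
  refine hy1 (Subtype.ext (d.zpowers_eq_one ha y.2 (fun k hk => ?_) fun k hk => ?_))
  · have h : stabilizer X v ≤ Subgroup.centralizer ({(y : X)} : Set X) := by
      refine d.stab_le ha (fun t ht => ?_) hg hga ?_
      all_goals rw [mem_centralizer_iff]; rintro _ rfl
      · exact ((mem_EE.1 hyE).2.1 t ht).symm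
      · exact (hc _ hyF.1).symm
    exact (mem_centralizer_iff.1 (h (mem_stabilizer_iff.2 hk)) _ rfl).symm
  · refine d.B_comm (d.nbr_B ha hv) hk ?_
    rw [d.ZZ_B_eq (d.nbr_B ha hv) ha.symm, EE_comm]
    exact hyE

/-- Only the centre centralizes the kernel of a noncentral vertex. -/
theorem mem_ZZ_of_central_QQ (hv : ¬ Bv X Γ v) {x : X} (hx : x ∈ QQ X Γ v)
    (hc : ∀ q ∈ QQ X Γ v, q * x = x * q) (h2 : x * x = 1) : x ∈ ZZ X Γ v ∨
    ∀ a, Γ.Adj v a → ∀ t ∈ TT (X := X) v a, t ∉ QQ X Γ v →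
      x * (t * x * t⁻¹) ∈ ZZ X Γ a ∧ x * (t * x * t⁻¹) ≠ 1 := by
  refine Classical.or_iff_not_imp_left.2 fun hxZ a ha t ht htQ => ?_
  have htv := (mem_TT.1 ht).1
  have hx' : t * x * t⁻¹ ∈ QQ X Γ v := d.conj_QQ_fix htv hx
  have hc' : ∀ q ∈ QQ X Γ v, q * (t * x * t⁻¹) = t * x * t⁻¹ * q := by
    intro q hq
    have h := hc _ (d.conj_QQ_fix (g := t⁻¹) (inv_smul_eq_iff.2 htv.symm) hq)
    rw [inv_inv] at h
    calc q * (t * x * t⁻¹) = t * ((t⁻¹ * q * t) * x) * t⁻¹ := by group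
      _ = t * (x * (t⁻¹ * q * t)) * t⁻¹ := by rw [h]
      _ = t * x * t⁻¹ * q := by group
  set y := x * (t * x * t⁻¹) with hy
  have ht2 : t * t * x = x * (t * t) := hc _ (d.sq_mem_QQ ha ht)
  have hyt : t * y = y * t := by
    calc t * (x * (t * x * t⁻¹)) = t * x * t⁻¹ * (t * t * x) * t⁻¹ := by group
      _ = t * x * t⁻¹ * (x * (t * t)) * t⁻¹ := by rw [ht2]
      _ = (t * x * t⁻¹ * x) * t := by group
      _ = x * (t * x * t⁻¹) * t := by rw [hc' x hx]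
  refine ⟨?_, fun h1 => hxZ (d.ZZ_B_le (d.nbr_B ha hv) ha.symm ?_)⟩
  · rw [d.ZZ_B_eq (d.nbr_B ha hv) ha.symm, EE_comm]
    refine mem_EE.2 ⟨d.QQ_le_TT ha (mul_mem hx hx'), fun g hg => ?_, ?_⟩
    · by_cases hgQ : g ∈ QQ X Γ v
      · calc g * (x * (t * x * t⁻¹)) = (g * x) * (t * x * t⁻¹) := by group
          _ = x * (g * (t * x * t⁻¹)) := by rw [hc g hgQ]; group
          _ = x * (t * x * t⁻¹) * g := by rw [hc' g hgQ]; group
      · have hq := d.inv_mul_mem_QQ ha ht htQ hg hgQ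
        calc g * y = t * ((t⁻¹ * g) * x * (t * x * t⁻¹)) := by rw [hy]; group
          _ = t * (x * ((t⁻¹ * g) * (t * x * t⁻¹))) := by rw [hc _ hq]; group
          _ = (t * y) * (t⁻¹ * g) := by rw [hc' _ hq, hy]; group
          _ = y * g := by rw [hyt]; group
    · calc x * (t * x * t⁻¹) * (x * (t * x * t⁻¹))
          = x * ((t * x * t⁻¹) * x) * (t * x * t⁻¹) := by group
        _ = x * (x * (t * x * t⁻¹)) * (t * x * t⁻¹) := by rw [hc' x hx]
        _ = (x * x) * (t * (x * x) * t⁻¹) := by group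
        _ = 1 := by rw [h2]; group
  · rw [d.ZZ_B_eq (d.nbr_B ha hv) ha.symm, EE_comm]
    refine mem_EE.2 ⟨d.QQ_le_TT ha hx, fun g hg => ?_, h2⟩
    have hxt : t * x = x * t := by
      have e : t * x * t⁻¹ = x := by
        rw [eq_inv_of_mul_eq_one_right h1, inv_eq_of_mul_eq_one_right h2]
      calc t * x = (t * x * t⁻¹) * t := by group
        _ = x * t := by rw [e]
    by_cases hgQ : g ∈ QQ X Γ v
    · exact hc g hgQ
    · calc g * x = t * ((t⁻¹ * g) * x) := by group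
        _ = (t * x) * (t⁻¹ * g) := by rw [hc _ (d.inv_mul_mem_QQ ha ht htQ hg hgQ)]; group
        _ = x * g := by rw [hxt]; group

/-! ### Distances -/

theorem dist_adj_le (h : Γ.Adj v a) : Γ.dist v w ≤ Γ.dist a w + 1 := by
  have h1 := d.connected.dist_triangle (u := v) (v := a) (w := w)
  rw [SimpleGraph.dist_eq_one_iff_adj.2 h] at h1
  omega

theorem dist_path {n : ℕ} {p : ℕ → V} (hp : ∀ i < n, Γ.Adj (p i) (p (i + 1))) {i j : ℕ}
    (hij : i ≤ j) (hj : j ≤ n) : Γ.dist (p i) (p j) ≤ j - i := by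
  induction j, hij using Nat.le_induction with
  | base => simp
  | succ j hij ih =>
    have h1 := d.connected.dist_triangle (u := p i) (v := p j) (w := p (j + 1))
    rw [SimpleGraph.dist_eq_one_iff_adj.2 (hp j (by omega))] at h1
    have := ih (by omega)
    omega

theorem ZZ_le_QQ_of_lt (h : Γ.dist v w < bb X Γ) : ZZ X Γ v ≤ QQ X Γ w := by
  by_contra hc
  exact Nat.notMem_of_lt_sInf h ⟨v, w, rfl, hc⟩

theorem exists_crit : ∃ p, Crit X Γ p := by
  have hne : {n | ∃ v w, Γ.dist v w = n ∧ ¬ ZZ X Γ v ≤ QQ X Γ w}.Nonempty := by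
    by_contra hemp
    obtain ⟨v⟩ := d.connected.nonempty
    refine d.ZZ_ne_bot v ((Subgroup.eq_bot_iff_forall _).2 fun z hz => d.eq_one_of_fix_all fun u => ?_)
    by_contra hu
    exact hemp ⟨_, v, u, rfl, fun hle => hu (mem_QQ.1 (hle hz)).1⟩
  obtain ⟨v, w, hd, hn⟩ := Nat.sInf_mem hne
  obtain ⟨W, hW⟩ := d.connected.exists_walk_length_eq_dist v w
  have hlen : W.length = bb X Γ := hW.trans hd
  refine ⟨W.getVert, fun i hi => W.adj_getVert_succ (hlen.symm ▸ hi), ?_⟩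
  rw [W.getVert_zero, ← hlen, W.getVert_length]
  exact hn

theorem bb_pos : 0 < bb X Γ := by
  obtain ⟨p, hp⟩ := d.exists_crit
  rcases Nat.eq_zero_or_pos (bb X Γ) with h0 | h0
  · have := hp.2
    rw [h0] at this
    exact absurd (d.ZZ_le_QQ _) this
  · exact h0

theorem ZZ_fix (h : Γ.dist v w ≤ bb X Γ) {x : X} (hx : x ∈ ZZ X Γ v) : x • w = w := by
  rcases Nat.eq_zero_or_pos (Γ.dist v w) with h0 | h0
  · rw [d.connected.dist_eq_zero_iff] at h0
    subst h0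
    exact (mem_QQ.1 (d.ZZ_le_QQ v hx)).1
  obtain ⟨W, hW⟩ := d.connected.exists_walk_length_eq_dist v w
  have hadj := W.adj_getVert_succ (show W.length - 1 < W.length by omega)
  rw [show W.length - 1 + 1 = W.length by omega, W.getVert_length] at hadj
  have hd : Γ.dist v (W.getVert (W.length - 1)) ≤ W.length - 1 := by
    have := d.dist_path (p := W.getVert) (fun i hi => W.adj_getVert_succ hi) (Nat.zero_le (W.length - 1))
      (Nat.sub_le _ _)
    simpa using this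
  exact (mem_QQ.1 (d.ZZ_le_QQ_of_lt (by omega) hx)).2 w hadj

theorem ZZ_commute (h : Γ.dist v w < bb X Γ) {x y : X} (hx : x ∈ ZZ X Γ v) (hy : y ∈ ZZ X Γ w) :
    x * y = y * x :=
  d.QQ_comm_ZZ hy (d.ZZ_le_QQ_of_lt h hx)

theorem VV_le_QQ (h : Γ.dist v w + 1 < bb X Γ) : VV X Γ v ≤ QQ X Γ w :=
  iSup₂_le fun a ha => d.ZZ_le_QQ_of_lt (by
    have := d.dist_adj_le (w := w) (SimpleGraph.Adj.symm (show Γ.Adj v a from ha))
    omega)

theorem VV_fix (h : Γ.dist v w + 1 ≤ bb X Γ) {x : X} (hx : x ∈ VV X Γ v) : x • w = w := by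
  have h' : VV X Γ v ≤ stabilizer X w := iSup₂_le fun a ha y hy => mem_stabilizer_iff.2 <| by
    refine d.ZZ_fix ?_ hy
    have := d.dist_adj_le (w := w) (SimpleGraph.Adj.symm (show Γ.Adj v a from ha))
    omega
  exact mem_stabilizer_iff.1 (h' hx)

theorem VV_commute (h : Γ.dist v w + 1 < bb X Γ) {x y : X} (hx : x ∈ VV X Γ v) (hy : y ∈ ZZ X Γ w) :
    x * y = y * x :=
  d.QQ_comm_ZZ hy (d.VV_le_QQ h hx)

theorem ZZ_le_VV (h : Γ.Adj v a) : ZZ X Γ a ≤ VV X Γ v := le_iSup₂ (f := fun b _ => ZZ X Γ b) a h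

theorem VV_le_WW (h : Γ.Adj v a) : VV X Γ a ≤ WW X Γ v := le_iSup₂ (f := fun b _ => VV X Γ b) a h

/-! ### Arcs -/

theorem crit_isArc (hp : Crit X Γ p) : IsArc Γ (bb X Γ) p := by
  refine ⟨hp.1, fun i hi he => hp.2 (d.ZZ_le_QQ_of_lt ?_)⟩
  have h1 := d.dist_path hp.1 (Nat.zero_le i) (by omega)
  have h2 := d.dist_path hp.1 (i := i + 2) (j := bb X Γ) (by omega) le_rfl
  rw [← he] at h2
  have h3 := d.connected.dist_triangle (u := p 0) (v := p i) (w := p (bb X Γ))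
  omega

theorem not_Bv_of_not_le (h : Γ.dist v w ≤ bb X Γ) (hn : ¬ ZZ X Γ v ≤ QQ X Γ w) : ¬ Bv X Γ v := by
  intro hv
  have heq : Γ.dist v w = bb X Γ :=
    le_antisymm h (le_of_not_gt fun hlt => hn (d.ZZ_le_QQ_of_lt hlt))
  have hpos := d.bb_pos
  obtain ⟨W, hW⟩ := d.connected.exists_walk_length_eq_dist v w
  have hadj := W.adj_getVert_succ (show 0 < W.length by omega)
  rw [W.getVert_zero] at hadj
  refine hn ((d.ZZ_B_le hv hadj).trans (d.ZZ_le_QQ_of_lt ?_))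
  have := d.dist_path (p := W.getVert) (fun i hi => W.adj_getVert_succ hi)
    (show 1 ≤ W.length by omega) le_rfl
  rw [W.getVert_length] at this
  simp only [zero_add] at *
  omega

theorem crit_start (hp : Crit X Γ p) : ¬ Bv X Γ (p 0) :=
  d.not_Bv_of_not_le ((d.dist_path hp.1 (Nat.zero_le _) le_rfl).trans (by omega)) hp.2

theorem arc_type {n : ℕ} (hp : IsArc Γ n p) : ∀ {i : ℕ}, i ≤ n →
    (Bv X Γ (p i) ↔ (Bv X Γ (p 0) ↔ Even i))
  | 0, _ => by simp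
  | i + 1, hi => by
    have h1 := arc_type hp (i := i) (by omega)
    have h2 := d.alt (hp.1 i (by omega))
    rw [Nat.even_add_one]
    tauto

theorem arc_typeA {n : ℕ} (hp : IsArc Γ n p) (h0 : ¬ Bv X Γ (p 0)) {i : ℕ} (hi : i ≤ n) :
    Bv X Γ (p i) ↔ Odd i := by
  rw [d.arc_type hp hi, ← Nat.not_even_iff_odd]
  tauto

theorem crit_type (hp : Crit X Γ p) {i : ℕ} (hi : i ≤ bb X Γ) : Bv X Γ (p i) ↔ Odd i :=
  d.arc_typeA (d.crit_isArc hp) (d.crit_start hp) hi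

theorem exists_vertex (P : Prop) : ∃ v : V, Bv X Γ v ↔ P := by
  obtain ⟨v⟩ := d.connected.nonempty
  obtain ⟨a, ha⟩ := d.exists_adj v
  have := d.alt ha
  by_cases hP : P <;> by_cases hv : Bv X Γ v
  · exact ⟨v, iff_of_true hv hP⟩
  · exact ⟨a, iff_of_true (by tauto) hP⟩
  · exact ⟨a, iff_of_false (by tauto) hP⟩
  · exact ⟨v, iff_of_false hv hP⟩

theorem conjArcs_zero (P : Prop) : ConjArcs X Γ 0 P := by
  intro p q _ _ hp hq
  obtain ⟨a, ha⟩ := d.exists_adj (p 0)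
  obtain ⟨c, hc⟩ := d.exists_adj (q 0)
  obtain ⟨g, ⟨h1, -⟩ | ⟨h1, -⟩⟩ := d.edge_trans ha hc
  · exact ⟨g, fun i hi => by rw [Nat.le_zero.1 hi]; exact h1⟩
  · have e := d.Bv_smul_iff g (v := p 0)
    rw [h1] at e
    have := d.alt hc
    tauto

theorem conjArcs_one (P : Prop) : ConjArcs X Γ 1 P := by
  intro p q hp hq h1 h2
  obtain ⟨g, hg⟩ := d.conjArcs_zero P p q (hp.take (by omega)) (hq.take (by omega)) h1 h2
  have hadj := d.smul_adj g (hp.1 0 one_pos)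
  rw [hg 0 le_rfl] at hadj
  obtain ⟨k, hk, hk1⟩ := d.nbr_trans hadj (hq.1 0 one_pos)
  refine ⟨k * g, fun i hi => ?_⟩
  rcases Nat.le_one_iff_eq_zero_or_eq_one.1 hi with rfl | rfl
  · rw [mul_smul, hg 0 le_rfl, hk]
  · rw [mul_smul]; exact hk1

theorem conjArcs_step {n : ℕ} (hn : 1 ≤ n) {P : Prop} (hc : ConjArcs X Γ n P) (hw : Wit X Γ n P) :
    ConjArcs X Γ (n + 1) P := by
  intro p q hp hq hp0 hq0
  obtain ⟨g, hg⟩ := hc p q (hp.take (by omega)) (hq.take (by omega)) hp0 hq0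
  by_cases hlast : g • p (n + 1) = q (n + 1)
  · refine ⟨g, fun i hi => ?_⟩
    rcases Nat.lt_or_eq_of_le hi with h | rfl
    · exact hg i (by omega)
    · exact hlast
  obtain ⟨w, h, hwa, hw0, hfix, hnQ⟩ := hw
  obtain ⟨k, hk⟩ := hc w q hwa (hq.take (by omega)) hw0 hq0
  have hfix' : ∀ i ≤ n, (k * h * k⁻¹) • q i = q i := fun i hi => by
    rw [← hk i hi, mul_smul, inv_smul_smul, mul_smul, hfix i hi]
  have hnQ' : k * h * k⁻¹ ∉ QQ X Γ (q n) := fun hmem => hnQ <| by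
    have := d.conj_QQ (g := k⁻¹) hmem
    rw [← hk n le_rfl, inv_smul_smul] at this
    simpa [mul_assoc] using this
  have hprev : Γ.Adj (q n) (q (n - 1)) := by
    have := hq.adj' (i := n - 1) (by omega)
    rwa [show n - 1 + 1 = n by omega] at this
  have hadj := d.smul_adj g (hp.1 n (by omega))
  rw [hg n le_rfl] at hadj
  have hne : q (n - 1) ≠ g • p (n + 1) := by
    rw [← hg (n - 1) (by omega)]
    exact fun h => hp.ne (show n + 1 = n - 1 + 2 by omega) le_rfl (MulAction.injective g h)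
  refine ⟨k * h * k⁻¹ * g, fun i hi => ?_⟩
  rcases Nat.lt_or_eq_of_le hi with h | rfl
  · rw [mul_smul, hg i (by omega), hfix' i (by omega)]
  · rw [mul_smul]
    exact d.swap hprev hadj (hq.1 n (by omega)) hne
      (hq.ne (show n + 1 = n - 1 + 2 by omega) le_rfl) hlast
      (mem_TT.2 ⟨hfix' n le_rfl, hfix' (n - 1) (by omega)⟩) hnQ'

theorem wit_of_path {M n : ℕ} (hp : IsArc Γ M p) {h : X} (hfix : ∀ i ≤ M, h • p i = p i)
    (hnQ : h ∉ QQ X Γ (p M)) (hn : n ≤ M) {P : Prop} (hP : Bv X Γ (p (M - n)) ↔ P) :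
    Wit X Γ n P :=
  ⟨fun i => p (M - n + i), h, hp.sub _ (by omega), hP, fun i hi => hfix _ (by omega), by
    show h ∉ QQ X Γ (p (M - n + n))
    rwa [show M - n + n = M by omega]⟩

theorem wit_one (P : Prop) : Wit X Γ 1 P := by
  obtain ⟨v, hv⟩ := d.exists_vertex P
  obtain ⟨a, ha⟩ := d.exists_adj v
  obtain ⟨t, ht, htQ⟩ := d.exists_not_mem_QQ ha.symm
  refine ⟨acons v fun _ => a, t, ⟨fun i hi => ?_, fun i hi => by omega⟩, hv, fun i hi => ?_, htQ⟩
  · rw [Nat.lt_one_iff.1 hi]; exact ha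
  · rcases Nat.le_one_iff_eq_zero_or_eq_one.1 hi with rfl | rfl
    · exact (mem_TT.1 ht).2
    · exact (mem_TT.1 ht).1

theorem wit_two (P : Prop) : Wit X Γ 2 P := by
  obtain ⟨v, hv⟩ := d.exists_vertex P
  obtain ⟨a, ha⟩ := d.exists_adj v
  obtain ⟨c, hc, hcv⟩ := d.exists_other ha.symm
  obtain ⟨h, hh, hnQ⟩ := d.exists_QQ_not_mem hc
  refine ⟨acons v (acons a fun _ => c), h, ⟨fun i hi => ?_, fun i hi => ?_⟩, hv, fun i hi => ?_, hnQ⟩
  · interval_cases i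
    · exact ha
    · exact hc
  · rw [show i = 0 by omega]; exact hcv.symm
  · interval_cases i
    · exact (mem_QQ.1 hh).2 v ha.symm
    · exact (mem_QQ.1 hh).1
    · exact (mem_QQ.1 hh).2 c hc

theorem conjArcs_le_three {n : ℕ} (hn : n ≤ 3) (P : Prop) : ConjArcs X Γ n P := by
  interval_cases n
  · exact d.conjArcs_zero P
  · exact d.conjArcs_one P
  · exact d.conjArcs_step le_rfl (d.conjArcs_one P) (d.wit_one P)
  · exact d.conjArcs_step (by omega) (d.conjArcs_step le_rfl (d.conjArcs_one P) (d.wit_one P))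
      (d.wit_two P)

/-- Two long witnesses, one for each type of end, give transitivity on arcs. -/
theorem conjArcs_all {M : ℕ} {p q : ℕ → V} {h k : X} (hp : IsArc Γ M p) (hpM : Bv X Γ (p M))
    (hph : ∀ i ≤ M, h • p i = p i) (hpQ : h ∉ QQ X Γ (p M)) (hq : IsArc Γ M q)
    (hqM : ¬ Bv X Γ (q M)) (hqk : ∀ i ≤ M, k • q i = q i) (hqQ : k ∉ QQ X Γ (q M)) :
    ∀ n ≤ M + 1, ∀ P : Prop, ConjArcs X Γ n P := by
  intro n
  induction n with
  | zero => exact fun _ P => d.conjArcs_zero P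
  | succ n ih =>
    intro hn P
    rcases Nat.eq_zero_or_pos n with rfl | hn1
    · exact d.conjArcs_one P
    refine d.conjArcs_step hn1 (ih (by omega) P) ?_
    have key : ∀ w : ℕ → V, IsArc Γ M w →
        (Bv X Γ (w (M - n)) ↔ (Bv X Γ (w M) ↔ Even n)) := by
      intro w hw
      have h1 := d.arc_type hw (i := M - n) (by omega)
      have h2 := d.arc_type hw (i := M) le_rfl
      have h3 : Even M ↔ (Even (M - n) ↔ Even n) := by
        conv_lhs => rw [show M = (M - n) + n by omega]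
        exact Nat.even_add
      tauto
    by_cases hP : P ↔ Even n
    · exact d.wit_of_path hp hph hpQ (by omega) (by rw [key p hp]; tauto)
    · exact d.wit_of_path hq hqk hqQ (by omega) (by rw [key q hq]; tauto)

theorem crit_of_arc (hp : Crit X Γ p) (hc : ConjArcs X Γ (bb X Γ) False) {q : ℕ → V}
    (hq : IsArc Γ (bb X Γ) q) (h0 : ¬ Bv X Γ (q 0)) : Crit X Γ q := by
  obtain ⟨g, hg⟩ := hc p q (d.crit_isArc hp) hq (by simpa using d.crit_start hp) (by simpa using h0)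
  refine ⟨hq.1, fun hle => hp.2 fun z hz => ?_⟩
  have h1 := d.conj_ZZ (g := g) hz
  rw [hg 0 (Nat.zero_le _)] at h1
  have h2 := d.conj_QQ (g := g⁻¹) (hle h1)
  rw [← hg _ le_rfl, inv_smul_smul] at h2
  simpa [mul_assoc] using h2

end Mix

end Cfsg.Agent.H73.GA
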