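import Cfsg.Agent.H73.GoldEven

/-!
Amalgams of index (3,3): odd critical distance.
-/

set_option autoImplicit false
set_option linter.style.haveILetI false
set_option linter.unusedSectionVars false

namespace Cfsg.Agent.H73.GA

open Subgroup MulAction
open scoped Pointwise

variable {X : Type*} [Group X] {V : Type*} [MulAction X V]

variable (X) in
/-- A path one longer than critical, critical from both ends. -/
structure Line (Γ : SimpleGraph V) (p : ℕ → V) : Prop where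
  arc : IsArc Γ (bb X Γ + 1) p
  start : ¬ Bv X Γ (p 0)
  first : ¬ ZZ X Γ (p 0) ≤ QQ X Γ (p (bb X Γ))
  last : ¬ ZZ X Γ (p (bb X Γ + 1)) ≤ QQ X Γ (p 1)

theorem Line.crit {Γ : SimpleGraph V} {p : ℕ → V} (L : Line X Γ p) : Crit X Γ p :=
  ⟨fun i hi => L.arc.1 i (by omega), L.first⟩

theorem card_le_two_mul {H K I : Subgroup X} [Finite K] (hH : H ≤ K) (hI : I ≤ K)
    (h : Nat.card K ≤ 2 * Nat.card I) : Nat.card H ≤ 2 * Nat.card (H ⊓ I : Subgroup X) := by
  have hmul : ∀ {A B : Subgroup X}, A ≤ B → Nat.card A * A.relIndex B = Nat.card B := fun hAB => by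
    have := Subgroup.relIndex_mul_relIndex (⊥ : Subgroup X) _ _ bot_le hAB
    rwa [relIndex_bot_left, relIndex_bot_left] at this
  haveI : Finite I := Finite.of_injective _ (Subgroup.inclusion_injective hI)
  have h1 := hmul hI
  have hpos := Nat.card_pos (α := I)
  have h2 : I.relIndex K ≤ 2 := Nat.le_of_mul_le_mul_left (by rw [h1, mul_comm]; exact h) hpos
  have hne : I.relIndex K ≠ 0 := fun h0 => by
    rw [h0, mul_zero] at h1
    exact Nat.card_pos.ne h1
  have h3 : I.relIndex H ≤ I.relIndex K := Subgroup.relIndex_le_of_le_right hH hne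
  have h4 := hmul (inf_le_left : H ⊓ I ≤ H)
  rw [inf_relIndex_left] at h4
  rw [← h4, mul_comm 2]
  exact Nat.mul_le_mul_left _ (h3.trans h2)

namespace Mix

variable {Γ : SimpleGraph V} (d : Mix X Γ) {u v w a b c : V} {p : ℕ → V}
include d

theorem bb_ne_one : bb X Γ ≠ 1 := by
  intro h1
  obtain ⟨p, hp⟩ := d.exists_crit
  have h0 := d.crit_start hp
  have h01 := hp.1 0 (by omega)
  have hB := d.nbr_B h01 h0
  obtain ⟨z, hz, hzQ⟩ := SetLike.not_le_iff_exists.1 hp.2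
  rw [h1] at hzQ
  obtain ⟨g, hg, hgα⟩ := d.exists_mover h01.symm
  set α := p 0
  set β := p 1
  set γ := g • α
  have hγ : Γ.Adj β γ := d.adj_fix hg h01.symm
  have hz' : g * z * g⁻¹ ∈ ZZ X Γ γ := d.conj_ZZ hz
  set z' := g * z * g⁻¹
  obtain ⟨δ, hδ, hδα, hδγ, -⟩ := d.exists_third h01.symm hγ hgα.symm
  have hfix : ∀ {ν x}, Γ.Adj β ν → x ∈ ZZ X Γ ν → x ∈ TT (X := X) β ν := fun hν hx =>
    d.QQ_le_TT' hν.symm (d.ZZ_le_QQ _ hx)
  have hz'Q : z' ∉ QQ X Γ β := fun hm => hzQ <| by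
    have := d.conj_QQ (g := g⁻¹) hm
    rw [inv_smul_eq_iff.2 hg.symm] at this
    simpa [z', mul_assoc] using this
  have e1 : z' • α = δ := d.swap hγ h01.symm hδ hgα hδγ.symm hδα.symm (hfix hγ hz') hz'Q
  have e2 : z • δ = γ := d.swap h01.symm hδ hγ hδα.symm hgα.symm hδγ (hfix h01.symm hz) hzQ
  have e3 : z' • γ = γ := (mem_TT.1 (hfix hγ hz')).2
  have e4 : z • γ = δ := d.swap h01.symm hγ hδ hgα.symm hδα.symm hδγ.symm (hfix h01.symm hz) hzQ
  set y := z * z'
  have hyβ : y • β = β := by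
    rw [mul_smul, (mem_TT.1 (hfix hγ hz')).1, (mem_TT.1 (hfix h01.symm hz)).1]
  have hy2 : (y * y) • α = δ := by
    simp only [y, mul_smul, e1, e2, e3, e4]
  have hcomm : ∀ {ν x}, Γ.Adj β ν → x ∈ ZZ X Γ ν → ∀ q ∈ QQ X Γ β,
      ∃ r ∈ ZZ X Γ β, x * q * x⁻¹ = r * q := by
    intro ν x hν hx q hq
    refine ⟨x * (q * x * q⁻¹), d.delta_mem (d.nbr_not hν hB) hν.symm (d.QQ_le_TT' hν hq) hx, ?_⟩
    rw [d.ZZ_inv hx]
    group
  have hyq : ∀ q ∈ QQ X Γ β, ∃ r ∈ ZZ X Γ β, y * q * y⁻¹ = r * q := by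
    intro q hq
    obtain ⟨r', hr', e'⟩ := hcomm hγ hz' q hq
    obtain ⟨r, hr, e⟩ := hcomm h01.symm hz q hq
    refine ⟨r' * r, mul_mem hr' hr, ?_⟩
    have hc := d.B_comm hB (mem_TT.1 (hfix h01.symm hz)).1 hr'
    calc y * q * y⁻¹ = z * (z' * q * z'⁻¹) * z⁻¹ := by simp only [y]; group
      _ = (z * r') * q * z⁻¹ := by rw [e']; group
      _ = r' * (z * q * z⁻¹) := by rw [hc]; group
      _ = r' * r * q := by rw [e]; group
  refine (d.moves hγ h01.symm hgα (hfix hγ hz') hz'Q) ?_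
  have hcent : y * y ∈ QQ X Γ β := by
    refine d.charP (by rw [mul_smul, hyβ, hyβ]) fun q hq => ?_
    obtain ⟨r, hr, e⟩ := hyq q hq
    have hc := d.B_comm hB hyβ hr
    have h2 : y * y * q * (y * y)⁻¹ = q := by
      calc y * y * q * (y * y)⁻¹ = y * (y * q * y⁻¹) * y⁻¹ := by group
        _ = (y * r) * q * y⁻¹ := by rw [e]; group
        _ = r * (y * q * y⁻¹) := by rw [hc]; group
        _ = (r * r) * q := by rw [e]; group
        _ = q := by rw [d.ZZ_sq hr, one_mul]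
    calc y * y * q = (y * y * q * (y * y)⁻¹) * (y * y) := by group
      _ = q * (y * y) := by rw [h2]
  exact absurd ((mem_QQ.1 hcent).2 α h01.symm) (hy2.trans_ne hδα)

/-- Centres of two neighbours of a central vertex differ. -/
theorem ZZ_inj (hv : Bv X Γ v) (ha : Γ.Adj v a) (hb : Γ.Adj v b) (hab : a ≠ b) :
    ZZ X Γ a ≠ ZZ X Γ b := by
  intro he
  have h1 : TT v a ≤ normalizer (ZZ X Γ a : Set X) := inf_le_right.trans (d.stab_le_normalizer_ZZ a)
  have h2 : TT v b ≤ normalizer (ZZ X Γ a : Set X) :=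
    he ▸ inf_le_right.trans (d.stab_le_normalizer_ZZ b)
  exact d.ZZ_ne_bot a (d.faithful ha _ ((d.ZZ_le_QQ a).trans (d.QQ_le_TT' ha.symm))
    (d.stab_le_two ha hb hab h1 h2) (d.stab_le_normalizer_ZZ a))

theorem crit_fix (hp : Crit X Γ p) {z : X} (hz : z ∈ ZZ X Γ (p 0)) {i : ℕ} (hi : i ≤ bb X Γ) :
    z • p i = p i :=
  d.ZZ_fix ((d.dist_path hp.1 (Nat.zero_le i) hi).trans (by omega)) hz

theorem exists_line_ext (hp : Crit X Γ p) (hodd : Odd (bb X Γ)) :
    ∃ ν, Γ.Adj (p (bb X Γ)) ν ∧ ν ≠ p (bb X Γ - 1) ∧ ¬ ZZ X Γ ν ≤ QQ X Γ (p 1) := by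
  by_contra hcon
  push Not at hcon
  set n := bb X Γ with hn
  have hb1 := d.bb_ne_one
  have hb0 := d.bb_pos
  have h0 := d.crit_start hp
  have hA := d.crit_isArc hp
  have hB : Bv X Γ (p n) := (d.crit_type hp le_rfl).2 hodd
  have hlast := d.adj_last hp
  have hall : ∀ ν, Γ.Adj (p n) ν → ZZ X Γ ν ≤ QQ X Γ (p 1) := by
    intro ν hν
    by_cases h : ν = p (n - 1)
    · subst h
      exact d.ZZ_le_QQ_of_lt (by
        rw [SimpleGraph.dist_comm]
        exact lt_of_le_of_lt (d.dist_path hp.1 (show 1 ≤ n - 1 by omega) (by omega)) (by omega))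
    · exact hcon ν hν h
  obtain ⟨z, hz, hzQ⟩ := SetLike.not_le_iff_exists.1 hp.2
  obtain ⟨ν, hν, t, ht, htQ⟩ : ∃ ν, Γ.Adj (p n) ν ∧ ∃ t ∈ ZZ X Γ ν, t ∉ QQ X Γ (p 0) := by
    by_contra hc
    push Not at hc
    refine hzQ (mem_QQ.2 ⟨d.crit_fix hp hz le_rfl, fun ν hν => ?_⟩)
    by_contra hne
    refine d.ZZ_inj hB (d.adj_fix (d.crit_fix hp hz le_rfl) hν) hν hne (le_antisymm ?_ ?_)
    · rw [← d.map_ZZ z ν]
      rintro _ ⟨y, hy, rfl⟩
      show z * y * z⁻¹ ∈ _
      rwa [← d.QQ_comm_ZZ hz (hc ν hν _ hy), mul_inv_cancel_right]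
    · intro y hy
      have h' := d.conj_ZZ (g := z) hy
      rwa [← d.QQ_comm_ZZ hz (hc ν hν _ hy), mul_inv_cancel_right] at h'
  have hd : ∀ i ≤ n, Γ.dist ν (p i) ≤ n - i + 1 := fun i hi => by
    have h1 := d.dist_adj_le (w := p i) hν.symm
    have h2 := d.dist_path hp.1 hi (le_refl (bb X Γ))
    rw [SimpleGraph.dist_comm] at h2
    omega
  have htfix : ∀ i ≤ n, t • p (n - i) = p (n - i) := by
    intro i hi
    rcases Nat.eq_zero_or_pos (n - i) with h | h
    · rw [h]; exact (mem_QQ.1 (hall ν hν ht)).2 _ (hp.1 0 hb0).symm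
    · exact d.ZZ_fix ((hd _ (by omega)).trans (by omega)) ht
  have hconj := d.conjArcs_all hA hB (fun i hi => d.crit_fix hp hz hi) hzQ hA.rev
    (show ¬ Bv X Γ (p (n - n)) by rwa [Nat.sub_self]) htfix
    (show t ∉ QQ X Γ (p (n - n)) by rwa [Nat.sub_self]) n (by omega) False
  obtain ⟨μ, hμ, hμne⟩ := d.exists_other hlast
  have harc : IsArc Γ n (acons μ fun i => p (n - i)) :=
    (hA.rev.cons (x := μ) (by simpa using hμ.symm) (Or.inr (by simpa using hμne))).take (by omega)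
  have hq := (d.crit_of_arc hp hconj harc (d.nbr_not hμ hB)).2
  have e : acons μ (fun i => p (n - i)) n = p 1 := by
    obtain ⟨k, hk⟩ : ∃ k, n = k + 1 := ⟨n - 1, by omega⟩
    rw [hk, acons_succ]
    congr 1
    omega
  rw [← hn, e] at hq
  exact hq (hcon μ hμ hμne)

theorem line_of_crit (hp : Crit X Γ p) (hodd : Odd (bb X Γ)) :
    ∃ ν, Line X Γ (Function.update p (bb X Γ + 1) ν) := by
  obtain ⟨ν, hν, hne, hnle⟩ := d.exists_line_ext hp hodd
  set n := bb X Γ with hn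
  have hb := d.bb_pos
  have e : ∀ i ≤ n, Function.update p (n + 1) ν i = p i := fun i hi =>
    Function.update_of_ne (by omega) _ _
  refine ⟨ν, ⟨fun i hi => ?_, fun i hi => ?_⟩, ?_, ?_, ?_⟩
  · rcases Nat.lt_or_eq_of_le (Nat.lt_succ_iff.1 hi) with h | rfl
    · rw [e i h.le, e (i + 1) h]; exact hp.1 i h
    · rw [e _ le_rfl, Function.update_self]; exact hν
  · rcases Nat.lt_or_eq_of_le hi with h | h
    · rw [e i (by omega), e (i + 2) (by omega)]
      exact (d.crit_isArc hp).2 i (by omega)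
    · rw [e i (by omega), h, Function.update_self, show i = n - 1 by omega]
      exact hne.symm
  · rw [e 0 (by omega)]; exact d.crit_start hp
  · rw [← hn, e 0 (by omega), e n le_rfl]; exact hp.2
  · rw [← hn, Function.update_self, e 1 (by omega)]; exact hnle

theorem line_rev (L : Line X Γ p) (hodd : Odd (bb X Γ)) :
    Line X Γ fun i => p (bb X Γ + 1 - i) := by
  refine ⟨L.arc.rev, ?_, ?_, ?_⟩
  · simp only [Nat.sub_zero]
    rw [d.arc_typeA L.arc L.start le_rfl, Nat.not_odd_iff_even]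
    exact hodd.add_one
  · simp only [Nat.sub_zero, show bb X Γ + 1 - bb X Γ = 1 by omega]
    exact L.last
  · simp only [Nat.sub_self, show bb X Γ + 1 - 1 = bb X Γ by omega]
    exact L.first

theorem line_fix (L : Line X Γ p) {t : X} (ht : t ∈ ZZ X Γ (p (bb X Γ + 1))) {i : ℕ} (hi : 1 ≤ i)
    (hi' : i ≤ bb X Γ + 1) : t • p i = p i :=
  d.ZZ_fix (by
    rw [SimpleGraph.dist_comm]
    exact (d.dist_path L.arc.1 hi' le_rfl).trans (by omega)) ht

theorem card_inter_bound (L : Line X Γ p) (hodd : Odd (bb X Γ)) (h3 : 3 ≤ bb X Γ)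
    (hcase : ∀ x ∈ ZZ X Γ (p (bb X Γ + 1)), x ∈ QQ X Γ (p 1) → x ∈ QQ X Γ (p 0)) :
    Two X Γ := by
  set n := bb X Γ with hn
  obtain ⟨z, hz, hzQ⟩ := SetLike.not_le_iff_exists.1 L.first
  have hzT := d.crit_conj_end L.crit hz hzQ
  rw [← hn] at hzT
  have hadj := L.arc.1 n (by omega)
  have hprev : Γ.Adj (p n) (p (n - 1)) := d.adj_last L.crit
  have hB : Bv X Γ (p n) := (d.arc_typeA L.arc L.start (by omega)).2 hodd
  set η := z • p (n + 1) with hη
  have hηadj : Γ.Adj (p n) η := d.adj_fix (mem_TT.1 hzT).1 hadj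
  have hηne : η ≠ p (n + 1) :=
    d.moves hprev hadj (L.arc.ne (show n + 1 = n - 1 + 2 by omega) le_rfl) hzT hzQ
  have hHT : ZZ X Γ (p (n + 1)) ≤ TT (p 1) (p 2) := fun x hx =>
    mem_TT.2 ⟨d.line_fix L hx le_rfl (by omega), d.line_fix L hx (by omega) (by omega)⟩
  haveI := d.finite_ZZ (p (n + 1))
  have hI : Nat.card (ZZ X Γ (p (n + 1))) ≤
      2 * Nat.card (ZZ X Γ (p (n + 1)) ⊓ ZZ X Γ η : Subgroup X) := by
    haveI : Finite (ZZ X Γ (p (n + 1)) ⊓ ZZ X Γ η : Subgroup X) :=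
      Finite.of_injective _ (Subgroup.inclusion_injective inf_le_left)
    refine (d.card_inf_QQ_le (L.arc.1 1 (by omega)) hHT).trans (Nat.mul_le_mul_left _ ?_)
    refine Subgroup.card_le_of_le fun x hx => ?_
    obtain ⟨hx1, hx2⟩ := Subgroup.mem_inf.1 hx
    refine Subgroup.mem_inf.2 ⟨hx1, ?_⟩
    have h := d.conj_ZZ (g := z) hx1
    rwa [← d.QQ_comm_ZZ hz (hcase x hx1 hx2), mul_inv_cancel_right] at h
  -- the same at every central vertex
  have hgen : ∀ {β α γ : V}, Bv X Γ β → Γ.Adj β α → Γ.Adj β γ → α ≠ γ →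
      Nat.card (ZZ X Γ α) ≤ 2 * Nat.card (ZZ X Γ α ⊓ ZZ X Γ γ : Subgroup X) := by
    intro β α γ hβ hα hγ hne
    obtain ⟨g, hg⟩ := d.exists_smul_eq (iff_of_true hB hβ)
    have h1 := d.smul_adj g hadj
    have h2 := d.smul_adj g hηadj
    rw [hg] at h1 h2
    obtain ⟨k, hk, hk1, hk2⟩ := d.pair_trans h1 h2 (fun h => hηne (MulAction.injective g h).symm)
      hα hγ hne
    have h' := hI
    rw [← Subgroup.card_map_of_injective (K := ZZ X Γ (p (n + 1))) (f := (MulAut.conj (k * g)).toMonoidHom)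
        (MulAut.conj (k * g)).injective,
      ← Subgroup.card_map_of_injective (K := ZZ X Γ (p (n + 1)) ⊓ ZZ X Γ η)
        (f := (MulAut.conj (k * g)).toMonoidHom) (MulAut.conj (k * g)).injective,
      Subgroup.map_inf _ _ _ (MulAut.conj (k * g)).injective, d.map_ZZ, d.map_ZZ, mul_smul, mul_smul,
      hk1, hk2] at h'
    exact h'
  have htriple : ∀ {β α γ δ : V}, Bv X Γ β → Γ.Adj β α → Γ.Adj β γ → Γ.Adj β δ → α ≠ γ → α ≠ δ →
      γ ≠ δ → ∀ x, x ∈ ZZ X Γ α → x ∈ ZZ X Γ γ → x ∈ ZZ X Γ δ := by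
    intro β α γ δ hβ hα hγ hδ h1 h2 h3' x hx hx'
    obtain ⟨q, hq, hqβ⟩ := d.exists_QQ_not_mem hα.symm
    have e := d.swap hα hγ hδ h1 h2 h3' (d.QQ_le_TT' hα.symm hq) hqβ
    have h := d.conj_ZZ (g := q) hx'
    rwa [d.QQ_comm_ZZ hx hq, mul_inv_cancel_right, e] at h
  set α := p 0
  have h01 := L.arc.1 0 (by omega)
  set β := p 1
  obtain ⟨β2, hβ2, hne2⟩ := d.exists_other h01
  obtain ⟨β3, hβ3, hne31, hne32, hallα⟩ := d.exists_third h01 hβ2 hne2.symm
  have hnb : ∀ {x}, Γ.Adj α x → Bv X Γ x := fun hx => d.nbr_B hx L.start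
  obtain ⟨γ1, hγ1, hγ1α⟩ := d.exists_other h01.symm
  obtain ⟨γ2, hγ2, hγ2α⟩ := d.exists_other hβ2.symm
  obtain ⟨γ3, hγ3, hγ3α⟩ := d.exists_other hβ3.symm
  let H1 := ZZ X Γ α ⊓ ZZ X Γ γ1
  let H2 := H1 ⊓ ZZ X Γ γ2
  let H3 := H2 ⊓ ZZ X Γ γ3
  haveI := d.finite_ZZ α
  have c1 : Nat.card (ZZ X Γ α) ≤ 2 * Nat.card H1 := hgen (hnb h01) h01.symm hγ1 hγ1α.symm
  have c2 : Nat.card H1 ≤ 2 * Nat.card H2 := by
    have := card_le_two_mul (H := H1) inf_le_left (inf_le_left : ZZ X Γ α ⊓ ZZ X Γ γ2 ≤ _)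
      (hgen (hnb hβ2) hβ2.symm hγ2 hγ2α.symm)
    rwa [← inf_assoc, inf_eq_left.2 (inf_le_left : H1 ≤ ZZ X Γ α)] at this
  have c3 : Nat.card H2 ≤ 2 * Nat.card H3 := by
    have := card_le_two_mul (H := H2) (inf_le_left.trans inf_le_left)
      (inf_le_left : ZZ X Γ α ⊓ ZZ X Γ γ3 ≤ _) (hgen (hnb hβ3) hβ3.symm hγ3 hγ3α.symm)
    rwa [← inf_assoc, inf_eq_left.2 (inf_le_left.trans inf_le_left : H2 ≤ ZZ X Γ α)] at this
  let F : Subgroup X := ⨅ y ∈ Γ.neighborSet α, ⨅ x ∈ Γ.neighborSet y, ZZ X Γ x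
  have hF3 : H3 ≤ F := by
    rintro x ⟨⟨⟨hxα, hx1⟩, hx2⟩, hx3⟩
    simp only [F, Subgroup.mem_iInf, SimpleGraph.mem_neighborSet]
    intro y hy w hw
    have key : ∀ {γ}, Γ.Adj y γ → γ ≠ α → x ∈ ZZ X Γ γ → x ∈ ZZ X Γ w := by
      intro γ hγ hγα hxγ
      by_cases e1 : w = α
      · rwa [e1]
      by_cases e2 : w = γ
      · rwa [e2]
      exact htriple (hnb hy) hy.symm hγ hw hγα.symm (Ne.symm e1) (Ne.symm e2) x hxα hxγ
    rcases hallα y hy with rfl | rfl | rfl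
    · exact key hγ1 hγ1α hx1
    · exact key hγ2 hγ2α hx2
    · exact key hγ3 hγ3α hx3
  have hFα : F ≤ ZZ X Γ α := iInf₂_le_of_le β h01 (iInf₂_le α h01.symm)
  have hFγ : F ≤ ZZ X Γ γ1 := iInf₂_le_of_le β h01 (iInf₂_le γ1 hγ1)
  have hF : F = ⊥ := by
    have hnα : stabilizer X α ≤ normalizer (F : Set X) := by
      refine Amal.mem_normalizer_of_conj_le fun g hg x hx => ?_
      simp only [F, Subgroup.mem_iInf, SimpleGraph.mem_neighborSet] at hx ⊢
      intro y hy w hw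
      have hy' := d.adj_fix (inv_smul_eq_iff.2 (mem_stabilizer_iff.1 hg).symm) hy
      have hw' := d.smul_adj g⁻¹ hw
      have := d.conj_ZZ (g := g) (hx _ hy' _ hw')
      rwa [smul_inv_smul] at this
    obtain ⟨q, hq, hqβ⟩ := d.exists_QQ_not_mem hγ1.symm
    refine d.faithful h01 F (hFα.trans ((d.ZZ_le_QQ α).trans (d.QQ_le_TT h01))) hnα ?_
    refine d.stab_le h01.symm (inf_le_right.trans hnα) ((mem_QQ.1 hq).2 β hγ1.symm)
      (d.moves hγ1 h01.symm hγ1α (d.QQ_le_TT' hγ1.symm hq) hqβ) ?_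
    refine centralizer_le_normalizer _ (mem_centralizer_iff.2 fun x hx => ?_)
    exact (d.QQ_comm_ZZ (hFγ hx) hq).symm
  have c4 : Nat.card H3 ≤ 1 := by
    rw [show H3 = ⊥ from le_bot_iff.1 (hF ▸ hF3), Subgroup.card_bot]
  have c0 : Nat.card (ZZ X Γ β) * Nat.card (ZZ X Γ β) ≤ Nat.card (ZZ X Γ α) := by
    have := d.card_mul_le (v := α) L.start h01 hβ2 hne2.symm
    rwa [d.card_ZZ_eq (v := β2) (w := β) (iff_of_true (hnb hβ2) (hnb h01))] at this
  refine d.two_of_card (hnb h01) ?_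
  nlinarith

theorem two_odd (L : Line X Γ p) (hodd : Odd (bb X Γ)) (h3 : 3 ≤ bb X Γ) : Two X Γ := by
  by_cases hcase : ∀ x ∈ ZZ X Γ (p (bb X Γ + 1)), x ∈ QQ X Γ (p 1) → x ∈ QQ X Γ (p 0)
  · exact d.card_inter_bound L hodd h3 hcase
  push Not at hcase
  obtain ⟨t, ht, ht1, ht0⟩ := hcase
  set n := bb X Γ with hn
  have hp := L.crit
  have hA := d.crit_isArc hp
  have hB : Bv X Γ (p n) := (d.arc_typeA L.arc L.start (by omega)).2 hodd
  have h01 := L.arc.1 0 (by omega)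
  have hlast := d.adj_last hp
  have hnext := L.arc.1 n (by omega)
  have hA' : ¬ Bv X Γ (p (n + 1)) := by
    rw [d.arc_typeA L.arc L.start le_rfl, Nat.not_odd_iff_even]; exact hodd.add_one
  obtain ⟨z, hz, hzQ⟩ := SetLike.not_le_iff_exists.1 L.first
  have htT : t ∈ TT (X := X) (p 0) (p 1) :=
    mem_TT.2 ⟨(mem_QQ.1 ht1).2 _ h01.symm, (mem_QQ.1 ht1).1⟩
  have htfix : ∀ i ≤ n, t • p (n - i) = p (n - i) := by
    intro i hi
    rcases Nat.eq_zero_or_pos (n - i) with h | h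
    · rw [h]; exact (mem_TT.1 htT).1
    · exact d.line_fix L ht h (by omega)
  have hconj : ∀ k ≤ n + 1, ∀ P : Prop, ConjArcs X Γ k P :=
    d.conjArcs_all hA hB (fun i hi => d.crit_fix hp hz hi) hzQ hA.rev
      (show ¬ Bv X Γ (p (n - n)) by rw [Nat.sub_self]; exact L.start) htfix
      (show t ∉ QQ X Γ (p (n - n)) by rwa [Nat.sub_self])
  -- the bound along the arc
  have hbound : Nat.card (ZZ X Γ (p 1)) ≤ 2 * Nat.card (ZZ X Γ (p 1) ⊓ ZZ X Γ (p n) : Subgroup X) := by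
    obtain ⟨β2, hβ2, hne2⟩ := d.exists_other h01
    have c0 := d.card_mul_le L.start h01 hβ2 hne2.symm
    rw [d.card_ZZ_eq (v := β2) (w := p 1)
      (iff_of_true (d.nbr_B hβ2 L.start) (d.nbr_B h01 L.start))] at c0
    have hT0 : ZZ X Γ (p 0) ≤ TT (p n) (p (n - 1)) := fun x hx =>
      mem_TT.2 ⟨d.crit_fix hp hx le_rfl, d.crit_fix hp hx (Nat.sub_le _ _)⟩
    have c1 := d.card_inf_QQ_le hlast hT0
    obtain ⟨δ, hδ⟩ := d.exists_delta (p 0) t (mem_TT.1 htT).1
    let H := (ZZ X Γ (p 0) ⊓ QQ X Γ (p n) : Subgroup X)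
    let f : H →* X := δ.comp (Subgroup.inclusion inf_le_left)
    haveI : Finite H :=
      haveI := d.finite_ZZ (p 0); Finite.of_injective _ (Subgroup.inclusion_injective inf_le_left)
    haveI := d.finite_ZZ (p 1)
    haveI : Finite (ZZ X Γ (p 1) ⊓ ZZ X Γ (p n) : Subgroup X) :=
      Finite.of_injective _ (Subgroup.inclusion_injective inf_le_left)
    have c2 : Nat.card H ≤
        Nat.card (ZZ X Γ (p 1)) * Nat.card (ZZ X Γ (p 1) ⊓ ZZ X Γ (p n) : Subgroup X) := by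
      rw [← f.ker.card_mul_index, Subgroup.index_ker]
      refine Nat.mul_le_mul ?_ (Subgroup.card_le_of_le ?_)
      · refine Nat.card_le_card_of_injective (fun x => ⟨((x : H) : X), d.mem_ZZ_of_commute L.start h01
          htT ht0 x.1.2.1 (d.commute_of_delta x.1.2.1 ?_)⟩) fun x y h => ?_
        · have := MonoidHom.mem_ker.1 x.2
          simp only [f, MonoidHom.comp_apply, hδ] at this
          exact this
        · exact Subtype.ext (Subtype.ext (congrArg (fun u : ZZ X Γ (p 1) => (u : X)) h))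
      · rintro _ ⟨⟨x, hx, hxQ⟩, rfl⟩
        show δ ⟨x, hx⟩ ∈ _
        rw [hδ]
        refine Subgroup.mem_inf.2 ⟨d.delta_mem L.start h01 htT hx, ?_⟩
        have hxT : x ∈ TT (X := X) (p (n + 1)) (p n) :=
          mem_TT.2 ⟨(mem_QQ.1 hxQ).2 _ hnext, (mem_QQ.1 hxQ).1⟩
        have h := inv_mem (d.delta_mem hA' hnext.symm hxT ht)
        show x * (t * x * t⁻¹) ∈ _
        have e : (t * (x * t * x⁻¹))⁻¹ = x * (t * x * t⁻¹) := by
          simp only [mul_inv_rev, inv_inv, d.ZZ_inv ht, d.ZZ_inv hx, mul_assoc]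
        rwa [e] at h
    have hpos := Nat.card_pos (α := ZZ X Γ (p 1))
    refine Nat.le_of_mul_le_mul_left ?_ hpos
    calc _ ≤ Nat.card (ZZ X Γ (p 0)) := c0
      _ ≤ 2 * Nat.card H := c1
      _ ≤ 2 * (Nat.card (ZZ X Γ (p 1)) * Nat.card (ZZ X Γ (p 1) ⊓ ZZ X Γ (p n) : Subgroup X)) :=
        Nat.mul_le_mul_left _ c2
      _ = _ := by ring
  refine d.two_of_card (v := p 1) (d.nbr_B h01 L.start) ?_
  by_contra hgt
  by_cases hb3 : n = 3
  · have hbot : (ZZ X Γ (p 1) ⊓ ZZ X Γ (p n) : Subgroup X) = ⊥ := by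
      rw [hb3]
      refine (Subgroup.eq_bot_iff_forall _).2 fun x hx => d.disjoint_ZZ (v := p 2) ?_
        (L.arc.adj' (i := 1) (by omega)) (L.arc.1 2 (by omega)) (L.arc.ne rfl (by omega)) hx.1 hx.2
      rw [d.arc_typeA L.arc L.start (by omega)]
      decide
    rw [hbot, Subgroup.card_bot] at hbound
    omega
  have h5 : 5 ≤ n := by
    obtain ⟨k, hk⟩ := hodd
    omega
  -- on every arc of length `n - 1` from a central vertex
  have hany : ∀ q : ℕ → V, IsArc Γ (n - 1) q → Bv X Γ (q 0) →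
      Nat.card (ZZ X Γ (q 0)) ≤ 2 * Nat.card (ZZ X Γ (q 0) ⊓ ZZ X Γ (q (n - 1)) : Subgroup X) := by
    intro q hq hq0
    obtain ⟨g, hg⟩ := hconj (n - 1) (by omega) True _ q (hA.sub 1 (by omega)) hq
      (iff_of_true (d.nbr_B h01 L.start) trivial) (iff_of_true hq0 trivial)
    have h' := hbound
    rw [← Subgroup.card_map_of_injective (K := ZZ X Γ (p 1)) (f := (MulAut.conj g).toMonoidHom)
        (MulAut.conj g).injective,
      ← Subgroup.card_map_of_injective (K := ZZ X Γ (p 1) ⊓ ZZ X Γ (p n))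
        (f := (MulAut.conj g).toMonoidHom) (MulAut.conj g).injective,
      Subgroup.map_inf _ _ _ (MulAut.conj g).injective, d.map_ZZ, d.map_ZZ] at h'
    have e0 := hg 0 (Nat.zero_le _)
    have e1 := hg (n - 1) le_rfl
    simp only [show 1 + (n - 1) = n by omega, Nat.add_zero] at e0 e1
    rwa [e0, e1] at h'
  have hcard : ∀ {x}, Bv X Γ x → Nat.card (ZZ X Γ x) = Nat.card (ZZ X Γ (p 1)) := fun hx =>
    d.card_ZZ_eq (iff_of_true hx (d.nbr_B h01 L.start))
  have hprod : ∀ {α x y : V} {I J : Subgroup X}, ¬ Bv X Γ α → Γ.Adj α x → Γ.Adj α y → x ≠ y →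
      I ≤ ZZ X Γ x → J ≤ ZZ X Γ y → Nat.card I * Nat.card J ≤ Nat.card (I ⊔ J : Subgroup X) := by
    intro α x y I J hα hx hy hxy hI hJ
    haveI : Finite (I ⊔ J : Subgroup X) := by
      haveI := d.finite_ZZ α
      exact Finite.of_injective _ (Subgroup.inclusion_injective (sup_le
        (hI.trans (d.ZZ_B_le (d.nbr_B hx hα) hx.symm)) (hJ.trans (d.ZZ_B_le (d.nbr_B hy hα) hy.symm))))
    rw [← Nat.card_prod]
    refine Nat.card_le_card_of_injective (fun u => ⟨u.1 * u.2,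
      mul_mem (mem_sup_left u.1.2) (mem_sup_right u.2.2)⟩) ?_
    rintro ⟨i, j⟩ ⟨i', j'⟩ he
    simp only [Subtype.mk.injEq] at he
    have h1 : (i' : X)⁻¹ * i = j' * (j : X)⁻¹ := by
      rw [eq_mul_inv_iff_mul_eq, mul_assoc, he, inv_mul_cancel_left]
    have h2 : (i' : X)⁻¹ * i = 1 := d.disjoint_ZZ hα hx hy hxy (hI (mul_mem (inv_mem i'.2) i.2))
      (hJ (h1 ▸ mul_mem j'.2 (inv_mem j.2)))
    have hi : (i : X) = i' := (inv_mul_eq_one.1 h2).symm
    rw [hi] at he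
    exact Prod.ext (Subtype.ext hi) (Subtype.ext (mul_left_cancel he))
  have hmid : ∀ q : ℕ → V, IsArc Γ (n - 2) q → Bv X Γ (q 0) →
      ZZ X Γ (q 0) ≤ ZZ X Γ (q (n - 2)) := by
    intro q hq hq0
    have he : ¬ Bv X Γ (q (n - 2)) := by
      rw [d.arc_type hq le_rfl]
      have : ¬ Even (n - 2) := by
        obtain ⟨k, hk⟩ := hodd
        rw [Nat.not_even_iff_odd]
        exact ⟨k - 1, by omega⟩
      tauto
    have hpr : Γ.Adj (q (n - 2)) (q (n - 3)) := by
      have := hq.adj' (i := n - 3) (by omega)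
      rwa [show n - 3 + 1 = n - 2 by omega] at this
    obtain ⟨f, hf, hfne⟩ := d.exists_other hpr
    obtain ⟨f', hf', hf'ne, hf'f, -⟩ := d.exists_third hpr hf hfne.symm
    have hext : ∀ x, Γ.Adj (q (n - 2)) x → x ≠ q (n - 3) →
        Nat.card (ZZ X Γ (q 0)) ≤ 2 * Nat.card (ZZ X Γ (q 0) ⊓ ZZ X Γ x : Subgroup X) := by
      intro x hx hxne
      have harc : IsArc Γ (n - 1) (Function.update q (n - 1) x) := by
        have e : ∀ i, i ≠ n - 1 → Function.update q (n - 1) x i = q i := fun i hi =>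
          Function.update_of_ne hi _ _
        refine ⟨fun i hi => ?_, fun i hi => ?_⟩
        · rcases Nat.lt_or_ge i (n - 2) with h | h
          · rw [e i (by omega), e (i + 1) (by omega)]; exact hq.1 i h
          · rw [e i (by omega), show i + 1 = n - 1 by omega, Function.update_self,
              show i = n - 2 by omega]
            exact hx
        · rcases Nat.lt_or_ge (i + 2) (n - 1) with h | h
          · rw [e i (by omega), e (i + 2) (by omega)]; exact hq.2 i (by omega)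
          · rw [e i (by omega), show i + 2 = n - 1 by omega, Function.update_self,
              show i = n - 3 by omega]
            exact hxne.symm
      have := hany _ harc (by rwa [Function.update_of_ne (by omega)])
      rwa [Function.update_of_ne (by omega), Function.update_self] at this
    have h1 := hext f hf hfne
    have h2 := hext f' hf' hf'ne
    rw [hcard hq0] at h1 h2
    haveI := d.finite_ZZ (q 0)
    set I := (ZZ X Γ (q 0) ⊓ ZZ X Γ f : Subgroup X) with hI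
    set J := (ZZ X Γ (q 0) ⊓ ZZ X Γ f' : Subgroup X) with hJ
    have hJle : I ⊔ J ≤ ZZ X Γ (q 0) := sup_le inf_le_left inf_le_left
    have h3' := hprod he hf hf' hf'f.symm (inf_le_right : I ≤ _) (inf_le_right : J ≤ _)
    have h4 := Subgroup.card_le_of_le hJle
    rw [hcard hq0] at h4
    have hge : Nat.card (ZZ X Γ (p 1)) ≤ Nat.card I * Nat.card J := by
      have a2 : 2 ≤ Nat.card I := by omega
      have b2 : 2 ≤ Nat.card J := by omega
      have := Nat.mul_le_mul h1 h2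
      nlinarith
    have heq : I ⊔ J = ZZ X Γ (q 0) :=
      Subgroup.eq_of_le_of_card_ge hJle (by rw [hcard hq0]; exact hge.trans h3')
    rw [← heq]
    exact sup_le (inf_le_right.trans (d.ZZ_B_le (d.nbr_B hf he) hf.symm))
      (inf_le_right.trans (d.ZZ_B_le (d.nbr_B hf' he) hf'.symm))
  -- centres at distance `n - 3` coincide
  have hsame : ∀ r : ℕ → V, IsArc Γ (n - 3) r → ¬ Bv X Γ (r 0) →
      ZZ X Γ (r 0) = ZZ X Γ (r (n - 3)) := by
    intro r hr hr0
    have hr1 : Γ.Adj (r 0) (r 1) := hr.1 0 (by omega)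
    obtain ⟨x, hx, hxne⟩ := d.exists_other hr1
    obtain ⟨y, hy, hyne, hyx, -⟩ := d.exists_third hr1 hx hxne.symm
    have hle : ∀ w, Γ.Adj (r 0) w → w ≠ r 1 → ZZ X Γ w ≤ ZZ X Γ (r (n - 3)) := by
      intro w hw hwne
      have harc : IsArc Γ (n - 2) (acons w r) := by
        have := hr.cons hw.symm (Or.inr hwne)
        rwa [show n - 3 + 1 = n - 2 by omega] at this
      have := hmid _ harc (d.nbr_B hw hr0)
      rwa [show n - 2 = n - 3 + 1 by omega, acons_succ] at this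
    have hre : ¬ Bv X Γ (r (n - 3)) := by
      rw [d.arc_typeA hr hr0 le_rfl, Nat.not_odd_iff_even]
      obtain ⟨k, hk⟩ := hodd
      exact ⟨k - 1, by omega⟩
    haveI := d.finite_ZZ (r 0)
    have hxy : ZZ X Γ x ⊔ ZZ X Γ y = ZZ X Γ (r 0) := by
      refine Subgroup.eq_of_le_of_card_ge
        (sup_le (d.ZZ_B_le (d.nbr_B hx hr0) hx.symm) (d.ZZ_B_le (d.nbr_B hy hr0) hy.symm)) ?_
      refine le_trans ?_ (hprod hr0 hx hy hyx.symm le_rfl le_rfl)
      obtain ⟨u, hu, huQ⟩ := d.exists_not_mem_QQ hr1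
      haveI := d.finite_ZZ (r 1)
      refine (d.card_ZZ_le hr0 hr1 hu huQ (ZZ X Γ (r 1) : Set X) (Set.toFinite _)
        fun w hw => d.delta_mem hr0 hr1 hu hw).trans ?_
      rw [← Nat.card_coe_set_eq]
      exact le_of_eq (by
        rw [hcard (d.nbr_B hx hr0), hcard (d.nbr_B hy hr0)]
        exact congrArg₂ (· * ·) (hcard (d.nbr_B hr1 hr0)) (hcard (d.nbr_B hr1 hr0)))
    have hle' : ZZ X Γ (r 0) ≤ ZZ X Γ (r (n - 3)) := hxy ▸ sup_le (hle x hx hxne) (hle y hy hyne)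
    haveI := d.finite_ZZ (r (n - 3))
    exact Subgroup.eq_of_le_of_card_ge hle' (d.card_ZZ_eq (iff_of_false hre hr0)).le
  have hr : IsArc Γ (n - 3) fun i => p (2 + i) := hA.sub 2 (by omega)
  have hr0 : ¬ Bv X Γ (p 2) := by rw [d.crit_type hp (by omega)]; decide
  have e1 := hsame _ hr hr0
  simp only [show 2 + (n - 3) = n - 1 by omega, Nat.add_zero] at e1
  have hpre : Γ.Adj (p (n - 2)) (p (n - 1)) := by
    have := hA.adj (i := n - 2) (by omega)
    rwa [show n - 2 + 1 = n - 1 by omega] at this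
  have hpre2 : Γ.Adj (p (n - 2)) (p (n - 3)) := by
    have := hA.adj' (i := n - 3) (by omega)
    rwa [show n - 3 + 1 = n - 2 by omega] at this
  obtain ⟨e', he', he'1, he'2, -⟩ := d.exists_third hpre hpre2 (hA.ne (show n - 1 = n - 3 + 2 by omega) (by omega)).symm
  have hr' : IsArc Γ (n - 3) (Function.update (fun i => p (2 + i)) (n - 3) e') := by
    have e : ∀ i, i ≠ n - 3 → Function.update (fun i => p (2 + i)) (n - 3) e' i = p (2 + i) :=
      fun i hi => Function.update_of_ne hi _ _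
    refine ⟨fun i hi => ?_, fun i hi => ?_⟩
    · rcases Nat.lt_or_ge (i + 1) (n - 3) with h | h
      · rw [e i (by omega), e (i + 1) (by omega)]; exact hr.1 i hi
      · rw [e i (by omega), show i + 1 = n - 3 by omega, Function.update_self,
          show 2 + i = n - 2 by omega]
        exact he'
    · rcases Nat.lt_or_ge (i + 2) (n - 3) with h | h
      · rw [e i (by omega), e (i + 2) (by omega)]; exact hr.2 i hi
      · rw [e i (by omega), show i + 2 = n - 3 by omega, Function.update_self,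
          show 2 + i = n - 3 by omega]
        exact he'2.symm
  have e2 := hsame _ hr' (by rwa [Function.update_of_ne (by omega)])
  rw [Function.update_of_ne (by omega), Function.update_self] at e2
  refine d.ZZ_inj ?_ he' hpre he'1 (e2.symm.trans e1)
  rw [d.crit_type hp (by omega)]
  obtain ⟨k, hk⟩ := hodd
  exact ⟨k - 1, by omega⟩

end Mix

end Cfsg.Agent.H73.GA
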