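import Cfsg.Agent.H73.GoldFive
import Cfsg.Agent.H73.SymAmalgamBasic

/-!
Amalgams of index (3,3): the bound at critical distance three.
-/

set_option autoImplicit false
set_option linter.style.haveILetI false
set_option linter.unusedSectionVars false

namespace Cfsg.Agent.H73.GA

open Subgroup MulAction
open scoped Pointwise

variable {X : Type*} [Group X] {V : Type*} [MulAction X V]

theorem exists_fix_of_three {α : Type*} [Finite α] (f : α → α) (h3 : ∀ x, f (f (f x)) = x)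
    (hc : ¬ 3 ∣ Nat.card α) : ∃ x, f x = x := by
  haveI : Fact (Nat.Prime 3) := ⟨Nat.prime_three⟩
  haveI := Fintype.ofFinite α
  classical
  let σ : Equiv.Perm α := ⟨f, fun x => f (f x), h3, h3⟩
  refine Equiv.Perm.exists_fixed_point_of_prime (σ := σ) (p := 3) (n := 1)
    (by rwa [← Nat.card_eq_fintype_card]) (Equiv.ext fun x => ?_)
  exact h3 x

theorem three_not_dvd_card {S T : Subgroup X} (h : S ≤ T) [Finite T] (hT : IsPGroup 2 T) :
    ¬ 3 ∣ Nat.card S := by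
  haveI : Fact (Nat.Prime 2) := ⟨Nat.prime_two⟩
  haveI : Finite S := Finite.of_injective _ (Subgroup.inclusion_injective h)
  obtain ⟨k, hk⟩ := (hT.to_le h).exists_card_eq
  rw [hk]
  intro h3
  have := (Nat.prime_dvd_prime_iff_eq Nat.prime_three Nat.prime_two).1
    (Nat.prime_three.dvd_of_dvd_pow h3)
  omega

theorem card_sup_le {H K : Subgroup X} [Finite H] [Finite K] (hn : H ≤ normalizer (K : Set X)) :
    Nat.card (H ⊔ K : Subgroup X) ≤ Nat.card H * Nat.card K := by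
  rw [← Nat.card_prod]
  refine Nat.card_le_card_of_surjective
    (fun x : H × K => (⟨x.1 * x.2, mul_mem (mem_sup_left x.1.2) (mem_sup_right x.2.2)⟩ :
      (H ⊔ K : Subgroup X))) ?_
  rintro ⟨g, hg⟩
  rw [← SetLike.mem_coe, Subgroup.coe_mul_of_left_le_normalizer_right _ _ hn, Set.mem_mul] at hg
  obtain ⟨h, hh, k, hk, rfl⟩ := hg
  exact ⟨(⟨h, hh⟩, ⟨k, hk⟩), rfl⟩

namespace Mix

variable {Γ : SimpleGraph V} (d : Mix X Γ) (hm : Two X Γ) (h3 : bb X Γ = 3) {u v w a b c : V}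
  {p : ℕ → V}
include d hm h3

theorem odd_three : Odd (bb X Γ) := by rw [h3]; decide

theorem crit_of_three {q : ℕ → V} (hq : IsArc Γ 3 q) (h0 : ¬ Bv X Γ (q 0)) : Crit X Γ q := by
  obtain ⟨p, hp⟩ := d.exists_crit
  exact d.crit_of_arc hp (d.conjArcs_le_three h3.le False) (h3.symm ▸ hq) h0

theorem line_of_arc {q : ℕ → V} (hq : IsArc Γ 4 q) (h0 : ¬ Bv X Γ (q 0)) : Line X Γ q := by
  have h4 : ¬ Bv X Γ (q 4) := by rw [d.arc_typeA hq h0 le_rfl]; decide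
  have hrev : IsArc Γ 3 fun i => q (4 - i) := hq.rev.take (by omega)
  refine ⟨by rw [h3]; exact hq, h0, (d.crit_of_three hm h3 (hq.take (by omega)) h0).2, ?_⟩
  have := (d.crit_of_three hm h3 hrev h4).2
  rw [h3] at this ⊢
  exact this

theorem comm_third (L : Line X Γ p) {z t : X} (hz : z ∈ ZZ X Γ (p 0)) (hzQ : z ∉ QQ X Γ (p 3))
    (ht : t ∈ ZZ X Γ (p 4)) (htQ : t ∉ QQ X Γ (p 1)) :
    z * (t * z * t⁻¹) ∈ ZZ X Γ (p 2) ∧ z * (t * z * t⁻¹) ∉ ZZ X Γ (p 1) ∧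
      z * (t * z * t⁻¹) ∉ ZZ X Γ (p 3) := by
  have hodd := d.odd_three hm h3
  suffices key : ∀ {q : ℕ → V}, Line X Γ q → ∀ {z t : X}, z ∈ ZZ X Γ (q 0) → z ∉ QQ X Γ (q 3) →
      t ∈ ZZ X Γ (q 4) → t ∉ QQ X Γ (q 1) →
      z * (t * z * t⁻¹) ∈ ZZ X Γ (q 2) ∧ z * (t * z * t⁻¹) ∉ ZZ X Γ (q 1) by
    obtain ⟨h1, h2⟩ := key L hz hzQ ht htQ
    obtain ⟨-, h2'⟩ := key (d.line_rev L hodd) (z := t) (t := z) (by simpa [h3] using ht)
      (by simpa [h3] using htQ) (by simpa [h3] using hz) (by simpa [h3] using hzQ)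
    refine ⟨h1, h2, fun h => h2' ?_⟩
    have e : (t * (z * t * z⁻¹))⁻¹ = z * (t * z * t⁻¹) := by
      simp only [mul_inv_rev, inv_inv, d.ZZ_inv hz, d.ZZ_inv ht, mul_assoc]
    rw [← e, inv_mem_iff] at h
    simpa [h3] using h
  intro q L z t hz hzQ ht htQ
  have h01 := L.arc.1 0 (by omega)
  have h12 := L.arc.1 1 (by omega)
  have h23 := L.arc.1 2 (by omega)
  have hB1 := d.nbr_B h01 L.start
  have hA2 := d.nbr_not h12 hB1
  have hz1 := d.line_z L (by omega) (h3.symm ▸ hzQ : z ∉ QQ X Γ (q (bb X Γ)))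
  have ht' : t ∈ ZZ X Γ (q (bb X Γ + 1)) := by rw [h3]; exact ht
  have ht1 := d.line_fix L ht' le_rfl (by omega)
  have ht0 := d.line_moves L ht' htQ
  have hδ : Γ.Adj (q 1) (t • q 0) := d.adj_fix ht1 h01.symm
  have hw : t * z * t⁻¹ ∈ ZZ X Γ (t • q 0) := d.conj_ZZ hz
  have hd : Γ.dist (q 0) (t • q 0) < bb X Γ := by
    have := d.connected.dist_triangle (u := q 0) (v := q 1) (w := t • q 0)
    rw [SimpleGraph.dist_eq_one_iff_adj.2 hδ, SimpleGraph.dist_eq_one_iff_adj.2 h01] at this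
    omega
  have hzw : z * (t * z * t⁻¹) = t * z * t⁻¹ * z := d.ZZ_commute hd hz hw
  have hcsq : z * (t * z * t⁻¹) * (z * (t * z * t⁻¹)) = 1 := by
    calc z * (t * z * t⁻¹) * (z * (t * z * t⁻¹))
          = z * ((t * z * t⁻¹) * z) * (t * z * t⁻¹) := by group
      _ = (z * z) * (t * (z * z) * t⁻¹) := by rw [← hzw]; group
      _ = 1 := by rw [d.ZZ_sq hz]; group
  set c := z * (t * z * t⁻¹) with hc
  have hcinv : c⁻¹ = c := inv_eq_of_mul_eq_one_right hcsq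
  refine ⟨?_, fun h => ?_⟩
  · have hzQ2 : z ∈ QQ X Γ (q 2) := d.ZZ_le_QQ_of_lt
      (lt_of_le_of_lt (d.dist_path L.arc.1 (Nat.zero_le 2) (by omega)) (by omega)) hz
    have htQ2 : t ∈ QQ X Γ (q 2) := d.ZZ_le_QQ_of_lt (by
      rw [SimpleGraph.dist_comm]
      exact lt_of_le_of_lt (d.dist_path L.arc.1 (show 2 ≤ 4 by omega) (by omega)) (by omega)) ht
    refine d.mem_ZZ_of_central hm hA2
      (mul_mem hzQ2 (mul_mem (mul_mem htQ2 hzQ2) (inv_mem htQ2))) (fun g hg => ?_) hcsq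
    have hg1 := (mem_QQ.1 hg).2 _ h12.symm
    have hg2 := (mem_QQ.1 hg).1
    have hg3 := (mem_QQ.1 hg).2 _ h23
    have k1 := d.comm_mem hm L (by omega) hz (h3.symm ▸ hzQ) ht' htQ hg1 hg2
    have k2 := d.comm_mem hm (d.line_rev L hodd) (by omega) (z := t) (t := z) (g := g)
      (by simpa [h3] using ht) (by simpa [h3] using htQ) (by simpa [h3] using hz)
      (by simpa [h3] using hzQ) (by simpa [h3] using hg3) (by simpa [h3] using hg2)
    have e : t * (z * t * z⁻¹) = c⁻¹ := by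
      simp only [hc, mul_inv_rev, inv_inv, d.ZZ_inv hz, d.ZZ_inv ht, mul_assoc]
    rw [e, hcinv] at k2
    simp only [h3, show 3 + 1 - 1 = 3 from rfl] at k2
    have := mul_inv_eq_one.1 (d.disjoint_ZZ hA2 h12.symm h23 (L.arc.ne rfl (by omega)) k1 k2)
    calc g * c = (g * c * g⁻¹) * g := by group
      _ = c * g := by rw [this]
  · have h0 : t * z * t⁻¹ ∈ ZZ X Γ (q 0) := by
      rw [show t * z * t⁻¹ = z⁻¹ * c by rw [hc]; group]
      exact mul_mem (inv_mem hz) (d.ZZ_B_le hB1 h01.symm h)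
    have h' := d.inter_nbrs hm hB1 h01.symm hδ ht0.symm h0 hw
    refine hz1 ?_
    have h'' := d.conj_ZZ (g := t⁻¹) h'
    rw [inv_smul_eq_iff.2 ht1.symm] at h''
    simpa [mul_assoc] using h''

theorem exists_arc4 {β α γ : V} (hβ : Bv X Γ β) (hα : Γ.Adj β α) (hγ : Γ.Adj β γ) (hne : α ≠ γ) :
    ∃ q : ℕ → V, IsArc Γ 4 q ∧ q 0 = α ∧ q 1 = β ∧ q 2 = γ := by
  obtain ⟨x, hx, hxne⟩ := d.exists_other hγ.symm
  obtain ⟨y, hy, hyne⟩ := d.exists_other hx.symm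
  refine ⟨acons α (acons β (acons γ (acons x fun _ => y))), ⟨fun i hi => ?_, fun i hi => ?_⟩,
    rfl, rfl, rfl⟩
  · interval_cases i
    · exact hα.symm
    · exact hγ
    · exact hx
    · exact hy
  · have : i ≤ 2 := by omega
    interval_cases i
    · exact hne
    · exact hxne.symm
    · exact hyne.symm

theorem ZZ_le_sup {β α γ δ : V} (hβ : Bv X Γ β) (hα : Γ.Adj β α) (hγ : Γ.Adj β γ) (hδ : Γ.Adj β δ)
    (hαγ : α ≠ γ) (hδα : δ ≠ α) (hδγ : δ ≠ γ) : ZZ X Γ δ ≤ ZZ X Γ α ⊔ ZZ X Γ γ := by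
  obtain ⟨q, hq, q0, q1, q2⟩ := d.exists_arc4 hm h3 hβ hα hγ hαγ
  have L := d.line_of_arc hm h3 hq (q0 ▸ d.nbr_not hα hβ)
  obtain ⟨z, hz, hzQ⟩ := SetLike.not_le_iff_exists.1 L.first
  obtain ⟨t, ht, htQ⟩ := SetLike.not_le_iff_exists.1 L.last
  have hz1 := d.line_z L (by omega) hzQ
  rw [h3] at hzQ
  have htf : t • q 1 = q 1 := d.line_fix L ht le_rfl (by omega)
  have htf2 : t • q 2 = q 2 := d.line_fix L ht (by omega) (by omega)
  have ht0 := d.line_moves L ht htQ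
  rw [h3] at ht
  obtain ⟨hc, -, -⟩ := d.comm_third hm h3 L hz hzQ ht htQ
  rw [q0] at hz
  rw [q2] at hc
  rw [q1] at hz1 htf
  rw [q2] at htf2
  rw [q0] at ht0
  have e : t • α = δ := by
    obtain ⟨o, ho, hoa, hog, hall⟩ := d.exists_third hα hγ hαγ
    have eo : δ = o := by
      rcases hall δ hδ with h | h | h
      · exact absurd h hδα
      · exact absurd h hδγ
      · exact h
    rcases hall _ (d.adj_fix htf hα) with h | h | h
    · exact absurd h ht0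
    · exact absurd (MulAction.injective t (h.trans htf2.symm)) hαγ
    · rw [h, eo]
  have hw : t * z * t⁻¹ ∈ ZZ X Γ δ := e ▸ d.conj_ZZ hz
  have hw1 : t * z * t⁻¹ ∉ ZZ X Γ β := fun h => hz1 <| by
    have h' := d.conj_ZZ (g := t⁻¹) h
    rw [inv_smul_eq_iff.2 htf.symm] at h'
    simpa [mul_assoc] using h'
  have hwS : t * z * t⁻¹ ∈ ZZ X Γ α ⊔ ZZ X Γ γ := by
    rw [show t * z * t⁻¹ = z⁻¹ * (z * (t * z * t⁻¹)) by group]
    exact mul_mem (mem_sup_left (inv_mem hz)) (mem_sup_right hc)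
  have hβS : ZZ X Γ β ≤ ZZ X Γ α ⊔ ZZ X Γ γ := (d.ZZ_B_le hβ hα).trans le_sup_left
  intro y hy
  rcases d.mem_split hm (d.nbr_not hδ hβ) hδ.symm hw hw1 hy with h | h
  · exact hβS h
  · have := mul_mem (inv_mem hwS) (hβS h)
    rwa [inv_mul_cancel_left] at this

theorem WW_le_QQ (v : V) : WW X Γ v ≤ QQ X Γ v := by
  refine iSup₂_le fun j hj => d.VV_le_QQ ?_
  rw [SimpleGraph.dist_eq_one_iff_adj.2 (SimpleGraph.Adj.symm (show Γ.Adj v j from hj)), h3]
  omega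

omit hm in
theorem ZZ_le_WW (v : V) : ZZ X Γ v ≤ WW X Γ v := by
  obtain ⟨j, hj⟩ := d.exists_adj v
  exact (d.ZZ_le_VV hj.symm).trans (d.VV_le_WW hj)

theorem comm_QW_gen {α j ν : V} (hα : ¬ Bv X Γ α) (hj : Γ.Adj α j) (hν : Γ.Adj j ν) {q x : X}
    (hq : q ∈ QQ X Γ α) (hx : x ∈ ZZ X Γ ν) : q * x * q⁻¹ * x⁻¹ ∈ ZZ X Γ α := by
  by_cases hνα : ν = α
  · rw [hνα] at hx
    rw [d.QQ_comm_ZZ (v := α) hx hq, mul_inv_cancel_right, mul_inv_cancel]
    exact one_mem _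
  have hjB : Bv X Γ j := d.nbr_B hj hα
  by_cases hxj : x ∈ ZZ X Γ j
  · rw [d.QQ_comm_ZZ (d.ZZ_B_le hjB hj.symm hxj) hq, mul_inv_cancel_right,
      mul_inv_cancel]
    exact one_mem _
  have hqj : q • j = j := (mem_QQ.1 hq).2 _ hj
  have hqα : q • α = α := (mem_QQ.1 hq).1
  have hqν : q • ν ≠ α := fun h => hνα (MulAction.injective q (h.trans hqα.symm))
  have hle : ZZ X Γ (q • ν) ≤ ZZ X Γ α ⊔ ZZ X Γ ν := by
    by_cases h : q • ν = ν
    · rw [h]; exact le_sup_right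
    · exact d.ZZ_le_sup hm h3 hjB hj.symm hν (d.adj_fix hqj hν) (Ne.symm hνα) hqν h
  have hxq := hle (d.conj_ZZ (g := q) hx)
  have hνn : ZZ X Γ ν ≤ normalizer (ZZ X Γ α : Set X) := by
    refine fun y hy => d.stab_le_normalizer_ZZ α (mem_stabilizer_iff.2 ?_)
    exact (mem_QQ.1 (d.WW_le_QQ hm h3 α (d.VV_le_WW hj (d.ZZ_le_VV hν hy)))).1
  rw [sup_comm, ← SetLike.mem_coe, Subgroup.coe_mul_of_left_le_normalizer_right _ _ hνn,
    Set.mem_mul] at hxq
  obtain ⟨y, hy, a, ha, hya⟩ := hxq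
  have hxinv := d.ZZ_inv hx
  rcases d.mem_split hm (d.nbr_not hν hjB) hν.symm hx hxj hy with h | h
  · exfalso
    have h1 : q * x * q⁻¹ ∈ ZZ X Γ α := hya ▸ mul_mem (d.ZZ_B_le hjB hj.symm h) ha
    have h2 := d.conj_ZZ (g := q⁻¹) h1
    rw [inv_smul_eq_iff.2 hqα.symm] at h2
    exact hxj (d.inter_nbrs hm hjB hj.symm hν (Ne.symm hνα)
      (by simpa [mul_assoc] using h2) hx)
  · have hk := d.ZZ_B_le hjB hj.symm h
    have hc : x * ((x * y) * a) = (x * y) * a * x :=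
      d.QQ_comm_ZZ (mul_mem hk ha) (d.WW_le_QQ hm h3 α (d.VV_le_WW hj (d.ZZ_le_VV hν hx)))
    have e : q * x * q⁻¹ * x⁻¹ = (x * y) * a := by
      calc q * x * q⁻¹ * x⁻¹ = y * a * x⁻¹ := by rw [← hya]
        _ = (x * x) * y * a * x⁻¹ := by rw [d.ZZ_sq hx, one_mul]
        _ = (x * ((x * y) * a)) * x⁻¹ := by group
        _ = (x * y) * a := by rw [hc, mul_inv_cancel_right]
    rw [e]
    exact mul_mem hk ha

theorem comm_QW {α : V} (hα : ¬ Bv X Γ α) {q x : X} (hq : q ∈ QQ X Γ α) (hx : x ∈ WW X Γ α) :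
    q * x * q⁻¹ * x⁻¹ ∈ ZZ X Γ α := by
  let S : Subgroup X :=
    { carrier := {x | x ∈ QQ X Γ α ∧ ∀ q ∈ QQ X Γ α, q * x * q⁻¹ * x⁻¹ ∈ ZZ X Γ α}
      one_mem' := ⟨one_mem _, fun q _ => by simp⟩
      mul_mem' := by
        rintro x y ⟨hx, hx'⟩ ⟨hy, hy'⟩
        refine ⟨mul_mem hx hy, fun q hq => ?_⟩
        have k := hy' q hq
        have hc := d.QQ_comm_ZZ k hx
        rw [show q * (x * y) * q⁻¹ * (x * y)⁻¹ =
          (q * x * q⁻¹) * (q * y * q⁻¹ * y⁻¹) * x⁻¹ by group]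
        rw [show (q * x * q⁻¹) * (q * y * q⁻¹ * y⁻¹) * x⁻¹ =
          (q * x * q⁻¹ * x⁻¹) * (x * (q * y * q⁻¹ * y⁻¹)) * x⁻¹ by group, hc]
        simpa [mul_assoc] using mul_mem (hx' q hq) k
      inv_mem' := by
        rintro x ⟨hx, hx'⟩
        refine ⟨inv_mem hx, fun q hq => ?_⟩
        have k := inv_mem (hx' q hq)
        have hc := d.QQ_comm_ZZ k (inv_mem hx)
        rw [show q * x⁻¹ * q⁻¹ * x⁻¹⁻¹ = x⁻¹ * (q * x * q⁻¹ * x⁻¹)⁻¹ * x by group, hc,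
          inv_mul_cancel_right]
        exact k }
  suffices h : WW X Γ α ≤ S from (h hx).2 q hq
  refine iSup₂_le fun j hj => iSup₂_le fun ν hν x hx => ?_
  exact ⟨d.WW_le_QQ hm h3 α (d.VV_le_WW hj (d.ZZ_le_VV hν hx)),
    fun q hq => d.comm_QW_gen hm h3 hα hj hν hq hx⟩

theorem exists_w {α β : V} (hα : ¬ Bv X Γ α) (hβ : Γ.Adj α β) :
    ∃ w ∈ WW X Γ α, w ∈ QQ X Γ α ∧ w ∈ QQ X Γ β ∧ ∀ γ, Γ.Adj β γ → γ ≠ α → w ∉ QQ X Γ γ := by
  obtain ⟨β', hβ', hne'⟩ := d.exists_other hβ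
  obtain ⟨β'', hβ'', hne'', hne3, -⟩ := d.exists_third hβ hβ' hne'.symm
  obtain ⟨ν', hν', hν'α⟩ := d.exists_other hβ'.symm
  obtain ⟨ν'', hν'', hν''α⟩ := d.exists_other hβ''.symm
  have hB' := d.nbr_B hβ' hα
  have hB'' := d.nbr_B hβ'' hα
  have hBβ := d.nbr_B hβ hα
  have arc : ∀ {ν j : V}, Γ.Adj α j → Γ.Adj j ν → ν ≠ α → j ≠ β → ∀ γ, Γ.Adj β γ → γ ≠ α →
      IsArc Γ 4 (acons ν (acons j (acons α (acons β fun _ => γ)))) := by
    intro ν j hj hν hνα hjβ γ hγ hγα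
    refine ⟨fun i hi => ?_, fun i hi => ?_⟩
    · interval_cases i
      · exact hν.symm
      · exact hj.symm
      · exact hβ
      · exact hγ
    · have : i ≤ 2 := by omega
      interval_cases i
      · exact hνα
      · exact hjβ
      · exact hγα.symm
  obtain ⟨γ0, hγ0, hγ0α⟩ := d.exists_other hβ.symm
  obtain ⟨x, hx, hxQ⟩ := SetLike.not_le_iff_exists.1
    (d.line_of_arc hm h3 (arc hβ' hν' hν'α hne' γ0 hγ0 hγ0α) (d.nbr_not hν' hB')).first
  obtain ⟨x', hx', hx'Q⟩ := SetLike.not_le_iff_exists.1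
    (d.line_of_arc hm h3 (arc hβ'' hν'' hν''α hne'' γ0 hγ0 hγ0α) (d.nbr_not hν'' hB'')).first
  rw [h3] at hxQ hx'Q
  simp only [acons_zero, acons_succ] at hx hx' hxQ hx'Q
  have hxW : x ∈ WW X Γ α := d.VV_le_WW hβ' (d.ZZ_le_VV hν' hx)
  have hx'W : x' ∈ WW X Γ α := d.VV_le_WW hβ'' (d.ZZ_le_VV hν'' hx')
  have hxα := d.WW_le_QQ hm h3 α hxW
  have hx'α := d.WW_le_QQ hm h3 α hx'W
  refine ⟨x * x', mul_mem hxW hx'W, mul_mem hxα hx'α,
    d.mul_mem_QQ hβ.symm (d.QQ_le_TT' hβ hxα) hxQ (d.QQ_le_TT' hβ hx'α) hx'Q, fun γ hγ hγα hmem => ?_⟩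
  have L := d.line_of_arc hm h3 (arc hβ' hν' hν'α hne' γ hγ hγα) (d.nbr_not hν' hB')
  have L' := d.line_of_arc hm h3 (arc hβ'' hν'' hν''α hne'' γ hγ hγα) (d.nbr_not hν'' hB'')
  obtain ⟨z, hz, hzQ⟩ := SetLike.not_le_iff_exists.1 L.last
  rw [h3] at hz
  simp only [acons_zero, acons_succ] at hz hzQ
  have hzQ' : z ∉ QQ X Γ β'' := by
    intro hz''
    obtain ⟨t, ht, htQ⟩ := SetLike.not_le_iff_exists.1 L'.last
    rw [h3] at ht
    simp only [acons_zero, acons_succ] at ht htQ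
    have hker : ∀ {y}, y ∈ ZZ X Γ γ → y ∈ QQ X Γ β'' → y ∈ ZZ X Γ β := fun hy hy' => by
      have hr := (d.line_rev L' (d.odd_three hm h3)).crit
      have := d.crit_kernel hm hr (by omega) (by simpa [h3] using hy) (by simpa [h3] using hy')
      simpa [h3] using this
    exact hzQ (d.ZZ_le_QQ_of_lt (by
      have h1 := d.connected.dist_triangle (u := β) (v := α) (w := β')
      rw [SimpleGraph.dist_eq_one_iff_adj.2 hβ', SimpleGraph.dist_eq_one_iff_adj.2 hβ.symm] at h1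
      omega) (hker hz hz''))
  obtain ⟨c1, c1a, c1b⟩ := d.comm_third hm h3 L hx (by simpa using hxQ) (by simpa using hz)
    (by simpa using hzQ)
  obtain ⟨c2, c2a, c2b⟩ := d.comm_third hm h3 L' hx' (by simpa using hx'Q) (by simpa using hz)
    (by simpa using hzQ')
  simp only [acons_zero, acons_succ] at c1 c1a c1b c2 c2a c2b
  set k1 := x * (z * x * z⁻¹) with hk1
  set k2 := x' * (z * x' * z⁻¹) with hk2
  have e1 : z * x * z⁻¹ = x * k1 := by rw [hk1, ← mul_assoc x x, d.ZZ_sq hx, one_mul]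
  have e2 : z * x' * z⁻¹ = x' * k2 := by rw [hk2, ← mul_assoc x' x', d.ZZ_sq hx', one_mul]
  have e : z * (x * x') * z⁻¹ = x * x' * (k1 * k2) := by
    calc z * (x * x') * z⁻¹ = (z * x * z⁻¹) * (z * x' * z⁻¹) := by group
      _ = x * (k1 * x') * k2 := by rw [e1, e2]; group
      _ = x * x' * (k1 * k2) := by rw [← d.QQ_comm_ZZ c1 hx'α]; group
  have hcomm : z * (x * x') * z⁻¹ = x * x' := by
    rw [← d.QQ_comm_ZZ hz hmem, mul_inv_cancel_right]
  rw [hcomm] at e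
  have hkk : k1 = k2 := by
    rw [eq_comm, mul_eq_left] at e
    rw [eq_inv_of_mul_eq_one_left e, d.ZZ_inv c2]
  -- a nontrivial element of `Z_α` lies in the centre of a neighbour
  have hc1 : k1 ≠ 1 := fun h => c1a (h ▸ one_mem _)
  obtain ⟨a, ha, ha1⟩ := d.exists_ne_one β
  obtain ⟨b, hb, hb1⟩ := d.exists_ne_one β'
  obtain ⟨c, hc, hc'⟩ := d.exists_ne_one β''
  have ecab := d.eq_mul_of_three hm hα hβ hβ' hβ'' hne'.symm hne''.symm hne3.symm ha hb hc ha1 hb1 hc'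
  have hbα := d.ZZ_B_le hB' hβ'.symm hb
  have hbnot : b ∉ ZZ X Γ β := fun h => hb1 (d.disjoint_ZZ hα hβ hβ' hne'.symm h hb)
  rcases d.mem_split hm hα hβ hbα hbnot c1 with h | h
  · exact c1b h
  · by_cases h1 : b * k1 = 1
    · exact c1a (by rw [eq_inv_of_mul_eq_one_right h1]; exact inv_mem hb)
    · have hk : k1 = c := by
        have := d.eq_of_ne_one hm hBβ h ha h1 ha1
        rw [ecab, ← this, d.ZZ_comm (mul_mem hbα c1) hbα, ← mul_assoc, d.ZZ_sq hbα, one_mul]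
      exact c2a (hkk ▸ hk ▸ hc)

theorem card_le_three (h : Γ.Adj v a) : Nat.card (TT (X := X) v a) ≤ 2 ^ 7 := by
  obtain ⟨p, hp⟩ := d.exists_crit
  have hα := d.crit_start hp
  have hβ := hp.1 0 (by omega)
  set α := p 0
  set β := p 1
  have hBβ := d.nbr_B hβ hα
  haveI := d.finite α
  set W := WW X Γ α with hW
  have hWQ : W ≤ QQ X Γ α := d.WW_le_QQ hm h3 α
  haveI : Finite W := d.finite_of_le (hWQ.trans (d.QQ_le_stab α))
  have hZW : ZZ X Γ α ≤ W := d.ZZ_le_WW h3 α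
  have hWn : stabilizer X α ≤ normalizer (W : Set X) := d.stab_le_normalizer_WW α
  have hWconj : ∀ {g x : X}, g • α = α → x ∈ W → g * x * g⁻¹ ∈ W := fun hg hx =>
    (Subgroup.mem_normalizer_iff.1 (hWn (mem_stabilizer_iff.2 hg)) _).1 hx
  obtain ⟨α2, hα2, hne2⟩ := d.exists_other hβ.symm
  have hα2A := d.nbr_not hα2 hBβ
  obtain ⟨w, hwW, hw2, hwβ, hwne⟩ := d.exists_w hm h3 hα2A hα2.symm
  have hwα := hwne α hβ.symm hne2.symm
  have hwfix : w • α = α := (mem_QQ.1 hwβ).2 _ hβ.symm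
  obtain ⟨w', hw'W, hw'α, hw'β, hw'ne⟩ := d.exists_w hm h3 hα hβ
  have hw'2 := hw'ne α2 hα2 hne2
  -- a mover in `Q_α` lies in `W`
  obtain ⟨τ, hτW, hτQ⟩ : ∃ τ ∈ W, τ ∉ QQ X Γ β := by
    obtain ⟨β', hβ', hne'⟩ := d.exists_other hβ
    obtain ⟨ν, hν, hνα⟩ := d.exists_other hβ'.symm
    have harc : IsArc Γ 3 (acons ν (acons β' (acons α fun _ => β))) := by
      refine ⟨fun i hi => ?_, fun i hi => ?_⟩
      · interval_cases i
        · exact hν.symm
        · exact hβ'.symm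
        · exact hβ
      · have : i ≤ 1 := by omega
        interval_cases i
        · exact hνα
        · exact hne'
    have := (d.crit_of_three hm h3 harc (d.nbr_not hν (d.nbr_B hβ' hα))).2
    rw [h3] at this
    obtain ⟨τ, hτ, hτQ⟩ := SetLike.not_le_iff_exists.1 this
    exact ⟨τ, d.VV_le_WW hβ' (d.ZZ_le_VV hν hτ), hτQ⟩
  have hwcent : ∀ q ∈ QQ X Γ α, w * q * w⁻¹ * q⁻¹ ∈ W := by
    intro q hq
    obtain ⟨ω, hω, e, he, he2, rfl⟩ : ∃ ω ∈ W, ∃ e, e ∈ QQ X Γ α ∧ e ∈ QQ X Γ α2 ∧ q = ω * e := by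
      obtain ⟨ω, hω, e, he, heβ, rfl⟩ : ∃ ω ∈ W, ∃ e, e ∈ QQ X Γ α ∧ e ∈ QQ X Γ β ∧ q = ω * e := by
        by_cases hqβ : q ∈ QQ X Γ β
        · exact ⟨1, one_mem _, q, hq, hqβ, (one_mul q).symm⟩
        · exact ⟨τ, hτW, τ⁻¹ * q, mul_mem (inv_mem (hWQ hτW)) hq,
            d.inv_mul_mem_QQ hβ.symm (d.QQ_le_TT' hβ (hWQ hτW)) hτQ (d.QQ_le_TT' hβ hq) hqβ,
            (mul_inv_cancel_left _ _).symm⟩
      by_cases he2 : e ∈ QQ X Γ α2
      · exact ⟨ω, hω, e, he, he2, rfl⟩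
      · refine ⟨ω * w', mul_mem hω hw'W, w'⁻¹ * e, mul_mem (inv_mem hw'α) he, ?_, by group⟩
        exact d.inv_mul_mem_QQ hα2.symm (d.QQ_le_TT' hα2 hw'β) hw'2 (d.QQ_le_TT' hα2 heβ) he2
    have k1 := hWconj hwfix hω
    have k2 : e * w * e⁻¹ * w⁻¹ ∈ W :=
      d.VV_le_WW hβ (d.ZZ_le_VV hα2 (d.comm_QW hm h3 hα2A he2 hwW))
    rw [show w * (ω * e) * w⁻¹ * (ω * e)⁻¹ = (w * ω * w⁻¹) * (e * w * e⁻¹ * w⁻¹)⁻¹ * ω⁻¹ by group]
    exact mul_mem (mul_mem k1 (inv_mem k2)) (inv_mem hω)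
  -- the elements centralizing `Q_α` modulo `W`
  let H : Subgroup X :=
    { carrier := {g | g • α = α ∧ ∀ q ∈ QQ X Γ α, g * q * g⁻¹ * q⁻¹ ∈ W}
      one_mem' := ⟨one_smul _ _, fun q _ => by simp⟩
      mul_mem' := by
        rintro g k ⟨hg, hg'⟩ ⟨hk, hk'⟩
        refine ⟨by rw [mul_smul, hk, hg], fun q hq => ?_⟩
        rw [show g * k * q * (g * k)⁻¹ * q⁻¹ =
          (g * (k * q * k⁻¹ * q⁻¹) * g⁻¹) * (g * q * g⁻¹ * q⁻¹) by group]
        exact mul_mem (hWconj hg (hk' q hq)) (hg' q hq)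
      inv_mem' := by
        rintro g ⟨hg, hg'⟩
        have hg1 := inv_smul_eq_iff.2 hg.symm
        refine ⟨hg1, fun q hq => ?_⟩
        rw [show g⁻¹ * q * g⁻¹⁻¹ * q⁻¹ = g⁻¹ * (g * q * g⁻¹ * q⁻¹)⁻¹ * g⁻¹⁻¹ by group]
        exact hWconj hg1 (inv_mem (hg' q hq)) }
  have hHG : H ≤ stabilizer X α := fun g hg => mem_stabilizer_iff.2 hg.1
  haveI : Finite H := d.finite_of_le hHG
  have hHn : stabilizer X α ≤ normalizer (H : Set X) := by
    refine Amal.mem_normalizer_of_conj_le fun g hg n hn => ⟨?_, fun q hq => ?_⟩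
    · rw [mul_smul, mul_smul, inv_smul_eq_iff.2 (mem_stabilizer_iff.1 hg).symm, hn.1,
        mem_stabilizer_iff.1 hg]
    · have hgα := mem_stabilizer_iff.1 hg
      have h' := hWconj hgα (hn.2 _ (d.conj_QQ_fix (g := g⁻¹) (inv_smul_eq_iff.2 hgα.symm) hq))
      rw [show g * n * g⁻¹ * q * (g * n * g⁻¹)⁻¹ * q⁻¹ =
        g * (n * (g⁻¹ * q * g⁻¹⁻¹) * n⁻¹ * (g⁻¹ * q * g⁻¹⁻¹)⁻¹) * g⁻¹ by group]
      exact h'
  haveI : Fact (Nat.Prime 3) := ⟨Nat.prime_three⟩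
  have hdiv : 3 ∣ Nat.card H := by
    by_contra hn3
    refine hwα (mem_QQ.2 ⟨hwfix, fun j hj => ?_⟩)
    have hTn : TT α j ≤ normalizer (H : Set X) := inf_le_left.trans hHn
    haveI := d.finite_TT (v := α) (a := j)
    haveI : Finite (TT (X := X) α j ⊔ H : Subgroup X) := d.finite_of_le (sup_le inf_le_left hHG)
    obtain ⟨k, hk⟩ := Subgroup.card_dvd_of_le (le_sup_left : TT α j ≤ TT α j ⊔ H)
    have h1 := Subgroup.card_dvd_of_le (sup_le inf_le_left hHG : TT α j ⊔ H ≤ _)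
    rw [d.card_stab hj, hk, mul_comm 3] at h1
    have hk3 : k ∣ 3 := Nat.dvd_of_mul_dvd_mul_left Nat.card_pos h1
    rcases (Nat.dvd_prime Nat.prime_three).1 hk3 with rfl | rfl
    · rw [mul_one] at hk
      have e : TT α j = TT α j ⊔ H := Subgroup.eq_of_le_of_card_ge le_sup_left hk.le
      have : w ∈ TT (X := X) α j := by rw [e]; exact mem_sup_right ⟨hwfix, hwcent⟩
      exact (mem_TT.1 this).2
    · exfalso
      have hle := Subgroup.card_dvd_of_le (le_sup_right : H ≤ TT α j ⊔ H)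
      have hnd : ¬ 3 ∣ Nat.card (TT (X := X) α j) := three_not_dvd_card le_rfl (d.two hj)
      have hmul : Nat.card (TT (X := X) α j ⊔ H : Subgroup X) *
          Nat.card (TT (X := X) α j ⊓ H : Subgroup X) = Nat.card (TT (X := X) α j) * Nat.card H :=
        Cfsg.Agent.H73.card_sup_mul_inf hTn
      have h3d : 3 ∣ Nat.card (TT (X := X) α j) * Nat.card H := ⟨Nat.card (TT (X := X) α j) *
        Nat.card (TT (X := X) α j ⊓ H : Subgroup X), by rw [← hmul, hk]; ring⟩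
      exact (Nat.prime_three.dvd_mul.1 h3d).elim hnd hn3
  obtain ⟨⟨y, hyα, hyW⟩, hy⟩ := exists_prime_orderOf_dvd_card' (G := H) 3 hdiv
  rw [← Subgroup.orderOf_coe] at hy
  change orderOf y = 3 at hy
  have hy3 : y ^ 3 = 1 := hy ▸ pow_orderOf_eq_one y
  have hymove : ∀ j, Γ.Adj α j → y • j ≠ j := by
    intro j hj hfix
    have hmem : y ∈ TT (X := X) α j := mem_TT.2 ⟨hyα, hfix⟩
    obtain ⟨k, hk⟩ := IsPGroup.iff_orderOf.1 (d.two hj) ⟨y, hmem⟩
    rw [Subgroup.orderOf_mk, hy] at hk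
    rcases k with _ | k
    · simp at hk
    · have h2 : 2 ∣ 3 := hk ▸ dvd_pow_self 2 (Nat.succ_ne_zero k)
      omega
  have hy3' : ∀ x : X, y * (y * (y * x * y⁻¹) * y⁻¹) * y⁻¹ = x := fun x => by
    rw [show y * (y * (y * x * y⁻¹) * y⁻¹) * y⁻¹ = (y * y * y) * x * (y * y * y)⁻¹ by group,
      show y * y * y = 1 by rw [← hy3, pow_succ, pow_two], one_mul, inv_one, mul_one]
  haveI : Finite (QQ X Γ α) := d.finite_of_le (d.QQ_le_stab α)
  have hQT := d.QQ_le_TT (X := X) hβ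
  haveI := d.finite_TT (v := α) (a := β)
  -- fixed points in cosets of normal 2-subgroups
  have hfixed : ∀ (S : Subgroup X), S ≤ QQ X Γ α → (∀ x ∈ S, y * x * y⁻¹ ∈ S) → ∀ q ∈ QQ X Γ α,
      y * q * y⁻¹ * q⁻¹ ∈ S → ∃ k ∈ S, y * (k * q) = k * q * y := by
    intro S hS hSy q hq hqS
    haveI : Finite S := Finite.of_injective _ (Subgroup.inclusion_injective hS)
    let f : S → S := fun k => ⟨(y * k * y⁻¹) * (y * q * y⁻¹ * q⁻¹), mul_mem (hSy k k.2) hqS⟩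
    have hf : ∀ k : S, (f k : X) * q = y * (k * q) * y⁻¹ := fun k => by simp only [f]; group
    obtain ⟨k, hk⟩ := exists_fix_of_three f (fun k => Subtype.ext (mul_right_cancel (b := q) (by
      rw [hf, hf, hf]; exact hy3' _))) (three_not_dvd_card (hS.trans hQT) (d.two hβ))
    refine ⟨k, k.2, ?_⟩
    have := hf k
    rw [hk] at this
    calc y * (k * q) = (y * (k * q) * y⁻¹) * y := by group
      _ = k * q * y := by rw [← this]
  let Y : Subgroup X := QQ X Γ α ⊓ Subgroup.centralizer ({y} : Set X)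
  have hYc : ∀ {u : X}, u ∈ Y → y * u = u * y := fun hu =>
    (mem_centralizer_iff.1 (Subgroup.mem_inf.1 hu).2 y rfl)
  have hmemY : ∀ {u : X}, u ∈ QQ X Γ α → y * u = u * y → u ∈ Y := fun hu hc =>
    Subgroup.mem_inf.2 ⟨hu, mem_centralizer_iff.2 fun g hg => by rw [Set.mem_singleton_iff.1 hg]; exact hc⟩
  have hQWY : QQ X Γ α ≤ W ⊔ Y := by
    intro q hq
    obtain ⟨k, hk, hkq⟩ := hfixed W hWQ (fun x hx => hWconj hyα hx) q hq (hyW q hq)
    rw [show q = k⁻¹ * (k * q) by group]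
    exact mul_mem (mem_sup_left (inv_mem hk))
      (mem_sup_right (hmemY (mul_mem (hWQ hk) hq) hkq))
  have hN : ∀ x ∈ Y, (∀ k ∈ W, k * x = x * k) → x = 1 := by
    by_contra hcon
    push Not at hcon
    obtain ⟨x, hx, hxW, hx1⟩ := hcon
    let N : Subgroup X := Y ⊓ Subgroup.centralizer (W : Set X)
    have hWnY : W ⊔ Y ≤ normalizer (N : Set X) := by
      refine sup_le ?_ ?_
      · intro k hk
        refine centralizer_le_normalizer _ (mem_centralizer_iff.2 fun n hn => ?_)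
        exact (mem_centralizer_iff.1 (Subgroup.mem_inf.1 hn).2 k hk).symm
      · refine Amal.mem_normalizer_of_conj_le fun u hu n hn => ?_
        refine Subgroup.mem_inf.2 ⟨mul_mem (mul_mem hu hn.1) (inv_mem hu), mem_centralizer_iff.2 ?_⟩
        intro k hk
        have h' := mem_centralizer_iff.1 hn.2 _
          (hWconj (inv_smul_eq_iff.2 (mem_QQ.1 hu.1).1.symm) hk)
        calc k * (u * n * u⁻¹) = u * ((u⁻¹ * k * u⁻¹⁻¹) * n) * u⁻¹ := by group
          _ = u * (n * (u⁻¹ * k * u⁻¹⁻¹)) * u⁻¹ := by rw [h']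
          _ = u * n * u⁻¹ * k := by group
    haveI : Fact (Nat.Prime 2) := ⟨Nat.prime_two⟩
    haveI := ((d.two hβ).to_le hQT).isNilpotent
    haveI : (N.subgroupOf (QQ X Γ α)).Normal :=
      ⟨fun n hn g => (Subgroup.mem_normalizer_iff.1 (hWnY (hQWY g.2)) _).1 hn⟩
    have hne : N.subgroupOf (QQ X Γ α) ≠ ⊥ := fun h => by
      have h1 : (⟨x, hx.1⟩ : QQ X Γ α) ∈ N.subgroupOf (QQ X Γ α) :=
        mem_subgroupOf.2 ⟨hx, mem_centralizer_iff.2 hxW⟩
      rw [h, Subgroup.mem_bot] at h1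
      exact hx1 (congrArg Subtype.val h1)
    obtain ⟨z, hz, hz1⟩ :=
      (Subgroup.bot_or_exists_ne_one _).resolve_left (H19.inf_center_ne_bot _ hne)
    obtain ⟨k, hk⟩ := IsPGroup.iff_orderOf.1 ((d.two hβ).to_le hQT) z
    rcases k with _ | k
    · rw [pow_zero, orderOf_eq_one_iff] at hk; exact hz1 hk
    set s := z ^ 2 ^ k with hs
    have hs2 : s * s = 1 := by
      rw [← pow_two, hs, ← pow_mul, ← pow_succ, ← hk, pow_orderOf_eq_one]
    have hs1 : (s : X) ≠ 1 := fun h => by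
      have := orderOf_dvd_of_pow_eq_one (show z ^ 2 ^ k = 1 from Subtype.ext h)
      rw [hk] at this
      exact absurd ((Nat.pow_dvd_pow_iff_le_right (by norm_num)).1 this) (by omega)
    have hsN : s ∈ N.subgroupOf (QQ X Γ α) ⊓ Subgroup.center _ := pow_mem hz _
    have hsZ : (s : X) ∈ ZZ X Γ α := d.mem_ZZ_of_central hm hα s.2
      (fun q hq => congrArg Subtype.val (Subgroup.mem_center_iff.1 hsN.2 ⟨q, hq⟩))
      (congrArg Subtype.val hs2)
    have hsy : y * (s : X) = s * y := hYc (show (s : X) ∈ N from hsN.1).1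
    obtain ⟨β', hβ', hne'⟩ := d.exists_other hβ
    obtain ⟨β'', hβ'', hne'', hne3, hall⟩ := d.exists_third hβ hβ' hne'.symm
    obtain ⟨b, hb, hb1⟩ := d.exists_ne_one β'
    have hin : ∃ j, Γ.Adj α j ∧ (s : X) ∈ ZZ X Γ j := by
      rcases d.mem_split hm hα hβ (d.ZZ_B_le (d.nbr_B hβ' hα) hβ'.symm hb)
        (fun h => hb1 (d.disjoint_ZZ hα hβ hβ' hne'.symm h hb)) hsZ with h | h
      · exact ⟨β, hβ, h⟩
      · by_cases h1 : b * (s : X) = 1
        · exact ⟨β', hβ', by rw [eq_inv_of_mul_eq_one_right h1]; exact inv_mem hb⟩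
        · obtain ⟨c, hc, hc1⟩ := d.exists_ne_one β''
          refine ⟨β'', hβ'', ?_⟩
          have hbα := d.ZZ_B_le (d.nbr_B hβ' hα) hβ'.symm hb
          have := d.eq_mul_of_three hm hα hβ hβ' hβ'' hne'.symm hne''.symm hne3.symm h hb hc h1 hb1 hc1
          rw [d.ZZ_comm (d.ZZ_B_le hBβ hβ.symm h) hbα, ← mul_assoc, d.ZZ_sq hbα, one_mul] at this
          exact this ▸ hc
    obtain ⟨j, hj, hsj⟩ := hin
    have hsj' := d.conj_ZZ (g := y) hsj
    rw [hsy, mul_inv_cancel_right] at hsj'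
    exact hs1 (d.disjoint_ZZ hα hj (d.adj_fix hyα hj) (hymove j hj).symm hsj hsj')
  -- generators of `W`
  obtain ⟨ν, hν, hνα⟩ := d.exists_other hβ.symm
  have hνA := d.nbr_not hν hBβ
  obtain ⟨a0, ha0, ha0β⟩ : ∃ a0 ∈ ZZ X Γ ν, a0 ∉ ZZ X Γ β := by
    by_contra hc
    push Not at hc
    obtain ⟨o, ho, hone⟩ := d.exists_other hν.symm
    obtain ⟨r, hr, hr1⟩ := d.exists_ne_one o
    exact hr1 (d.disjoint_ZZ hνA hν.symm ho hone.symm (hc r (d.ZZ_B_le (d.nbr_B ho hνA) ho.symm hr)) hr)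
  have ha0W : a0 ∈ W := d.VV_le_WW hβ (d.ZZ_le_VV hν ha0)
  set b0 := y * a0 * y⁻¹ with hb0
  set d0 := y * b0 * y⁻¹ with hd0
  have hb0W : b0 ∈ W := hWconj hyα ha0W
  have hd0W : d0 ∈ W := hWconj hyα hb0W
  have hga : y * d0 * y⁻¹ = a0 := hy3' a0
  have hgenW : W ≤ ZZ X Γ α ⊔ zpowers a0 ⊔ zpowers b0 ⊔ zpowers d0 := by
    set G0 := ZZ X Γ α ⊔ zpowers a0 ⊔ zpowers b0 ⊔ zpowers d0 with hG0
    have hZ0 : ZZ X Γ α ≤ G0 := le_sup_left.trans (le_sup_left.trans le_sup_left)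
    have ha0' : a0 ∈ G0 := mem_sup_left (mem_sup_left (mem_sup_right (mem_zpowers a0)))
    have hb0' : b0 ∈ G0 := mem_sup_left (mem_sup_right (mem_zpowers b0))
    have hd0' : d0 ∈ G0 := mem_sup_right (mem_zpowers d0)
    have hy' : ∀ x ∈ G0, y * x * y⁻¹ ∈ G0 := by
      have : G0 ≤ G0.comap (MulAut.conj y).toMonoidHom := by
        refine sup_le (sup_le (sup_le (fun x hx => ?_) ?_) ?_) ?_
        · show y * x * y⁻¹ ∈ G0
          exact hZ0 (by simpa [hyα] using d.conj_ZZ (g := y) hx)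
        · exact zpowers_le.2 hb0'
        · exact zpowers_le.2 hd0'
        · refine zpowers_le.2 ?_
          show y * d0 * y⁻¹ ∈ G0
          rw [hga]; exact ha0'
      exact fun x hx => this hx
    have hνle : ZZ X Γ ν ≤ G0 := by
      intro x hx
      rcases d.mem_split hm hνA hν.symm ha0 ha0β hx with h | h
      · exact hZ0 (d.ZZ_B_le hBβ hβ.symm h)
      · have := mul_mem (inv_mem ha0') (hZ0 (d.ZZ_B_le hBβ hβ.symm h))
        rwa [inv_mul_cancel_left] at this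
    have hVβ : VV X Γ β ≤ G0 := by
      refine iSup₂_le fun μ hμ => ?_
      by_cases h1 : μ = α
      · rw [h1]; exact hZ0
      by_cases h2 : μ = ν
      · rw [h2]; exact hνle
      exact (d.ZZ_le_sup hm h3 hBβ hβ.symm hν hμ hνα.symm h1 h2).trans (sup_le hZ0 hνle)
    have hV' : ∀ {j}, VV X Γ j ≤ G0 → y • α = α → VV X Γ (y • j) ≤ G0 := fun {j} hj _ x hx => by
      have h' := d.conj_VV (g := y⁻¹) hx
      rw [inv_smul_smul, inv_inv] at h'
      have := hy' _ (hj h')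
      simpa [mul_assoc] using this
    obtain ⟨β', hβ', hne', hne'', hall⟩ := d.exists_third hβ (d.adj_fix hyα hβ) (hymove β hβ).symm
    have hyy : y • (y • β) = β' := by
      rcases hall _ (d.adj_fix hyα (d.adj_fix hyα hβ)) with h | h | h
      · exfalso
        refine hymove β hβ ?_
        calc y • β = y • (y • (y • β)) := by rw [h]
          _ = β := by rw [← mul_smul, ← mul_smul, show y * y * y = 1 by rw [← hy3, pow_succ, pow_two], one_smul]
      · exact absurd h (hymove _ (d.adj_fix hyα hβ))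
      · exact h
    refine iSup₂_le fun j hj => ?_
    rcases hall j hj with rfl | rfl | rfl
    · exact hVβ
    · exact hV' hVβ hyα
    · rw [← hyy]; exact hV' (hV' hVβ hyα) hyα
  have hZ4 : Nat.card (ZZ X Γ α) ≤ 4 := by
    obtain ⟨t, ht, htQ⟩ := d.exists_not_mem_QQ hβ
    obtain ⟨r, hr1, hr, hall⟩ := hm β hBβ
    have h1 := d.card_ZZ_le hα hβ ht htQ {1, r} (Set.toFinite _) fun z hz => by
      rcases hall _ (d.delta_mem hα hβ ht hz) with h | h
      · exact Or.inl h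
      · exact Or.inr h
    have h2 : Nat.card (ZZ X Γ β) ≤ 2 := by
      have hsub : (ZZ X Γ β : Set X) ⊆ {1, r} := fun x hx => (hall x hx).imp id id
      refine (Nat.card_coe_set_eq _).le.trans ((Set.ncard_le_ncard hsub (Set.toFinite _)).trans ?_)
      exact (Set.ncard_insert_le _ _).trans (by simp)
    refine h1.trans (le_trans (Nat.mul_le_mul h2 ((Set.ncard_insert_le _ _).trans ?_)) (by norm_num : 2 * 2 ≤ 4))
    simp
  have hYcard : Nat.card Y ≤ 4 := by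
    haveI := d.finite_ZZ α
    refine le_trans (Nat.card_le_card_of_injective (fun u : Y => (⟨(u : X) * a0 * (u : X)⁻¹ * a0⁻¹,
      d.comm_QW hm h3 hα u.2.1 ha0W⟩ : ZZ X Γ α)) ?_) hZ4
    intro u u' he
    simp only [Subtype.mk.injEq, mul_left_inj] at he
    set v0 := (u' : X)⁻¹ * u with hv0
    have hv0Y : v0 ∈ Y := mul_mem (inv_mem u'.2) u.2
    have hca : a0 * v0 = v0 * a0 := by
      calc a0 * v0 = (u' : X)⁻¹ * ((u' : X) * a0 * (u' : X)⁻¹) * u := by rw [hv0]; group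
        _ = (u' : X)⁻¹ * ((u : X) * a0 * (u : X)⁻¹) * u := by rw [he]
        _ = v0 * a0 := by rw [hv0]; group
    have hconj : ∀ {x : X}, x * v0 = v0 * x → y * x * y⁻¹ * v0 = v0 * (y * x * y⁻¹) := by
      intro x hx
      have hc := hYc hv0Y
      have hc' : y⁻¹ * v0 = v0 * y⁻¹ := by
        calc y⁻¹ * v0 = y⁻¹ * (v0 * y) * y⁻¹ := by group
          _ = y⁻¹ * (y * v0) * y⁻¹ := by rw [hc]
          _ = v0 * y⁻¹ := by group
      calc y * x * y⁻¹ * v0 = y * x * (y⁻¹ * v0) := by group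
        _ = y * (x * v0) * y⁻¹ := by rw [hc']; group
        _ = (y * v0) * x * y⁻¹ := by rw [hx]; group
        _ = v0 * (y * x * y⁻¹) := by rw [hc]; group
    have hWc : W ≤ Subgroup.centralizer ({v0} : Set X) := by
      have key : ∀ {x : X}, x * v0 = v0 * x → x ∈ Subgroup.centralizer ({v0} : Set X) := fun hx =>
        mem_centralizer_iff.2 fun g hg => by rw [Set.mem_singleton_iff.1 hg]; exact hx.symm
      refine hgenW.trans (sup_le (sup_le (sup_le (fun x hx => key ?_) ?_) ?_) ?_)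
      · exact (d.QQ_comm_ZZ hx hv0Y.1).symm
      · exact zpowers_le.2 (key hca)
      · exact zpowers_le.2 (key (hconj hca))
      · exact zpowers_le.2 (key (hconj (hconj hca)))
    have h1 := hN v0 hv0Y fun k hk => (mem_centralizer_iff.1 (hWc hk) v0 rfl).symm
    exact Subtype.ext (inv_mul_eq_one.1 h1).symm
  have hnorm : ∀ S : Subgroup X, ZZ X Γ α ≤ S → S ≤ W → QQ X Γ α ≤ normalizer (S : Set X) := by
    intro S hS1 hS2
    refine Amal.mem_normalizer_of_conj_le fun g hg k hk => ?_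
    rw [show g * k * g⁻¹ = (g * k * g⁻¹ * k⁻¹) * k by group]
    exact mul_mem (hS1 (d.comm_QW hm h3 hα hg (hS2 hk))) hk
  set K1 := ZZ X Γ α ⊔ zpowers a0 with hK1
  set K := K1 ⊔ zpowers b0 with hK
  have hK1W : K1 ≤ W := sup_le hZW (zpowers_le.2 ha0W)
  have hKW : K ≤ W := sup_le hK1W (zpowers_le.2 hb0W)
  have hd0K : d0 ∈ Y ⊔ K := by
    set s0 := a0 * b0 * d0 with hs0
    have hs0W : s0 ∈ W := mul_mem (mul_mem ha0W hb0W) hd0W
    have hys : y * s0 * y⁻¹ * s0⁻¹ ∈ ZZ X Γ α := by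
      have e : y * s0 * y⁻¹ = b0 * d0 * a0 := by
        calc y * s0 * y⁻¹ = b0 * d0 * (y * d0 * y⁻¹) := by rw [hs0, hd0, hb0]; group
          _ = b0 * d0 * a0 := by rw [hga]
      rw [e, show b0 * d0 * a0 * s0⁻¹ = b0 * d0 * a0 * (b0 * d0)⁻¹ * a0⁻¹ by rw [hs0]; group]
      exact d.comm_QW hm h3 hα (hWQ (mul_mem hb0W hd0W)) ha0W
    obtain ⟨k, hk, hks⟩ := hfixed (ZZ X Γ α) (d.ZZ_le_QQ α)
      (fun x hx => by simpa [hyα] using d.conj_ZZ (g := y) hx) s0 (hWQ hs0W) hys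
    have hu : k * s0 ∈ Y := hmemY (mul_mem (d.ZZ_le_QQ α hk) (hWQ hs0W)) hks
    rw [show d0 = (k * (a0 * b0))⁻¹ * (k * s0) by rw [hs0]; group]
    refine mul_mem (inv_mem (mul_mem ?_ (mul_mem ?_ ?_))) (mem_sup_left hu) <;> refine mem_sup_right ?_
    · exact mem_sup_left (mem_sup_left hk)
    · exact mem_sup_left (mem_sup_right (mem_zpowers _))
    · exact mem_sup_right (mem_zpowers _)
  have hQle : QQ X Γ α ≤ Y ⊔ K := hQWY.trans (sup_le (hgenW.trans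
    (sup_le le_sup_right (zpowers_le.2 hd0K))) le_sup_left)
  have hz2 : ∀ {x : X}, x * x = 1 → Nat.card (zpowers x) ≤ 2 := fun hx => by
    rw [Nat.card_zpowers]
    exact Nat.le_of_dvd (by norm_num) (orderOf_dvd_of_pow_eq_one (by rw [pow_two, hx]))
  have ha2 : a0 * a0 = 1 := d.ZZ_sq ha0
  have hb2 : b0 * b0 = 1 := by
    rw [hb0, show y * a0 * y⁻¹ * (y * a0 * y⁻¹) = y * (a0 * a0) * y⁻¹ by group, ha2]; group
  have hfin : ∀ {S : Subgroup X}, S ≤ QQ X Γ α → Finite S := fun hS =>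
    Finite.of_injective _ (Subgroup.inclusion_injective hS)
  haveI := d.finite_ZZ α
  haveI : Finite (zpowers a0) := hfin (zpowers_le.2 (hWQ ha0W))
  haveI : Finite (zpowers b0) := hfin (zpowers_le.2 (hWQ hb0W))
  haveI : Finite K1 := hfin (hK1W.trans hWQ)
  haveI : Finite K := hfin (hKW.trans hWQ)
  haveI : Finite Y := hfin inf_le_left
  haveI : Finite (Y ⊔ K : Subgroup X) := hfin (sup_le inf_le_left (hKW.trans hWQ))
  have c1 : Nat.card K1 ≤ 2 * 4 := by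
    rw [hK1, sup_comm]
    exact (card_sup_le ((zpowers_le.2 (hWQ ha0W)).trans
      ((d.QQ_le_stab α).trans (d.stab_le_normalizer_ZZ α)))).trans (Nat.mul_le_mul (hz2 ha2) hZ4)
  have c2 : Nat.card K ≤ 2 * (2 * 4) := by
    rw [hK, sup_comm]
    exact (card_sup_le ((zpowers_le.2 (hWQ hb0W)).trans
      (hnorm K1 le_sup_left hK1W))).trans (Nat.mul_le_mul (hz2 hb2) c1)
  have c3 : Nat.card (QQ X Γ α) ≤ 4 * (2 * (2 * 4)) := by
    refine (Subgroup.card_le_of_le hQle).trans ((card_sup_le ?_).trans (Nat.mul_le_mul hYcard c2))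
    exact inf_le_left.trans (hnorm K (le_sup_left.trans le_sup_left) hKW)
  rw [d.card_TT_eq h hβ, d.card_T hβ]
  norm_num at c3 ⊢
  omega

end Mix

end Cfsg.Agent.H73.GA
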